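import Cfsg.Agent.Lib.helper24.CharMisc
import Cfsg.Agent.Lib.helper24.CharLin
import Cfsg.Agent.Lib.helper24.CharOdd
import Cfsg.Agent.Lib.helper24.CharKer
import Cfsg.Agent.Lib.helper24.CharNormal
import Cfsg.Agent.Lib.helper23.GalConj
import Cfsg.Agent.Lib.helper23.CharInt
import Cfsg.Agent.Lib.helper23.Galois

set_option autoImplicit false

namespace Cfsg.Agent.Lib.helper24.Blich

open Cfsg
open scoped ComplexConjugate

universe u

/-- `G` is a linear group of degree `d`: it has a faithful character of degree `d`. -/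
def Lin (G : Type u) [Group G] (d : ℕ) : Prop :=
  ∃ χ : G → ℂ, IsCharacter G χ ∧ (∀ g : G, χ g = χ 1 → g = 1) ∧ charDegree χ = d

theorem Lin.subgroup {G : Type u} [Group G] [Finite G] {d : ℕ} (h : Lin G d) (H : Subgroup G) :
    Lin H d := by
  obtain ⟨χ, hχ, hf, hd⟩ := h
  refine ⟨fun x : H => χ x, helper24.isCharacter_restrict H hχ, ?_, ?_⟩
  · intro g hg
    have := hf (g : G) hg
    exact Subtype.ext this
  · rw [← hd]
    rfl

/-- A linear group of degree `d` all of whose prime divisors exceed `d + 1` is abelian. -/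
theorem comm_of_lin {G : Type u} [Group G] [Finite G] {d : ℕ} (h : Lin G d)
    (hπ : ∀ r : ℕ, r.Prime → r ∣ Nat.card G → d + 1 < r) : ∀ a b : G, a * b = b * a := by
  classical
  haveI : Fintype G := Fintype.ofFinite _
  obtain ⟨χ, hχ, hf, hd⟩ := h
  obtain ⟨l, rfl⟩ := helper24.isCharacter_iff_exists_list.mp hχ
  have hlin : ∀ ψ ∈ l, ψ.1 1 = 1 := by
    intro ψ hψ
    obtain ⟨k, hk, hkdvd⟩ := helper24.irr_degree_dvd_card ψ
    have hk0 : k ≠ 0 := by
      rintro rfl
      exact helper24.irr_one_ne_zero ψ (by simpa using hk)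
    have hne : classInner (l.map (fun ψ : IrrCharacter G => ψ.1)).sum ψ.1 ≠ 0 := by
      rw [helper24.classInner_irr_list]
      have : l.count ψ ≠ 0 := by
        rw [Ne, List.count_eq_zero]
        exact fun h => h hψ
      exact_mod_cast this
    have hle := helper24.irr_degree_le_of_inner_ne_zero hχ ψ hne
    rw [hk] at hle
    have hkd : k ≤ d := by
      rw [← hd]
      unfold charDegree
      apply Nat.le_floor
      simpa using hle
    by_cases hk1 : k = 1
    · rw [hk, hk1]; simp
    · exfalso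
      obtain ⟨r, hr, hrk⟩ := Nat.exists_prime_and_dvd hk1
      have h1 := hπ r hr (hrk.trans hkdvd)
      have h2 : r ≤ k := Nat.le_of_dvd (Nat.pos_of_ne_zero hk0) hrk
      omega
  intro a b
  have hc : (l.map (fun ψ : IrrCharacter G => ψ.1)).sum (a * b * a⁻¹ * b⁻¹)
      = (l.map (fun ψ : IrrCharacter G => ψ.1)).sum 1 := by
    rw [Pi.list_sum_apply, Pi.list_sum_apply, List.map_map, List.map_map]
    apply congrArg
    apply List.map_congr_left
    intro ψ hψ
    have h1 := hlin ψ hψ
    simp only [Function.comp_apply]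
    rw [helper24.irr_linear_mul' ψ h1, helper24.irr_linear_mul' ψ h1, helper24.irr_linear_mul' ψ h1]
    have ha : ψ.1 a * ψ.1 a⁻¹ = 1 := by
      rw [← helper24.irr_linear_mul' ψ h1, mul_inv_cancel, h1]
    have hb : ψ.1 b * ψ.1 b⁻¹ = 1 := by
      rw [← helper24.irr_linear_mul' ψ h1, mul_inv_cancel, h1]
    rw [h1]
    calc ψ.1 a * ψ.1 b * ψ.1 a⁻¹ * ψ.1 b⁻¹ = (ψ.1 a * ψ.1 a⁻¹) * (ψ.1 b * ψ.1 b⁻¹) := by ring
      _ = 1 := by rw [ha, hb]; ring
  have := hf _ hc
  calc a * b = (a * b * a⁻¹ * b⁻¹) * (b * a) := by group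
    _ = b * a := by rw [this, one_mul]


/-- Power sums of a multiset of `p`-th roots of unity. -/
theorem multiset_root_sum (p : ℕ) (R : Multiset ℂ) (hR : ∀ μ ∈ R, μ ^ p = 1) :
    ∃ c : ℕ, c ≤ Multiset.card R ∧
      ∑ j ∈ Finset.range p, (R.map (fun μ : ℂ => μ ^ j)).sum = (p : ℂ) * c ∧
      (c = Multiset.card R → (R.map (fun μ : ℂ => μ ^ 1)).sum = (Multiset.card R : ℂ)) := by
  induction R using Multiset.induction_on with
  | empty => exact ⟨0, le_rfl, by simp, by simp⟩
  | cons a R ih =>
    obtain ⟨c, hc, hs, h3⟩ := ih (fun μ hμ => hR μ (Multiset.mem_cons_of_mem hμ))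
    have ha : a ^ p = 1 := hR a (Multiset.mem_cons_self a R)
    have hsplit : ∑ j ∈ Finset.range p, (((a ::ₘ R).map (fun μ => μ ^ j)).sum)
        = ∑ j ∈ Finset.range p, a ^ j + (p : ℂ) * c := by
      rw [← hs, ← Finset.sum_add_distrib]
      apply Finset.sum_congr rfl
      intro j _
      simp
    by_cases h1 : a = 1
    · refine ⟨c + 1, by simp; omega, ?_, ?_⟩
      · rw [hsplit, h1]
        simp
        ring
      · intro hcc
        have hc' : c = Multiset.card R := by simpa using hcc
        have := h3 hc'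
        simp only [Multiset.map_cons, Multiset.sum_cons, Multiset.card_cons]
        rw [this, h1]
        push_cast
        ring
    · refine ⟨c, by simp; omega, ?_, ?_⟩
      · rw [hsplit]
        have hg : (a - 1) * ∑ j ∈ Finset.range p, a ^ j = a ^ p - 1 := mul_geom_sum a p
        rw [ha, sub_self] at hg
        have h0 : ∑ j ∈ Finset.range p, a ^ j = 0 := by
          rcases mul_eq_zero.1 hg with h | h
          · exact absurd (sub_eq_zero.1 h) h1
          · exact h
        rw [h0, zero_add]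
      · intro hcc
        simp at hcc
        omega

/-- A character of degree `< p - 1` which is not trivial at an element `u` of order `p` takes
different values at `u` and at some power `u ^ r` with `0 < r < p`. -/
theorem exists_pow_ne {G : Type u} [Group G] [Finite G] {ψ : G → ℂ} (hψ : IsCharacter G ψ)
    (p : ℕ) (hp : p.Prime) (k : ℕ) (hk : ψ 1 = k) (hkp : k + 1 < p) (u : G)
    (hu : orderOf u = p) (hne : ψ u ≠ ψ 1) : ∃ r : ℕ, 0 < r ∧ r < p ∧ ψ (u ^ r) ≠ ψ u := by
  obtain ⟨n, ρ, rfl⟩ := hψ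
  obtain ⟨R, hR, hsum⟩ := helper23.genrep_power_sums ρ u
  rw [hu] at hR
  by_contra hall
  push Not at hall
  obtain ⟨c, hc, hs, h3⟩ := multiset_root_sum p R hR
  have hcard : (Multiset.card R : ℂ) = k := by
    have h0 := hsum 0
    simp only [pow_zero] at h0
    rw [hk] at h0
    rw [h0]
    simp
  have hcardk : Multiset.card R = k := by exact_mod_cast hcard
  have hS : ∑ j ∈ Finset.range p, ρ.character (u ^ j) = (p : ℂ) * c := by
    rw [← hs]
    exact Finset.sum_congr rfl (fun j _ => hsum j)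
  have hS2 : ∑ j ∈ Finset.range p, ρ.character (u ^ j)
      = (k : ℂ) + ((p : ℂ) - 1) * ρ.character u := by
    obtain ⟨p', rfl⟩ : ∃ p', p = p' + 1 := ⟨p - 1, by have := hp.pos; omega⟩
    rw [Finset.sum_range_succ']
    simp only [pow_zero]
    rw [hk]
    have : ∑ j ∈ Finset.range p', ρ.character (u ^ (j + 1))
        = ∑ j ∈ Finset.range p', ρ.character u := by
      apply Finset.sum_congr rfl
      intro j hj
      exact hall (j + 1) (by omega) (by have := Finset.mem_range.1 hj; omega)
    rw [this]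
    simp
    ring
  have hint : IsIntegral ℤ (ρ.character u) :=
    helper23.rep_char_isIntegral n ρ u (isOfFinOrder_of_finite u)
  have hp1 : ((p : ℂ) - 1) ≠ 0 := by
    intro h
    have h2 : (p : ℂ) = 1 := by linear_combination h
    have h3' : p = 1 := by exact_mod_cast h2
    exact hp.one_lt.ne' h3'
  have hval : ρ.character u = (((p : ℚ) * c - k) / ((p : ℚ) - 1) : ℚ) := by
    push_cast
    rw [eq_div_iff hp1]
    linear_combination hS - hS2
  rw [hval] at hint
  obtain ⟨m, hm⟩ := helper23.rat_of_isIntegral_complex hint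
  have hp1' : ((p : ℚ) - 1) ≠ 0 := by
    intro h
    have h2 : (p : ℚ) = 1 := by linear_combination h
    have h3' : p = 1 := by exact_mod_cast h2
    exact hp.one_lt.ne' h3'
  have hmeq : (m : ℚ) * ((p : ℚ) - 1) = (p : ℚ) * c - k := by
    rw [hm]
    field_simp
  have hmz : m * ((p : ℤ) - 1) = (p : ℤ) * c - k := by exact_mod_cast hmeq
  have hck : c = k := by
    have h1 : ((p : ℤ) - 1) * (m - c) = (c : ℤ) - k := by linear_combination hmz
    have hc' : (c : ℤ) ≤ k := by exact_mod_cast (hcardk ▸ hc)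
    by_contra hne'
    have hlt : (c : ℤ) < k := lt_of_le_of_ne hc' (by exact_mod_cast hne')
    have hpk : (k : ℤ) + 1 < p := by exact_mod_cast hkp
    have hc0 : (0 : ℤ) ≤ c := by positivity
    have hneg : (m - c : ℤ) < 0 := by
      by_contra hge
      push Not at hge
      nlinarith
    nlinarith
  apply hne
  have h4 := h3 (by rw [hcardk]; exact hck)
  have h5 := hsum 1
  rw [pow_one] at h5
  rw [h5, h4, hcard, hk]


/-- Degrees of the constituents of a character given as a list of irreducibles. -/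
theorem constituent_degree {G : Type u} [Group G] [Finite G] (l : List (IrrCharacter G))
    (ψ : IrrCharacter G) (hψ : ψ ∈ l) :
    ∃ k : ℕ, ψ.1 1 = k ∧ k ≠ 0 ∧ k ∣ Nat.card G ∧
      k ≤ charDegree (l.map (fun ψ : IrrCharacter G => ψ.1)).sum := by
  classical
  haveI : Fintype G := Fintype.ofFinite _
  obtain ⟨k, hk, hkdvd⟩ := helper24.irr_degree_dvd_card ψ
  have hk0 : k ≠ 0 := by
    rintro rfl
    exact helper24.irr_one_ne_zero ψ (by simpa using hk)
  have hχ : IsCharacter G (l.map (fun ψ : IrrCharacter G => ψ.1)).sum :=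
    helper24.isCharacter_iff_exists_list.mpr ⟨l, rfl⟩
  have hne : classInner (l.map (fun ψ : IrrCharacter G => ψ.1)).sum ψ.1 ≠ 0 := by
    rw [helper24.classInner_irr_list]
    have : l.count ψ ≠ 0 := by
      rw [Ne, List.count_eq_zero]
      exact fun h => h hψ
    exact_mod_cast this
  have hle := helper24.irr_degree_le_of_inner_ne_zero hχ ψ hne
  rw [hk] at hle
  refine ⟨k, hk, hk0, hkdvd, ?_⟩
  unfold charDegree
  apply Nat.le_floor
  simpa using hle

/-- An exponent congruent to `r` modulo `p` which fixes all `p`-regular elements. -/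
theorem exists_exponent (G : Type u) [Group G] [Finite G] (p : ℕ) (hp : p.Prime) (r : ℕ)
    (hr0 : 0 < r) (hrp : r < p) :
    ∃ a : ℕ, a.Coprime (Nat.card G) ∧ a ≡ r [MOD p] ∧ ∀ g : G, ¬ p ∣ orderOf g → g ^ a = g := by
  have hn : Nat.card G ≠ 0 := Nat.card_pos.ne'
  have co : Nat.Coprime p (ordCompl[p] (Nat.card G)) := Nat.coprime_ordCompl hp hn
  obtain ⟨a, ha1, ha2⟩ := Nat.chineseRemainder co r 1
  have hcr : Nat.Coprime r p := by
    have : Nat.Coprime p r := (Nat.Prime.coprime_iff_not_dvd hp).2 (Nat.not_dvd_of_pos_of_lt hr0 hrp)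
    exact this.symm
  have hcap : Nat.Coprime a p := by
    unfold Nat.Coprime
    rw [Nat.ModEq.gcd_eq ha1]
    exact hcr
  have hcas : Nat.Coprime a (ordCompl[p] (Nat.card G)) := by
    unfold Nat.Coprime
    rw [Nat.ModEq.gcd_eq ha2]
    simp
  refine ⟨a, ?_, ha1, ?_⟩
  · rw [← Nat.ordProj_mul_ordCompl_eq_self (Nat.card G) p]
    exact Nat.Coprime.mul_right (Nat.Coprime.pow_right _ hcap) hcas
  · intro g hg
    have h1 : orderOf g ∣ ordProj[p] (Nat.card G) * ordCompl[p] (Nat.card G) := by
      rw [Nat.ordProj_mul_ordCompl_eq_self]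
      exact orderOf_dvd_natCard g
    have h2 : Nat.Coprime (orderOf g) (ordProj[p] (Nat.card G)) := by
      apply Nat.Coprime.pow_right
      exact ((Nat.Prime.coprime_iff_not_dvd hp).2 hg).symm
    have h3 : orderOf g ∣ ordCompl[p] (Nat.card G) := h2.dvd_of_dvd_mul_left h1
    have h4 : a ≡ 1 [MOD orderOf g] := ha2.of_dvd h3
    have := (pow_eq_pow_iff_modEq (x := g)).2 h4
    rw [this, pow_one]

/-- In a linear group of degree `d`, two distinct primes `> d + 1` dividing the order are the
orders of two commuting elements. -/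
theorem exists_comm_pq {G : Type u} [Group G] [Finite G] {d : ℕ} (h : Lin G d) (p q : ℕ)
    (hp : p.Prime) (hq : q.Prime) (hdp : d + 1 < p) (hdq : d + 1 < q)
    (hpG : p ∣ Nat.card G) (hqG : q ∣ Nat.card G) :
    ∃ u v : G, orderOf u = p ∧ orderOf v = q ∧ u * v = v * u := by
  classical
  haveI : Fintype G := Fintype.ofFinite _
  haveI := Fact.mk hp
  haveI := Fact.mk hq
  obtain ⟨u, hu⟩ := exists_prime_orderOf_dvd_card' p hpG
  obtain ⟨v, hv⟩ := exists_prime_orderOf_dvd_card' q hqG
  obtain ⟨χ, hχ, hf, hd⟩ := h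
  obtain ⟨l, rfl⟩ := helper24.isCharacter_iff_exists_list.mp hχ
  by_cases hcase : ∃ ψ ∈ l, ψ.1 u ≠ ψ.1 1 ∧ ψ.1 v ≠ ψ.1 1
  · obtain ⟨ψ, hψl, hψu, hψv⟩ := hcase
    obtain ⟨k, hk, _, _, hkd⟩ := constituent_degree l ψ hψl
    rw [hd] at hkd
    obtain ⟨r, hr0, hrp, hr⟩ :=
      exists_pow_ne (helper24.isCharacter_irr ψ) p hp k hk (by omega) u hu hψu
    obtain ⟨s, hs0, hsq, hs⟩ :=
      exists_pow_ne (helper24.isCharacter_irr ψ) q hq k hk (by omega) v hv hψv
    obtain ⟨a, hacop, hamod, hareg⟩ := exists_exponent G p hp r hr0 hrp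
    obtain ⟨b, hbcop, hbmod, hbreg⟩ := exists_exponent G q hq s hs0 hsq
    have h1 := ψ.2
    have h2 : IsIrrCharacter G (fun g => ψ.1 (g ^ a)) :=
      helper23.isIrrCharacter_pow_coprime ψ.2 a hacop
    have h3 : IsIrrCharacter G (fun g => ψ.1 (g ^ b)) :=
      helper23.isIrrCharacter_pow_coprime ψ.2 b hbcop
    have h4 : IsIrrCharacter G (fun g => ψ.1 (g ^ (a * b))) :=
      helper23.isIrrCharacter_pow_coprime ψ.2 (a * b) (Nat.Coprime.mul_left hacop hbcop)
    have hne2 : (fun g => ψ.1 (g ^ a)) ≠ ψ.1 := by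
      intro heq
      have h5 := congrFun heq u
      have hua : u ^ a = u ^ r := by
        rw [pow_eq_pow_iff_modEq, hu]
        exact hamod
      rw [hua] at h5
      exact hr h5
    have hne3 : (fun g => ψ.1 (g ^ b)) ≠ ψ.1 := by
      intro heq
      have h5 := congrFun heq v
      have hvb : v ^ b = v ^ s := by
        rw [pow_eq_pow_iff_modEq, hv]
        exact hbmod
      rw [hvb] at h5
      exact hs h5
    have hex : ∃ g : G, ψ.1 g - ψ.1 (g ^ a) - ψ.1 (g ^ b) + ψ.1 (g ^ (a * b)) ≠ 0 := by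
      by_contra hall
      push Not at hall
      have hfun : ψ.1 + (fun g => ψ.1 (g ^ (a * b)))
          = (fun g => ψ.1 (g ^ a)) + (fun g => ψ.1 (g ^ b)) := by
        funext g
        simp only [Pi.add_apply]
        linear_combination hall g
      have hin : classInner (ψ.1 + (fun g => ψ.1 (g ^ (a * b)))) ψ.1
          = classInner ((fun g => ψ.1 (g ^ a)) + (fun g => ψ.1 (g ^ b))) ψ.1 := by rw [hfun]
      rw [helper24.classInner_add_left, helper24.classInner_add_left,
        helper24.classInner_irr_fun h1 h1, helper24.classInner_irr_fun h4 h1,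
        helper24.classInner_irr_fun h2 h1, helper24.classInner_irr_fun h3 h1,
        if_pos rfl, if_neg hne2, if_neg hne3] at hin
      split_ifs at hin <;> norm_num at hin
    obtain ⟨g, hg⟩ := hex
    have hpg : p ∣ orderOf g := by
      by_contra hnp
      apply hg
      have e1 : g ^ a = g := hareg g hnp
      have e2 : g ^ (a * b) = g ^ b := by rw [pow_mul, e1]
      rw [e1, e2]
      ring
    have hqg : q ∣ orderOf g := by
      by_contra hnq
      apply hg
      have e1 : g ^ b = g := hbreg g hnq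
      have e2 : g ^ (a * b) = g ^ a := by rw [mul_comm, pow_mul, e1]
      rw [e1, e2]
      ring
    refine ⟨g ^ (orderOf g / p), g ^ (orderOf g / q), ?_, ?_, ?_⟩
    · exact orderOf_pow_orderOf_div (orderOf_pos g).ne' hpg
    · exact orderOf_pow_orderOf_div (orderOf_pos g).ne' hqg
    · rw [← pow_add, ← pow_add, add_comm]
  · push Not at hcase
    refine ⟨u, v, hu, hv, ?_⟩
    have hc : (l.map (fun ψ : IrrCharacter G => ψ.1)).sum (u * v * u⁻¹ * v⁻¹)
        = (l.map (fun ψ : IrrCharacter G => ψ.1)).sum 1 := by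
      rw [Pi.list_sum_apply, Pi.list_sum_apply, List.map_map, List.map_map]
      apply congrArg
      apply List.map_congr_left
      intro ψ hψ
      simp only [Function.comp_apply]
      rw [← helper24.mem_irrKer]
      by_cases h1 : ψ.1 u = ψ.1 1
      · have hu' : u ∈ helper24.irrKer ψ := (helper24.mem_irrKer ψ u).2 h1
        have e : u * v * u⁻¹ * v⁻¹ = u * (v * u⁻¹ * v⁻¹) := by group
        rw [e]
        exact mul_mem hu' ((helper24.irrKer_normal ψ).conj_mem _ (inv_mem hu') v)
      · have hv' : v ∈ helper24.irrKer ψ := (helper24.mem_irrKer ψ v).2 (hcase ψ hψ h1)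
        exact mul_mem ((helper24.irrKer_normal ψ).conj_mem _ hv' u) (inv_mem hv')
    have := hf _ hc
    calc u * v = (u * v * u⁻¹ * v⁻¹) * (v * u) := by group
      _ = v * u := by rw [this, one_mul]

end Cfsg.Agent.Lib.helper24.Blich
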