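import Cfsg.Agent.Lib.helper24.Blich1

set_option autoImplicit false

namespace Cfsg.Agent.Lib.helper24.Blich

open Cfsg
open scoped ComplexConjugate

universe u

/-- In a linear group of degree `d`, a normal `p`-subgroup commutes with every `q`-subgroup, for
primes `p, q > d + 1`. -/
theorem comm_normal {G : Type u} [Group G] [Finite G] {d : ℕ} (h : Lin G d) (p q : ℕ)
    (hp : p.Prime) (hq : q.Prime) (hdp : d + 1 < p) (hdq : d + 1 < q) (P : Subgroup G)
    (hPn : P.Normal) (hP : IsPGroup p P) (Q : Subgroup G) (hQ : IsPGroup q Q) :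
    ∀ x ∈ P, ∀ y ∈ Q, x * y = y * x := by
  haveI := hPn
  haveI := Fact.mk hp
  haveI := Fact.mk hq
  have hPH : P ≤ (Q.map (QuotientGroup.mk' P)).comap (QuotientGroup.mk' P) := by
    intro x hx
    rw [Subgroup.mem_comap]
    have : QuotientGroup.mk' P x = 1 := (QuotientGroup.eq_one_iff x).2 hx
    rw [this]
    exact one_mem _
  have hQH : Q ≤ (Q.map (QuotientGroup.mk' P)).comap (QuotientGroup.mk' P) := by
    intro y hy
    rw [Subgroup.mem_comap]
    exact Subgroup.mem_map_of_mem _ hy
  have hcard : Nat.card ((Q.map (QuotientGroup.mk' P)).comap (QuotientGroup.mk' P))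
      = Nat.card P * Nat.card (Q.map (QuotientGroup.mk' P)) := by
    have h1 : ((Q.map (QuotientGroup.mk' P)).comap (QuotientGroup.mk' P)).index
        = (Q.map (QuotientGroup.mk' P)).index :=
      Subgroup.index_comap_of_surjective _ (QuotientGroup.mk'_surjective P)
    have h2 := Subgroup.card_mul_index ((Q.map (QuotientGroup.mk' P)).comap (QuotientGroup.mk' P))
    have h3 := Subgroup.card_mul_index (Q.map (QuotientGroup.mk' P))
    have h4 := Subgroup.card_mul_index P
    have h5 : Nat.card (G ⧸ P) = P.index := (Subgroup.index_eq_card P).symm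
    have hi : (Q.map (QuotientGroup.mk' P)).index ≠ 0 := Subgroup.index_ne_zero_of_finite
    apply Nat.eq_of_mul_eq_mul_right (Nat.pos_of_ne_zero hi)
    rw [h1] at h2
    rw [h2, ← h4, ← h5, ← h3]
    ring
  have hcomm := comm_of_lin (h.subgroup ((Q.map (QuotientGroup.mk' P)).comap (QuotientGroup.mk' P)))
    (by
      intro r hr hrdvd
      rw [hcard] at hrdvd
      rcases (Nat.Prime.dvd_mul hr).1 hrdvd with h1 | h1
      · obtain ⟨a, ha⟩ := hP.exists_card_eq
        rw [ha] at h1
        have := (Nat.prime_dvd_prime_iff_eq hr hp).1 (hr.dvd_of_dvd_pow h1)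
        omega
      · obtain ⟨b, hb⟩ := (hQ.map (QuotientGroup.mk' P)).exists_card_eq
        rw [hb] at h1
        have := (Nat.prime_dvd_prime_iff_eq hr hq).1 (hr.dvd_of_dvd_pow h1)
        omega)
  intro x hx y hy
  exact congrArg Subtype.val (hcomm ⟨x, hPH hx⟩ ⟨y, hQH hy⟩)

/-- Transfer: a nontrivial central element of an abelian Sylow `q`-subgroup gives a proper normal
subgroup of `q`-power index. -/
theorem exists_normal_qpow_index {G : Type u} [Group G] [Finite G] (q : ℕ) [Fact q.Prime]
    (Q : Sylow q G) (hQ : ∀ a ∈ (Q : Subgroup G), ∀ b ∈ (Q : Subgroup G), a * b = b * a) (z : G)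
    (hz : z ∈ Subgroup.center G) (hzQ : z ∈ (Q : Subgroup G)) (hz1 : z ≠ 1) :
    ∃ G₁ : Subgroup G, G₁.Normal ∧ G₁ ≠ ⊤ ∧ ∃ j : ℕ, G₁.index = q ^ j := by
  letI : CommGroup (Q : Subgroup G) :=
    { (inferInstance : Group (Q : Subgroup G)) with
      mul_comm := fun a b => Subtype.ext (hQ a a.2 b b.2) }
  have key : ∀ (k : ℕ) (g₀ : G), g₀⁻¹ * z ^ k * g₀ ∈ (Q : Subgroup G) →
      g₀⁻¹ * z ^ k * g₀ = z ^ k := by
    intro k g₀ _
    have := Subgroup.mem_center_iff.mp (pow_mem hz k) g₀
    rw [mul_assoc, ← this, inv_mul_cancel_left]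
  have hT := MonoidHom.transfer_eq_pow (MonoidHom.id (Q : Subgroup G)) z key
  refine ⟨(MonoidHom.transfer (MonoidHom.id (Q : Subgroup G))).ker, inferInstance, ?_, ?_⟩
  · intro htop
    have hzk : z ∈ (MonoidHom.transfer (MonoidHom.id (Q : Subgroup G))).ker := by
      rw [htop]; trivial
    rw [MonoidHom.mem_ker, hT] at hzk
    have h1 : z ^ (Q : Subgroup G).index = 1 := by
      have := congrArg Subtype.val hzk
      simpa using this
    have h2 : orderOf z ∣ (Q : Subgroup G).index := orderOf_dvd_of_pow_eq_one h1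
    obtain ⟨k, hk⟩ := (IsPGroup.iff_orderOf.1 Q.isPGroup') ⟨z, hzQ⟩
    rw [Subgroup.orderOf_mk] at hk
    have hk0 : k ≠ 0 := by
      rintro rfl
      rw [pow_zero, orderOf_eq_one_iff] at hk
      exact hz1 hk
    rw [hk] at h2
    exact Q.not_dvd_index ((dvd_pow_self q hk0).trans h2)
  · rw [Subgroup.index_ker]
    exact (Q.isPGroup'.to_subgroup _).exists_card_eq

/-- The conclusion: commuting subgroups of Sylow orders. -/
def Concl (G : Type u) [Group G] (p q : ℕ) : Prop :=
  ∃ P Q : Subgroup G, Nat.card P = p ^ (Nat.card G).factorization p ∧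
    Nat.card Q = q ^ (Nat.card G).factorization q ∧ ∀ x ∈ P, ∀ y ∈ Q, x * y = y * x

theorem Concl.symm {G : Type u} [Group G] {p q : ℕ} (h : Concl G p q) : Concl G q p := by
  obtain ⟨P, Q, h1, h2, h3⟩ := h
  exact ⟨Q, P, h2, h1, fun x hx y hy => (h3 y hy x hx).symm⟩

/-- The induction hypothesis: the conclusion for all proper subgroups. -/
def IH (G : Type u) [Group G] (d : ℕ) : Prop :=
  ∀ H : Subgroup G, H ≠ ⊤ → ∀ p q : ℕ, p.Prime → q.Prime → p ≠ q → d + 1 < p → d + 1 < q →
    Concl H p q

theorem concl_of_subgroup {G : Type u} [Group G] [Finite G] {d : ℕ} (hIH : IH G d) (p q : ℕ)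
    (hp : p.Prime) (hq : q.Prime) (hpq : p ≠ q) (hdp : d + 1 < p) (hdq : d + 1 < q)
    (H : Subgroup G) (hH : H ≠ ⊤) (hpH : p ^ (Nat.card G).factorization p ∣ Nat.card H)
    (hqH : q ^ (Nat.card G).factorization q ∣ Nat.card H) : Concl G p q := by
  obtain ⟨P', Q', hP', hQ', hc⟩ := hIH H hH p q hp hq hpq hdp hdq
  have hHG : Nat.card H ∣ Nat.card G := Subgroup.card_subgroup_dvd_card H
  have hG0 : Nat.card G ≠ 0 := Nat.card_pos.ne'
  have hH0 : Nat.card H ≠ 0 := Nat.card_pos.ne'
  have e1 : (Nat.card H).factorization p = (Nat.card G).factorization p :=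
    le_antisymm ((Nat.factorization_le_iff_dvd hH0 hG0).2 hHG p)
      ((hp.pow_dvd_iff_le_factorization hH0).1 hpH)
  have e2 : (Nat.card H).factorization q = (Nat.card G).factorization q :=
    le_antisymm ((Nat.factorization_le_iff_dvd hH0 hG0).2 hHG q)
      ((hq.pow_dvd_iff_le_factorization hH0).1 hqH)
  refine ⟨P'.map H.subtype, Q'.map H.subtype, ?_, ?_, ?_⟩
  · rw [Subgroup.card_map_of_injective H.subtype_injective, hP', e1]
  · rw [Subgroup.card_map_of_injective H.subtype_injective, hQ', e2]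
  · rintro x ⟨x', hx', rfl⟩ y ⟨y', hy', rfl⟩
    exact congrArg Subtype.val (hc x' hx' y' hy')


/-- a `p`-Sylow-order subgroup of a linear group (`p > d + 1`) is abelian -/
theorem comm_of_pgroup {G : Type u} [Group G] [Finite G] {d : ℕ} (hlin : Lin G d) (p : ℕ)
    (hp : p.Prime) (hdp : d + 1 < p) (P : Subgroup G) (hP : IsPGroup p P) :
    ∀ a ∈ P, ∀ b ∈ P, a * b = b * a := by
  haveI := Fact.mk hp
  have hc := comm_of_lin (hlin.subgroup P) (by
    intro r hr hrdvd
    obtain ⟨a, ha⟩ := hP.exists_card_eq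
    rw [ha] at hrdvd
    have := (Nat.prime_dvd_prime_iff_eq hr hp).1 (hr.dvd_of_dvd_pow hrdvd)
    omega)
  intro a ha b hb
  exact congrArg Subtype.val (hc ⟨a, ha⟩ ⟨b, hb⟩)

theorem concl_of_central {G : Type u} [Group G] [Finite G] {d : ℕ} (hlin : Lin G d)
    (hIH : IH G d) (p q : ℕ) (hp : p.Prime) (hq : q.Prime) (hpq : p ≠ q) (hdp : d + 1 < p)
    (hdq : d + 1 < q) (z : G) (hz : z ∈ Subgroup.center G) (hz1 : z ≠ 1) (k : ℕ)
    (hzk : orderOf z = q ^ k) : Concl G p q := by
  haveI := Fact.mk hp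
  haveI := Fact.mk hq
  have hzp : IsPGroup q (Subgroup.zpowers z) :=
    IsPGroup.of_card (n := k) (by rw [Nat.card_zpowers, hzk])
  obtain ⟨Q₀, hQ₀⟩ := hzp.exists_le_sylow
  have hQ₀ab := comm_of_pgroup hlin q hq hdq Q₀ Q₀.isPGroup'
  obtain ⟨G₁, hG₁n, hG₁top, j, hj⟩ :=
    exists_normal_qpow_index q Q₀ hQ₀ab z hz (hQ₀ (Subgroup.mem_zpowers z)) hz1
  haveI := hG₁n
  obtain ⟨P₁, Q₁, hP₁, hQ₁, hc₁⟩ := hIH G₁ hG₁top p q hp hq hpq hdp hdq
  have hG0 : Nat.card G ≠ 0 := Nat.card_pos.ne'
  have hG10 : Nat.card G₁ ≠ 0 := Nat.card_pos.ne'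
  have hcardG : Nat.card G = Nat.card G₁ * q ^ j := by
    rw [← hj]; exact (Subgroup.card_mul_index G₁).symm
  have hfp : (Nat.card G).factorization p = (Nat.card G₁).factorization p := by
    rw [hcardG, Nat.factorization_mul hG10 (pow_ne_zero _ hq.ne_zero), Nat.factorization_pow]
    simp [Nat.Prime.factorization hq, Finsupp.single_apply, hpq.symm]
  have hfq : (Nat.card G).factorization q = (Nat.card G₁).factorization q + j := by
    rw [hcardG, Nat.factorization_mul hG10 (pow_ne_zero _ hq.ne_zero), Nat.factorization_pow]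
    simp [Nat.Prime.factorization hq]
  have hPcard : Nat.card (P₁.map G₁.subtype) = p ^ (Nat.card G).factorization p := by
    rw [Subgroup.card_map_of_injective G₁.subtype_injective, hP₁, hfp]
  have hQcard : Nat.card (Q₁.map G₁.subtype) = q ^ (Nat.card G₁).factorization q := by
    rw [Subgroup.card_map_of_injective G₁.subtype_injective, hQ₁]
  by_cases hM : Subgroup.normalizer ((P₁.map G₁.subtype : Subgroup G) : Set G) = ⊤
  · have hPn : (P₁.map G₁.subtype).Normal := Subgroup.normalizer_eq_top_iff.1 hM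
    obtain ⟨Q⟩ : Nonempty (Sylow q G) := inferInstance
    exact ⟨P₁.map G₁.subtype, Q, hPcard, Sylow.card_eq_multiplicity Q,
      comm_normal hlin p q hp hq hdp hdq _ hPn (IsPGroup.of_card hPcard) Q Q.isPGroup'⟩
  · apply concl_of_subgroup hIH p q hp hq hpq hdp hdq _ hM
    · rw [← hPcard]
      exact Subgroup.card_dvd_of_le Subgroup.le_normalizer
    · have hfr : Subgroup.normalizer ((P₁.map G₁.subtype : Subgroup G) : Set G) ⊔ G₁ = ⊤ :=
        Sylow.normalizer_sup_eq_top (Sylow.ofCard P₁ hP₁)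
      have hrel : G₁.relIndex (Subgroup.normalizer ((P₁.map G₁.subtype : Subgroup G) : Set G))
          = q ^ j := by
        have h1 := Subgroup.relIndex_sup_right
          (H := Subgroup.normalizer ((P₁.map G₁.subtype : Subgroup G) : Set G)) (K := G₁)
        rw [hfr, Subgroup.relIndex_top_right] at h1
        rw [← h1, hj]
      have hQM : Q₁.map G₁.subtype
          ≤ Subgroup.normalizer ((P₁.map G₁.subtype : Subgroup G) : Set G) := by
        rintro y ⟨y', hy', rfl⟩
        apply Subgroup.mem_normalizer_fintype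
        rintro n ⟨n', hn', rfl⟩
        have h1 := hc₁ n' hn' y' hy'
        have e : (G₁.subtype y') * (G₁.subtype n') * (G₁.subtype y')⁻¹ = G₁.subtype n' := by
          rw [← map_mul, ← h1, map_mul, mul_inv_cancel_right]
        rw [e]
        exact ⟨n', hn', rfl⟩
      have hQG : Q₁.map G₁.subtype ≤ G₁ := Subgroup.map_subtype_le Q₁
      have hdiv : Nat.card (Q₁.map G₁.subtype) ∣ Nat.card (G₁.subgroupOf
          (Subgroup.normalizer ((P₁.map G₁.subtype : Subgroup G) : Set G))) := by
        have e := Nat.card_congr (Subgroup.subgroupOfEquivOfLe hQM).toEquiv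
        rw [← e]
        exact Subgroup.card_dvd_of_le (Subgroup.comap_mono hQG)
      have hMc : Nat.card (Subgroup.normalizer ((P₁.map G₁.subtype : Subgroup G) : Set G))
          = Nat.card (G₁.subgroupOf
            (Subgroup.normalizer ((P₁.map G₁.subtype : Subgroup G) : Set G))) * q ^ j := by
        rw [← hrel]
        exact (Subgroup.card_mul_index (G₁.subgroupOf
          (Subgroup.normalizer ((P₁.map G₁.subtype : Subgroup G) : Set G)))).symm
      rw [hMc, hfq, pow_add]
      exact mul_dvd_mul_right (by rw [← hQcard]; exact hdiv) _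

theorem concl_step {G : Type u} [Group G] [Finite G] {d : ℕ} (hlin : Lin G d) (hIH : IH G d)
    (p q : ℕ) (hp : p.Prime) (hq : q.Prime) (hpq : p ≠ q) (hdp : d + 1 < p) (hdq : d + 1 < q) :
    Concl G p q := by
  haveI := Fact.mk hp
  haveI := Fact.mk hq
  have hG0 : Nat.card G ≠ 0 := Nat.card_pos.ne'
  by_cases hpG : p ∣ Nat.card G
  swap
  · obtain ⟨Q⟩ : Nonempty (Sylow q G) := inferInstance
    refine ⟨⊥, Q, ?_, Sylow.card_eq_multiplicity Q, ?_⟩
    · rw [Nat.factorization_eq_zero_of_not_dvd hpG]; simp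
    · intro x hx y _
      rw [Subgroup.mem_bot.1 hx]; simp
  by_cases hqG : q ∣ Nat.card G
  swap
  · obtain ⟨P⟩ : Nonempty (Sylow p G) := inferInstance
    refine ⟨P, ⊥, Sylow.card_eq_multiplicity P, ?_, ?_⟩
    · rw [Nat.factorization_eq_zero_of_not_dvd hqG]; simp
    · intro x _ y hy
      rw [Subgroup.mem_bot.1 hy]; simp
  obtain ⟨u, v, hu, hv, huv⟩ := exists_comm_pq hlin p q hp hq hdp hdq hpG hqG
  have hu1 : u ≠ 1 := by
    rintro rfl
    rw [orderOf_one] at hu
    exact hp.one_lt.ne hu
  by_cases huc : u ∈ Subgroup.center G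
  · exact (concl_of_central hlin hIH q p hq hp hpq.symm hdq hdp u huc hu1 1
      (by rw [hu, pow_one])).symm
  have hup : IsPGroup p (Subgroup.zpowers u) :=
    IsPGroup.of_card (n := 1) (by rw [Nat.card_zpowers, hu, pow_one])
  obtain ⟨P₀, hP₀⟩ := hup.exists_le_sylow
  have hP₀ab := comm_of_pgroup hlin p hp hdp P₀ P₀.isPGroup'
  have hCtop : Subgroup.centralizer ({u} : Set G) ≠ ⊤ := by
    intro h
    apply huc
    rw [Subgroup.centralizer_eq_top_iff_subset] at h
    exact h (Set.mem_singleton u)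
  obtain ⟨P', Q', hP', hQ', hc'⟩ := hIH _ hCtop p q hp hq hpq hdp hdq
  have hC0 : Nat.card (Subgroup.centralizer ({u} : Set G)) ≠ 0 := Nat.card_pos.ne'
  have hP₀C : (P₀ : Subgroup G) ≤ Subgroup.centralizer ({u} : Set G) := by
    intro x hx
    rw [Subgroup.mem_centralizer_iff]
    intro y hy
    rw [Set.mem_singleton_iff.1 hy]
    exact hP₀ab u (hP₀ (Subgroup.mem_zpowers u)) x hx
  have hfpC : (Nat.card (Subgroup.centralizer ({u} : Set G))).factorization p
      = (Nat.card G).factorization p :=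
    le_antisymm ((Nat.factorization_le_iff_dvd hC0 hG0).2 (Subgroup.card_subgroup_dvd_card _) p)
      ((hp.pow_dvd_iff_le_factorization hC0).1 (by
        rw [← Sylow.card_eq_multiplicity P₀]
        exact Subgroup.card_dvd_of_le hP₀C))
  have hqC : q ∣ Nat.card (Subgroup.centralizer ({u} : Set G)) := by
    have hvC : v ∈ Subgroup.centralizer ({u} : Set G) := by
      rw [Subgroup.mem_centralizer_iff]
      intro y hy
      rw [Set.mem_singleton_iff.1 hy]
      exact huv
    have := orderOf_dvd_natCard (⟨v, hvC⟩ : Subgroup.centralizer ({u} : Set G))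
    rwa [Subgroup.orderOf_mk, hv] at this
  have hP'card : Nat.card (P'.map (Subgroup.centralizer ({u} : Set G)).subtype)
      = p ^ (Nat.card G).factorization p := by
    rw [Subgroup.card_map_of_injective (Subgroup.subtype_injective _), hP', hfpC]
  have hQ'card : Nat.card (Q'.map (Subgroup.centralizer ({u} : Set G)).subtype)
      = q ^ (Nat.card (Subgroup.centralizer ({u} : Set G))).factorization q := by
    rw [Subgroup.card_map_of_injective (Subgroup.subtype_injective _), hQ']
  have hfq1 : 1 ≤ (Nat.card (Subgroup.centralizer ({u} : Set G))).factorization q :=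
    (hq.dvd_iff_one_le_factorization hC0).1 hqC
  have hQ'p : IsPGroup q (Q'.map (Subgroup.centralizer ({u} : Set G)).subtype) :=
    IsPGroup.of_card hQ'card
  have hcomm' : ∀ x ∈ P'.map (Subgroup.centralizer ({u} : Set G)).subtype,
      ∀ y ∈ Q'.map (Subgroup.centralizer ({u} : Set G)).subtype, x * y = y * x := by
    rintro x ⟨x', hx', rfl⟩ y ⟨y', hy', rfl⟩
    exact congrArg Subtype.val (hc' x' hx' y' hy')
  have hP'H : P'.map (Subgroup.centralizer ({u} : Set G)).subtype ≤ Subgroup.centralizer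
      ((Q'.map (Subgroup.centralizer ({u} : Set G)).subtype : Subgroup G) : Set G) := by
    intro x hx
    rw [Subgroup.mem_centralizer_iff]
    intro y hy
    exact (hcomm' x hx y hy).symm
  obtain ⟨Qs, hQs⟩ := hQ'p.exists_le_sylow
  have hQsab := comm_of_pgroup hlin q hq hdq Qs Qs.isPGroup'
  have hQsH : (Qs : Subgroup G) ≤ Subgroup.centralizer
      ((Q'.map (Subgroup.centralizer ({u} : Set G)).subtype : Subgroup G) : Set G) := by
    intro x hx
    rw [Subgroup.mem_centralizer_iff]
    intro y hy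
    exact hQsab y (hQs hy) x hx
  by_cases hH : Subgroup.centralizer
      ((Q'.map (Subgroup.centralizer ({u} : Set G)).subtype : Subgroup G) : Set G) = ⊤
  · have hQ'ne : Q'.map (Subgroup.centralizer ({u} : Set G)).subtype ≠ ⊥ := by
      intro h
      rw [h, Subgroup.card_bot] at hQ'card
      have h2 : q ^ 1 ≤ q ^ (Nat.card (Subgroup.centralizer ({u} : Set G))).factorization q :=
        Nat.pow_le_pow_right hq.pos hfq1
      rw [pow_one, ← hQ'card] at h2
      have := hq.one_lt
      omega
    obtain ⟨⟨z, hzQ'⟩, hz1⟩ := (Subgroup.ne_bot_iff_exists_ne_one).1 hQ'ne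
    have hzc : z ∈ Subgroup.center G := by
      rw [Subgroup.centralizer_eq_top_iff_subset] at hH
      exact hH hzQ'
    obtain ⟨k, hk⟩ := (IsPGroup.iff_orderOf.1 hQ'p) ⟨z, hzQ'⟩
    rw [Subgroup.orderOf_mk] at hk
    have hz1' : z ≠ 1 := by
      intro h
      exact hz1 (Subtype.ext h)
    exact concl_of_central hlin hIH p q hp hq hpq hdp hdq z hzc hz1' k hk
  · apply concl_of_subgroup hIH p q hp hq hpq hdp hdq _ hH
    · rw [← hP'card]
      exact Subgroup.card_dvd_of_le hP'H
    · rw [← Sylow.card_eq_multiplicity Qs]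
      exact Subgroup.card_dvd_of_le hQsH

theorem concl_all (d : ℕ) : ∀ (N : ℕ) (G : Type u) [Group G] [Finite G], Nat.card G = N →
    Lin G d → ∀ p q : ℕ, p.Prime → q.Prime → p ≠ q → d + 1 < p → d + 1 < q → Concl G p q := by
  intro N
  induction N using Nat.strong_induction_on with
  | _ N ih =>
  intro G _ _ hN hlin p q hp hq hpq hdp hdq
  apply concl_step hlin ?_ p q hp hq hpq hdp hdq
  intro H hH p' q' hp' hq' hpq' hdp' hdq'
  have hlt : Nat.card H < N := by
    rw [← hN]
    refine lt_of_le_of_ne (Subgroup.card_le_card_group (H := H)) ?_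
    intro h
    exact hH ((Subgroup.card_eq_iff_eq_top _).1 h)
  exact ih (Nat.card H) hlt H rfl (hlin.subgroup H) p' q' hp' hq' hpq' hdp' hdq'


/-- The centralizer of an element of prime power order `r ^ k` (`r > d + 1`) contains a subgroup
of Sylow `q`-order, for each prime `q > d + 1`. -/
theorem sylow_order_dvd_centralizer {G : Type u} [Group G] [Finite G] {d : ℕ} (hlin : Lin G d)
    (r q : ℕ) (hr : r.Prime) (hq : q.Prime) (hdr : d + 1 < r) (hdq : d + 1 < q) (x : G) (k : ℕ)
    (hx : orderOf x = r ^ k) :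
    q ^ (Nat.card G).factorization q ∣ Nat.card (Subgroup.centralizer ({x} : Set G)) := by
  haveI := Fact.mk hr
  haveI := Fact.mk hq
  have hxp : IsPGroup r (Subgroup.zpowers x) :=
    IsPGroup.of_card (n := k) (by rw [Nat.card_zpowers, hx])
  obtain ⟨R, hR⟩ := hxp.exists_le_sylow
  have hxR : x ∈ (R : Subgroup G) := hR (Subgroup.mem_zpowers x)
  by_cases hrq : r = q
  · subst hrq
    have hRab := comm_of_pgroup hlin r hr hdr R R.isPGroup'
    rw [← Sylow.card_eq_multiplicity R]
    apply Subgroup.card_dvd_of_le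
    intro y hy
    rw [Subgroup.mem_centralizer_iff]
    intro w hw
    rw [Set.mem_singleton_iff.1 hw]
    exact hRab x hxR y hy
  · obtain ⟨P, Q, hP, hQ, hc⟩ := concl_all d _ G rfl hlin r q hr hq hrq hdr hdq
    obtain ⟨g, hg⟩ := MulAction.exists_smul_eq G (Sylow.ofCard P hP) R
    rw [← hg, Sylow.coe_subgroup_smul, Sylow.coe_ofCard] at hxR
    obtain ⟨x', hx', rfl⟩ := (Subgroup.mem_smul_pointwise_iff_exists _ _ _).1 hxR
    have hcard : Nat.card (Q.map (MulAut.conj g).toMonoidHom)
        = q ^ (Nat.card G).factorization q := by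
      rw [Subgroup.card_map_of_injective (MulAut.conj g).injective, hQ]
    rw [← hcard]
    apply Subgroup.card_dvd_of_le
    rintro y ⟨y', hy', rfl⟩
    rw [Subgroup.mem_centralizer_iff]
    intro w hw
    rw [Set.mem_singleton_iff.1 hw]
    have h1 := hc x' hx' y' hy'
    simp only [MulAut.smul_def, MulEquiv.coe_toMonoidHom, MulAut.conj_apply]
    calc g * x' * g⁻¹ * (g * y' * g⁻¹) = g * (x' * y') * g⁻¹ := by group
      _ = g * (y' * x') * g⁻¹ := by rw [h1]
      _ = g * y' * g⁻¹ * (g * x' * g⁻¹) := by group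

/-- **Blichfeldt**: a linear group of degree `d` has an abelian Hall subgroup for the set of
primes exceeding `d + 1`. -/
theorem blichfeldt (d : ℕ) : ∀ (N : ℕ) (G : Type u) [Group G] [Finite G], Nat.card G = N →
    Lin G d → ∃ A : Subgroup G, (∀ x ∈ A, ∀ y ∈ A, x * y = y * x) ∧
      (∀ q : ℕ, q.Prime → q ∣ Nat.card A → d + 1 < q) ∧
      ∀ q : ℕ, q.Prime → q ∣ A.index → q ≤ d + 1 := by
  intro N
  induction N using Nat.strong_induction_on with
  | _ N ih =>
  intro G _ _ hN hlin
  have hG0 : Nat.card G ≠ 0 := Nat.card_pos.ne'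
  by_cases hcase : ∃ x : G, x ∉ Subgroup.center G ∧
      ∃ r k : ℕ, r.Prime ∧ d + 1 < r ∧ orderOf x = r ^ k
  · obtain ⟨x, hxc, r, k, hr, hdr, hx⟩ := hcase
    have hCtop : Subgroup.centralizer ({x} : Set G) ≠ ⊤ := by
      intro h
      apply hxc
      rw [Subgroup.centralizer_eq_top_iff_subset] at h
      exact h (Set.mem_singleton x)
    have hlt : Nat.card (Subgroup.centralizer ({x} : Set G)) < N := by
      rw [← hN]
      refine lt_of_le_of_ne (Subgroup.card_le_card_group (H := _)) ?_
      intro h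
      exact hCtop ((Subgroup.card_eq_iff_eq_top _).1 h)
    obtain ⟨A, hAab, hAcard, hAidx⟩ :=
      ih _ hlt (Subgroup.centralizer ({x} : Set G)) rfl (hlin.subgroup _)
    refine ⟨A.map (Subgroup.subtype _), ?_, ?_, ?_⟩
    · rintro a ⟨a', ha', rfl⟩ b ⟨b', hb', rfl⟩
      exact congrArg Subtype.val (hAab a' ha' b' hb')
    · intro q hq hqd
      rw [Subgroup.card_map_of_injective (Subgroup.subtype_injective _)] at hqd
      exact hAcard q hq hqd
    · intro q hq hqd
      rw [Subgroup.index_map_subtype] at hqd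
      by_contra hlt'
      push Not at hlt'
      rcases (Nat.Prime.dvd_mul hq).1 hqd with h1 | h1
      · have := hAidx q hq h1
        omega
      · have h2 := sylow_order_dvd_centralizer hlin r q hr hq hdr hlt' x k hx
        have h3 : q ^ ((Nat.card G).factorization q + 1) ∣ Nat.card G := by
          have h4 := Subgroup.card_mul_index (Subgroup.centralizer ({x} : Set G))
          rw [pow_succ]
          calc q ^ (Nat.card G).factorization q * q
              ∣ Nat.card (Subgroup.centralizer ({x} : Set G))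
                * (Subgroup.centralizer ({x} : Set G)).index := mul_dvd_mul h2 h1
            _ = Nat.card G := h4
        exact Nat.pow_succ_factorization_not_dvd hG0 hq h3
  · push Not at hcase
    let A : Subgroup G :=
      { carrier := {z | z ∈ Subgroup.center G ∧ ∀ q : ℕ, q.Prime → q ∣ orderOf z → d + 1 < q}
        mul_mem' := by
          rintro z w ⟨hz, hz'⟩ ⟨hw, hw'⟩
          refine ⟨mul_mem hz hw, ?_⟩
          intro q hq hqd
          have hcomm : Commute z w := (Subgroup.mem_center_iff.mp hz w).symm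
          have h1 : q ∣ orderOf z * orderOf w :=
            (hqd.trans hcomm.orderOf_mul_dvd_lcm).trans (Nat.lcm_dvd_mul _ _)
          rcases (Nat.Prime.dvd_mul hq).1 h1 with h2 | h2
          · exact hz' q hq h2
          · exact hw' q hq h2
        one_mem' := by
          refine ⟨one_mem _, ?_⟩
          intro q hq hqd
          rw [orderOf_one] at hqd
          exact absurd (Nat.dvd_one.1 hqd) hq.one_lt.ne'
        inv_mem' := by
          rintro z ⟨hz, hz'⟩
          refine ⟨inv_mem hz, ?_⟩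
          intro q hq hqd
          rw [orderOf_inv] at hqd
          exact hz' q hq hqd }
    refine ⟨A, ?_, ?_, ?_⟩
    · rintro x ⟨hx, _⟩ y _
      exact (Subgroup.mem_center_iff.mp hx y).symm
    · intro q hq hqd
      haveI := Fact.mk hq
      obtain ⟨a, ha⟩ := exists_prime_orderOf_dvd_card' q hqd
      have h1 := a.2.2 q hq
      rw [Subgroup.orderOf_coe, ha] at h1
      exact h1 dvd_rfl
    · intro q hq hqd
      by_contra hlt'
      push Not at hlt'
      haveI := Fact.mk hq
      obtain ⟨R⟩ : Nonempty (Sylow q G) := inferInstance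
      have hRA : (R : Subgroup G) ≤ A := by
        intro y hy
        obtain ⟨k, hk⟩ := (IsPGroup.iff_orderOf.1 R.isPGroup') ⟨y, hy⟩
        rw [Subgroup.orderOf_mk] at hk
        refine ⟨?_, ?_⟩
        · by_contra hyc
          exact hcase y hyc q k hq hlt' hk
        · intro q' hq' hq'd
          rw [hk] at hq'd
          have := (Nat.prime_dvd_prime_iff_eq hq' hq).1 (hq'.dvd_of_dvd_pow hq'd)
          omega
      exact R.not_dvd_index (hqd.trans (Subgroup.index_dvd_of_le hRA))

/-- Statement form. -/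
theorem abelian_hall {G : Type u} [Group G] [Finite G] (χ : G → ℂ) (hχ : IsCharacter G χ)
    (hfaith : ∀ g : G, χ g = χ 1 → g = 1) (n : ℕ) (hn : charDegree χ = n) :
    ∃ A : Subgroup G, (∀ x ∈ A, ∀ y ∈ A, x * y = y * x) ∧
      (∀ q : ℕ, q.Prime → q ∣ Nat.card A → n + 1 < q) ∧
      ∀ q : ℕ, q.Prime → q ∣ A.index → q ≤ n + 1 :=
  blichfeldt n _ G rfl ⟨χ, hχ, hfaith, hn⟩

end Cfsg.Agent.Lib.helper24.Blich
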