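import Cfsg.Agent.Lib.helper24.CharOps

set_option autoImplicit false

namespace Cfsg.Agent.Lib.helper24

open Representation
open scoped ComplexConjugate

universe u v w

variable {G : Type u} [Group G]

section BB

/-- The Burnside–Brauer theorem. -/
theorem burnside_brauer [Fintype G] {V : Type v} [AddCommGroup V] [Module ℂ V]
    [FiniteDimensional ℂ V] (ρ : Representation ℂ G V) (hfaithful : Function.Injective ρ)
    {ψ : G → ℂ} (hψ : IsIrrCharacter G ψ) :
    ∃ i : ℕ, i < Nat.card (Set.range ρ.character) ∧
      classInner (fun g => ρ.character g ^ i) ψ ≠ 0 := by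
  classical
  by_contra hcon
  push Not at hcon
  have hG : (Nat.card G : ℂ) ≠ 0 := NeZero.ne _
  have hm : Nat.card (Set.range ρ.character) = (Finset.univ.image ρ.character).card := by
    rw [Nat.card_coe_set_eq, Set.ncard_eq_toFinset_card', Set.toFinset_range]
  have ha₀ : ρ.character 1 ∈ Finset.univ.image ρ.character :=
    Finset.mem_image_of_mem _ (Finset.mem_univ 1)
  set S := Finset.univ.image ρ.character with hS
  set P : Polynomial ℂ := ∏ a ∈ S.erase (ρ.character 1), (Polynomial.X - Polynomial.C a) with hP
  have hdeg : P.natDegree = S.card - 1 := by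
    rw [hP, Polynomial.natDegree_prod_of_monic _ _ (fun a _ => Polynomial.monic_X_sub_C a)]
    simp only [Polynomial.natDegree_X_sub_C, Finset.sum_const, smul_eq_mul, mul_one]
    rw [Finset.card_erase_of_mem ha₀]
  have hPne : P.eval (ρ.character 1) ≠ 0 := by
    rw [hP, Polynomial.eval_prod]
    apply Finset.prod_ne_zero_iff.mpr
    intro a ha
    simp only [Polynomial.eval_sub, Polynomial.eval_X, Polynomial.eval_C]
    exact sub_ne_zero.mpr (Finset.ne_of_mem_erase ha).symm
  have hP0 : ∀ g : G, g ≠ 1 → P.eval (ρ.character g) = 0 := by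
    intro g hg
    rw [hP, Polynomial.eval_prod]
    apply Finset.prod_eq_zero (i := ρ.character g)
    · apply Finset.mem_erase.mpr
      refine ⟨?_, Finset.mem_image_of_mem _ (Finset.mem_univ g)⟩
      intro heq
      apply hg
      apply hfaithful
      rw [map_one]
      apply rep_eq_one_of_char_eq_finrank ρ g
      rw [heq, Representation.char_one]
    · simp
  have hsum : ∑ g : G, P.eval (ρ.character g) * conj (ψ g)
      = P.eval (ρ.character 1) * conj (ψ 1) := by
    apply Finset.sum_eq_single
    · intro g _ hg
      rw [hP0 g hg, zero_mul]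
    · intro h
      exact absurd (Finset.mem_univ _) h
  have hsum0 : ∑ g : G, P.eval (ρ.character g) * conj (ψ g) = 0 := by
    simp only [Polynomial.eval_eq_sum_range, Finset.sum_mul]
    rw [Finset.sum_comm]
    apply Finset.sum_eq_zero
    intro i hi
    have hi' : i < Nat.card (Set.range ρ.character) := by
      rw [hm]
      have := Finset.mem_range.mp hi
      have hpos : 0 < S.card := Finset.card_pos.mpr ⟨_, ha₀⟩
      omega
    have h0 := hcon i hi'
    unfold classInner at h0
    have h1 := (mul_eq_zero.mp h0).resolve_left (inv_ne_zero hG)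
    have : ∑ g : G, P.coeff i * ρ.character g ^ i * conj (ψ g)
        = P.coeff i * ∑ g : G, ρ.character g ^ i * conj (ψ g) := by
      rw [Finset.mul_sum]
      apply Finset.sum_congr rfl
      intro g _
      ring
    rw [this, h1, mul_zero]
  rw [hsum] at hsum0
  rcases mul_eq_zero.mp hsum0 with h | h
  · exact hPne h
  · obtain ⟨n, hn, h1⟩ := isIrrCharacter_one hψ
    rw [h1] at h
    simp at h
    omega

end BB

end Cfsg.Agent.Lib.helper24
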