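import Cfsg.Agent.Lib.helper24.CharBrauer8
import Cfsg.Agent.Lib.helper24.CharExt815
import Cfsg.Agent.Lib.helper24.CharKer
import Cfsg.Agent.Lib.helper24.CharReg
import Cfsg.Agent.Lib.helper23.CharMod

set_option autoImplicit false

namespace Cfsg.Agent.Lib.helper24
open Cfsg
open scoped ComplexConjugate

universe u

theorem isElementary_two_of_zpowers {G : Type u} [Group G] [Finite G] (c : G) :
    IsElementary 2 (Subgroup.zpowers c) := by
  haveI : Fact (Nat.Prime 2) := ⟨Nat.prime_two⟩
  let c' : Subgroup.zpowers c := ⟨c, Subgroup.mem_zpowers c⟩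
  have hgen : ∀ g : Subgroup.zpowers c, ∃ i : ℤ, c' ^ i = g := by
    intro g
    obtain ⟨i, hi⟩ := Subgroup.mem_zpowers_iff.1 g.2
    exact ⟨i, Subtype.ext (by simpa [c'] using hi)⟩
  obtain ⟨a, r, hr, har⟩ := Nat.exists_eq_two_pow_mul_odd (orderOf_pos c').ne'
  refine isElementary_of_central (c' ^ (2 ^ a)) ?_ ?_ ?_
  · rw [Subgroup.mem_center_iff]
    intro g
    obtain ⟨i, rfl⟩ := hgen g
    exact (((Commute.refl c').zpow_left i).pow_right (2 ^ a)).eq
  · rw [orderOf_pow_of_dvd (pow_ne_zero _ two_ne_zero) (har ▸ Dvd.intro _ rfl), har,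
      Nat.mul_div_cancel_left _ (pow_pos two_pos a)]
    exact Nat.coprime_two_right.2 hr
  · intro g
    obtain ⟨i, rfl⟩ := hgen g
    refine ⟨a, Subgroup.mem_zpowers_iff.2 ⟨i, ?_⟩⟩
    rw [← zpow_natCast, ← zpow_natCast, ← zpow_mul, ← zpow_mul, mul_comm]

theorem card_dvd_of_forall_pow_eq_one {B : Type*} [Group B] [Finite B] (m n : ℕ)
    (hcop : Nat.Coprime m n) (hcard : Nat.card B ∣ m * n) (h : ∀ b : B, b ^ n = 1) :
    Nat.card B ∣ n := by
  have h2 : Nat.Coprime (Nat.card B) m := by
    by_contra hnc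
    obtain ⟨r, hr, hr1, hr2⟩ := Nat.Prime.not_coprime_iff_dvd.1 hnc
    haveI : Fact r.Prime := ⟨hr⟩
    obtain ⟨b, hb⟩ := exists_prime_orderOf_dvd_card' r hr1
    have h4 : r ∣ n := hb ▸ orderOf_dvd_of_pow_eq_one (h b)
    exact hr.one_lt.ne' (Nat.Coprime.eq_one_of_dvd (Nat.Coprime.coprime_dvd_left hr2 hcop) h4)
  exact h2.dvd_of_dvd_mul_left hcard

theorem exists_conj_in_hall {G : Type u} [Group G] [Finite G] (H : Subgroup G)
    (helem : ∀ (E : Subgroup G) (p : ℕ), p.Prime → IsElementary p E → Nat.card E ∣ Nat.card H →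
      ∃ g : G, E.map (MulAut.conj g).toMonoidHom ≤ H)
    (k' : ℕ) (hk0 : H.index ∣ k') (x : G) : ∃ y : H, IsConj (x ^ k') (y : G) := by
  have h1 : (x ^ k') ^ Nat.card H = 1 := by
    rw [← pow_mul]
    apply orderOf_dvd_iff_pow_eq_one.1
    refine (orderOf_dvd_natCard x).trans ?_
    rw [← Subgroup.card_mul_index H, mul_comm k']
    exact Nat.mul_dvd_mul_left _ hk0
  have h2 : Nat.card (Subgroup.zpowers (x ^ k')) ∣ Nat.card H := by
    rw [Nat.card_zpowers]
    exact orderOf_dvd_of_pow_eq_one h1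
  obtain ⟨g, hg⟩ := helem _ 2 Nat.prime_two (isElementary_two_of_zpowers _) h2
  refine ⟨⟨g * x ^ k' * g⁻¹, hg ⟨x ^ k', Subgroup.mem_zpowers _, rfl⟩⟩, ?_⟩
  exact isConj_iff.2 ⟨g, rfl⟩

theorem hall_normal_complement {G : Type u} [Group G] [Finite G] (H : Subgroup G)
    (hHall : Nat.Coprime (Nat.card H) H.index)
    (hfus : ∀ x ∈ H, ∀ y ∈ H, IsConj x y → ∃ h ∈ H, h * x * h⁻¹ = y)
    (helem : ∀ (E : Subgroup G) (p : ℕ), p.Prime → IsElementary p E → Nat.card E ∣ Nat.card H →
      ∃ g : G, E.map (MulAut.conj g).toMonoidHom ≤ H) :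
    ∃ K : Subgroup G, K.Normal ∧ K ⊔ H = ⊤ ∧ K ⊓ H = ⊥ := by
  classical
  haveI : Fintype G := Fintype.ofFinite G
  haveI : Fintype (IrrCharacter G) := Fintype.ofFinite _
  haveI : Fintype (IrrCharacter H) := Fintype.ofFinite _
  have hmn : Nat.card G = H.index * Nat.card H := by
    rw [mul_comm]; exact (Subgroup.card_mul_index H).symm
  obtain ⟨k', hk1, hk0⟩ := Nat.chineseRemainder hHall 1 0
  have hkn : H.index ∣ k' := (Nat.modEq_zero_iff_dvd).1 hk0
  have hcG : (Nat.card G : ℂ) ≠ 0 := by exact_mod_cast Nat.card_pos.ne'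
  have hcH : (Nat.card H : ℂ) ≠ 0 := by exact_mod_cast Nat.card_pos.ne'
  have hpowH : ∀ h : G, h ∈ H → h ^ k' = h := by
    intro h hh
    have h1 : orderOf h ∣ Nat.card H := by
      have := orderOf_dvd_natCard (⟨h, hh⟩ : H)
      rwa [Subgroup.orderOf_mk] at this
    exact (pow_eq_pow_iff_modEq.2 (hk1.of_dvd h1)).trans (pow_one h)
  choose hfn hspec using exists_conj_in_hall H helem k' hkn
  have tilde_eq : ∀ (θ : H → ℂ), IsClassFunction H θ → ∀ (x : G) (y : H),
      IsConj (x ^ k') (y : G) → θ (hfn x) = θ y := by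
    intro θ hθ x y hy
    obtain ⟨h, hh, hconj⟩ := hfus (hfn x) (hfn x).2 y y.2 ((hspec x).symm.trans hy)
    have h1 : y = ⟨h, hh⟩ * hfn x * ⟨h, hh⟩⁻¹ := Subtype.ext hconj.symm
    rw [h1]; exact (hθ (hfn x) ⟨h, hh⟩).symm
  have tilde_H : ∀ (θ : H → ℂ), IsClassFunction H θ → ∀ h : H, θ (hfn (h : G)) = θ h := by
    intro θ hθ h
    apply tilde_eq θ hθ
    rw [hpowH h h.2]
  have tilde_class : ∀ (θ : H → ℂ), IsClassFunction H θ →
      IsClassFunction G (fun x => θ (hfn x)) := by
    intro θ hθ x g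
    show θ (hfn (g * x * g⁻¹)) = θ (hfn x)
    apply tilde_eq θ hθ
    rw [conj_pow]
    exact ((isConj_iff.2 ⟨g, rfl⟩ : IsConj (x ^ k') (g * x ^ k' * g⁻¹)).symm).trans (hspec x)
  have hfn_one : ∀ x : G, x ^ k' = 1 ↔ hfn x = 1 := by
    intro x
    constructor
    · intro h
      have h1 := hspec x
      rw [h] at h1
      exact Subtype.ext (isConj_one_right.1 h1)
    · intro h
      have h1 := hspec x
      rw [h] at h1
      exact isConj_one_left.1 h1
  have tilde_gen : ∀ (θ : H → ℂ), IsCharacter H θ →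
      IsGeneralizedCharacter G (fun x => θ (hfn x)) := by
    intro θ hθ
    have hθc := isCharacter_conj_class hθ
    apply brauer_characterization _ (tilde_class θ hθc)
    intro E p hp hel
    apply genChar_of_character
    haveI : Fact p.Prime := ⟨hp⟩
    have hnil := isNilpotent_of_isElementary hel
    have hcardE : Nat.card E ∣ H.index * Nat.card H := hmn ▸ Subgroup.card_subgroup_dvd_card E
    have hmulE := pow_mul_of_nilpotent hnil H.index (Nat.card H) k' hHall.symm hcardE hkn hk1
    let πE : E →* E := MonoidHom.mk' (fun x => x ^ k') hmulE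
    have hA'card : Nat.card (πE.range.map E.subtype) ∣ Nat.card H := by
      rw [Subgroup.card_map_of_injective E.subtype_injective]
      apply card_dvd_of_forall_pow_eq_one H.index (Nat.card H) hHall.symm
        ((Subgroup.card_subgroup_dvd_card _).trans hcardE)
      rintro ⟨_, x, rfl⟩
      apply Subtype.ext
      show (x ^ k') ^ Nat.card H = 1
      rw [← pow_mul]
      apply orderOf_dvd_iff_pow_eq_one.1
      exact ((orderOf_dvd_natCard x).trans hcardE).trans (Nat.mul_dvd_mul_right hkn _)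
    have hA'el : IsElementary p (πE.range.map E.subtype) :=
      isElementary_of_equiv (Subgroup.equivMapOfInjective πE.range E.subtype E.subtype_injective)
        (isElementary_subgroup hel πE.range)
    obtain ⟨g, hg⟩ := helem _ p hp hA'el hA'card
    have hmem : ∀ e : E, g * ((e : G) ^ k') * g⁻¹ ∈ H := by
      intro e
      apply hg
      exact ⟨(e : G) ^ k', ⟨e ^ k', ⟨e, rfl⟩, by simp⟩, rfl⟩
    let ι : E →* H := MonoidHom.mk' (fun e => ⟨g * ((e : G) ^ k') * g⁻¹, hmem e⟩) (by
      intro a b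
      apply Subtype.ext
      have h1 := congrArg (fun z : E => (z : G)) (hmulE a b)
      simp only [Subgroup.coe_mul, SubmonoidClass.coe_pow] at h1
      show g * (((a * b : E) : G) ^ k') * g⁻¹
        = (g * ((a : G) ^ k') * g⁻¹) * (g * ((b : G) ^ k') * g⁻¹)
      rw [Subgroup.coe_mul, h1]; group)
    have heq : (fun e : E => θ (hfn (e : G))) = θ ∘ ι := by
      funext e
      apply tilde_eq θ hθc
      exact isConj_iff.2 ⟨g, rfl⟩
    show IsCharacter E (fun e : E => θ (hfn (e : G)))
    rw [heq]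
    exact isCharacter_comp ι hθ
  -- the linear functional
  have hLdef : ∀ F : H → ℂ, classInner (fun x : G => F (hfn x)) (fun _ => (1 : ℂ))
      = (Nat.card G : ℂ)⁻¹ * ∑ x : G, F (hfn x) := by
    intro F
    unfold classInner
    simp
  have hLint : ∀ θ : IrrCharacter H, ∃ z : ℤ,
      classInner (fun x : G => θ.1 (hfn x)) (fun _ => (1 : ℂ)) = z := by
    intro θ
    obtain ⟨A, B, hA, hB, hAB⟩ := tilde_gen θ.1 (isCharacter_irr θ)
    obtain ⟨a, ha⟩ := isCharacter_inner_nat hA (isCharacter_trivial (G := G))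
    obtain ⟨b, hb⟩ := isCharacter_inner_nat hB (isCharacter_trivial (G := G))
    refine ⟨(a : ℤ) - b, ?_⟩
    rw [hAB, classInner_sub_left, ha, hb]; push_cast; ring
  choose Lz hLz using hLint
  have hLtriv : Lz (trivIrr H) = 1 := by
    have h1 := hLz (trivIrr H)
    rw [hLdef] at h1
    have h2 : ∑ x : G, (trivIrr H).1 (hfn x) = (Nat.card G : ℂ) := by
      simp [trivIrr_apply, Nat.card_eq_fintype_card]
    rw [h2, inv_mul_cancel₀ hcG] at h1
    exact_mod_cast h1.symm
  -- the class function W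
  have hWval : ∀ h : H, ∑ θ : IrrCharacter H, (Lz θ : ℂ) * θ.1 h
      = (Nat.card G : ℂ)⁻¹ * ∑ x : G, ∑ θ : IrrCharacter H, θ.1 (hfn x) * conj (θ.1 h⁻¹) := by
    intro h
    rw [Finset.sum_comm, Finset.mul_sum]
    refine Finset.sum_congr rfl (fun θ _ => ?_)
    rw [← hLz θ, hLdef, mul_assoc, Finset.sum_mul]
    congr 1
    refine Finset.sum_congr rfl (fun x _ => ?_)
    rw [← irr_inv θ h⁻¹, inv_inv]
  have hWpos : ∀ h : H, ∃ z : ℤ, 1 ≤ z ∧ ∑ θ : IrrCharacter H, (Lz θ : ℂ) * θ.1 h = z := by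
    intro h
    -- rational value
    let s : G → ℕ := fun x => if IsConj (hfn x) h⁻¹ then
      Nat.card (Subgroup.centralizer ({hfn x} : Set H)) else 0
    have hs : ∀ x : G, ∑ θ : IrrCharacter H, θ.1 (hfn x) * conj (θ.1 h⁻¹) = (s x : ℂ) := by
      intro x
      by_cases hc : IsConj (hfn x) h⁻¹
      · rw [second_orth_of_isConj hc]
        show _ = (((if IsConj (hfn x) h⁻¹ then
          Nat.card (Subgroup.centralizer ({hfn x} : Set H)) else 0 : ℕ)) : ℂ)
        rw [if_pos hc]
      · rw [second_orth_of_not_isConj hc]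
        show _ = (((if IsConj (hfn x) h⁻¹ then
          Nat.card (Subgroup.centralizer ({hfn x} : Set H)) else 0 : ℕ)) : ℂ)
        rw [if_neg hc]; simp
    have hval : ∑ θ : IrrCharacter H, (Lz θ : ℂ) * θ.1 h
        = (((∑ x : G, s x : ℕ) : ℚ) / (Nat.card G : ℚ) : ℚ) := by
      rw [hWval h, Finset.sum_congr rfl (fun x _ => hs x)]
      push_cast
      rw [div_eq_inv_mul]
    have hint : IsIntegral ℤ (∑ θ : IrrCharacter H, (Lz θ : ℂ) * θ.1 h) := by
      refine IsIntegral.sum _ (fun θ _ => ?_)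
      exact (intCast_mem AlgInt (Lz θ) : ((Lz θ : ℤ) : ℂ) ∈ AlgInt).mul
        (Cfsg.Agent.Lib.helper23.isCharacter_isIntegral (isCharacter_irr θ) h)
    rw [hval] at hint
    obtain ⟨z, hz⟩ := Cfsg.Agent.Lib.helper23.rat_of_isIntegral_complex hint
    refine ⟨z, ?_, ?_⟩
    · have hpos : (0 : ℚ) < ((∑ x : G, s x : ℕ) : ℚ) / (Nat.card G : ℚ) := by
        apply div_pos
        · have h1 : 0 < s ((h⁻¹ : H) : G) := by
            have hc : IsConj (hfn ((h⁻¹ : H) : G)) h⁻¹ := by
              have h2 := hspec ((h⁻¹ : H) : G)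
              rw [hpowH _ (h⁻¹ : H).2] at h2
              obtain ⟨c, hc, hcc⟩ := hfus _ (h⁻¹ : H).2 _ (hfn ((h⁻¹ : H) : G)).2 h2
              exact (isConj_iff.2 ⟨⟨c, hc⟩, Subtype.ext hcc⟩ : IsConj h⁻¹ _).symm
            simp only [s, if_pos hc]
            exact Nat.card_pos
          have h3 : 0 < ∑ x : G, s x :=
            lt_of_lt_of_le h1 (Finset.single_le_sum (fun _ _ => Nat.zero_le _) (Finset.mem_univ _))
          exact_mod_cast h3
        · exact_mod_cast Nat.card_pos
      rw [← hz] at hpos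
      have h4 : (0 : ℤ) < z := by exact_mod_cast hpos
      omega
    · rw [hval, ← hz]; push_cast; rfl
  choose Wz hWz1 hWz using hWpos
  have hWsum : ∑ h : H, (Wz h : ℂ) = (Nat.card H : ℂ) := by
    rw [← Finset.sum_congr rfl (fun h _ => hWz h), Finset.sum_comm]
    rw [Finset.sum_eq_single (trivIrr H)]
    · rw [← Finset.mul_sum, hLtriv]
      simp [trivIrr_apply, Nat.card_eq_fintype_card]
    · intro θ _ hθ
      have h5 := classInner_trivIrr θ.1
      rw [irr_inner_ne hθ] at h5
      have h6 : ∑ g : H, θ.1 g = 0 := by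
        rcases mul_eq_zero.1 h5.symm with h7 | h7
        · exact absurd (inv_eq_zero.1 h7) hcH
        · exact h7
      rw [← Finset.mul_sum, h6, mul_zero]
    · intro h; exact absurd (Finset.mem_univ _) h
  have hWone : ∀ h : H, Wz h = 1 := by
    have h1 : ∑ h : H, (Wz h - 1) = 0 := by
      have h2 : ((∑ h : H, (Wz h - 1) : ℤ) : ℂ) = 0 := by
        push_cast
        rw [Finset.sum_sub_distrib, hWsum]
        simp [Nat.card_eq_fintype_card]
      exact_mod_cast h2
    intro h
    have h3 := (Finset.sum_eq_zero_iff_of_nonneg (fun h _ => by have := hWz1 h; omega)).1 h1 h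
      (Finset.mem_univ _)
    omega
  have hW : ∀ h : H, ∑ θ : IrrCharacter H, (Lz θ : ℂ) * θ.1 h = 1 := by
    intro h
    rw [hWz h, hWone h]; simp
  -- L F = ⟨F, 1⟩
  have hL : ∀ F : H → ℂ, IsClassFunction H F →
      classInner (fun x : G => F (hfn x)) (fun _ => (1 : ℂ)) = classInner F (fun _ => (1 : ℂ)) := by
    intro F hF
    have hexp := classFunction_expansion hF
    have h1 : (fun x : G => F (hfn x))
        = ∑ θ : IrrCharacter H, classInner F θ.1 • (fun x : G => θ.1 (hfn x)) := by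
      funext x
      conv_lhs => rw [hexp]
      simp [Finset.sum_apply]
    have h2 : (fun _ : H => (1 : ℂ)) = ∑ θ : IrrCharacter H, (Lz θ : ℂ) • θ.1 := by
      funext h
      rw [Finset.sum_apply]
      simp only [Pi.smul_apply, smul_eq_mul]
      exact (hW h).symm
    rw [h1, classInner_sum_left, h2, classInner_sum_right]
    refine Finset.sum_congr rfl (fun θ _ => ?_)
    rw [classInner_smul_left, classInner_smul_right, hLz θ, map_intCast, mul_comm]
  -- the extended characters are irreducible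
  have tilde_irr : ∀ θ : IrrCharacter H, IsIrrCharacter G (fun x => θ.1 (hfn x)) := by
    intro θ
    apply genChar_irr_of_norm_one (tilde_gen θ.1 (isCharacter_irr θ))
    · have h1 : classInner (fun x : G => θ.1 (hfn x)) (fun x : G => θ.1 (hfn x))
          = classInner (fun x : G => (θ.1 * fun h => conj (θ.1 h)) (hfn x))
            (fun _ => (1 : ℂ)) := by
        unfold classInner
        simp
      rw [h1, hL _ (isClassFunction_mul (isClassFunction_irr θ)
        (isClassFunction_conj (isClassFunction_irr θ)))]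
      have h2 : classInner (θ.1 * fun h => conj (θ.1 h)) (fun _ => (1 : ℂ))
          = classInner θ.1 θ.1 := by
        unfold classInner
        simp
      rw [h2, irr_inner_self]
    · show 0 < (θ.1 (hfn 1)).re
      have h1 := tilde_H θ.1 (isClassFunction_irr θ) 1
      rw [OneMemClass.coe_one] at h1
      rw [h1, ← charDegree_cast θ, Complex.natCast_re]
      exact_mod_cast charDegree_pos θ
  -- the kernel
  let K : Subgroup G := ⨅ θ : IrrCharacter H,
    irrKer (⟨fun x => θ.1 (hfn x), tilde_irr θ⟩ : IrrCharacter G)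
  have hfn1 : hfn 1 = 1 := (hfn_one 1).1 (one_pow _)
  have hKmem : ∀ x : G, x ∈ K ↔ x ^ k' = 1 := by
    intro x
    rw [hfn_one]
    simp only [K, Subgroup.mem_iInf, mem_irrKer]
    constructor
    · intro h
      by_contra hne
      have hnc : ¬ IsConj (hfn x) 1 := fun hc => hne (isConj_one_left.1 hc)
      have h2 := second_orth_of_not_isConj hnc
      have h3 : ∑ θ : IrrCharacter H, θ.1 (hfn x) * conj (θ.1 1)
          = ∑ θ : IrrCharacter H, θ.1 1 * conj (θ.1 1) := by
        refine Finset.sum_congr rfl (fun θ _ => ?_)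
        have h4 : θ.1 (hfn x) = θ.1 (hfn 1) := h θ
        rw [h4, hfn1]
      rw [h3, second_orth_of_isConj (IsConj.refl (1 : H))] at h2
      have h5 : ((Nat.card (Subgroup.centralizer ({(1 : H)} : Set H)) : ℕ) : ℂ) ≠ 0 := by
        exact_mod_cast Nat.card_pos.ne'
      exact h5 h2
    · intro h θ
      show θ.1 (hfn x) = θ.1 (hfn 1)
      rw [h, hfn1]
  have hKH : K ⊓ H = ⊥ := by
    rw [eq_bot_iff]
    rintro x ⟨hxK, hxH⟩
    rw [Subgroup.mem_bot, ← hpowH x hxH]
    exact (hKmem x).1 hxK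
  have hKcard : Nat.card K * Nat.card H = Nat.card G := by
    let F : H → ℂ := fun y => if y = 1 then 1 else 0
    have hF : IsClassFunction H F := by
      intro y h
      show (if h * y * h⁻¹ = 1 then (1 : ℂ) else 0) = if y = 1 then 1 else 0
      have h0 : h * y * h⁻¹ = 1 ↔ y = 1 := by
        constructor
        · intro h1
          have h2 : y = h⁻¹ * (h * y * h⁻¹) * h := by group
          rw [h2, h1]; group
        · rintro rfl; group
      simp only [h0]
    have h1 := hL F hF
    rw [hLdef] at h1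
    have h2 : ∑ x : G, F (hfn x) = (Nat.card K : ℂ) := by
      have h0 : ∀ x : G, F (hfn x) = if x ∈ K then 1 else 0 := by
        intro x
        show (if hfn x = 1 then (1 : ℂ) else 0) = _
        simp only [hKmem, hfn_one]
      rw [Finset.sum_congr rfl (fun x _ => h0 x), Finset.sum_boole, Nat.card_eq_fintype_card,
        Fintype.card_subtype]
    have h3 : classInner F (fun _ => (1 : ℂ)) = (Nat.card H : ℂ)⁻¹ := by
      unfold classInner
      simp [F]
    rw [h2, h3, inv_mul_eq_iff_eq_mul₀ hcG] at h1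
    have h4 : (Nat.card K : ℂ) * (Nat.card H : ℂ) = (Nat.card G : ℂ) := by
      rw [h1, mul_assoc, inv_mul_cancel₀ hcH, mul_one]
    exact_mod_cast h4
  refine ⟨K, Subgroup.normal_iInf_normal (fun θ => irrKer_normal _), ?_, hKH⟩
  exact (Subgroup.isComplement'_of_card_mul_and_disjoint hKcard (disjoint_iff.2 hKH)).sup_eq_top

end Cfsg.Agent.Lib.helper24
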