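import Cfsg.Agent.Lib.helper24.CharFS

set_option autoImplicit false

namespace Cfsg.Agent.Lib.helper24

open Representation
open scoped ComplexConjugate Matrix

universe u v w

variable {G : Type u} [Group G]

section FS2

variable [Fintype G]

theorem trace_comp_avgOp_eq {W : Type v} [AddCommGroup W] [Module ℂ W] [FiniteDimensional ℂ W]
    (σ : Representation ℂ G W) (T : W →ₗ[ℂ] W)
    (h1 : Module.finrank ℂ σ.invariants = 1) (v : W) (hv : v ∈ σ.invariants) (hv0 : v ≠ 0)
    (c : ℂ) (hc : T v = c • v) :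
    LinearMap.trace ℂ W (T ∘ₗ avgOp σ) = c := by
  have hspan : ∀ w : σ.invariants, ∃ d : ℂ, d • v = (w : W) := by
    intro w
    have h2 := (finrank_eq_one_iff_of_nonzero' (⟨v, hv⟩ : σ.invariants)
      (fun h => hv0 (congrArg Subtype.val h))).mp h1 w
    obtain ⟨d, hd⟩ := h2
    exact ⟨d, congrArg Subtype.val hd⟩
  have hTP : T ∘ₗ avgOp σ = c • avgOp σ := by
    ext w
    obtain ⟨d, hd⟩ := hspan ⟨avgOp σ w, avgOp_mem_invariants σ w⟩
    simp only [LinearMap.comp_apply, LinearMap.smul_apply]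
    have hd' : avgOp σ w = d • v := hd.symm
    rw [hd', map_smul, hc, smul_smul, smul_smul, mul_comm]
  rw [hTP, map_smul, trace_avgOp, h1]
  simp

variable {n : ℕ}

omit [Fintype G] in
/-- An invariant bilinear form of an irreducible representation is zero or nondegenerate. -/
theorem det_ne_zero_of_invariant (ρ : Representation ℂ G (Fin n → ℂ)) [hirr : ρ.IsIrreducible]
    (B : Matrix (Fin n) (Fin n) ℂ) (hB : B ∈ (bilRep ρ).invariants) (hB0 : B ≠ 0) :
    B.det ≠ 0 := by
  have hinv : ∀ g : G, (LinearMap.toMatrix' (ρ g⁻¹))ᵀ * B * LinearMap.toMatrix' (ρ g⁻¹) = B :=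
    fun g => hB g
  have hcomm : ∀ g : G, B * LinearMap.toMatrix' (ρ g) = (LinearMap.toMatrix' (ρ g⁻¹))ᵀ * B := by
    intro g
    have h1 := hinv g
    have h2 : LinearMap.toMatrix' (ρ g⁻¹) * LinearMap.toMatrix' (ρ g) = 1 := by
      rw [← LinearMap.toMatrix'_mul, ← map_mul, inv_mul_cancel, map_one, LinearMap.toMatrix'_one]
    calc B * LinearMap.toMatrix' (ρ g)
        = ((LinearMap.toMatrix' (ρ g⁻¹))ᵀ * B * LinearMap.toMatrix' (ρ g⁻¹))
            * LinearMap.toMatrix' (ρ g) := by rw [h1]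
      _ = (LinearMap.toMatrix' (ρ g⁻¹))ᵀ * B := by
          rw [Matrix.mul_assoc, h2, Matrix.mul_one]
  let σ : Subrepresentation ρ := ⟨LinearMap.ker (Matrix.toLin' B), fun g v hv => by
    rw [LinearMap.mem_ker] at hv ⊢
    rw [Matrix.toLin'_apply] at hv ⊢
    have h1 : ρ g v = (LinearMap.toMatrix' (ρ g)) *ᵥ v := by
      rw [← Matrix.toLin'_apply, Matrix.toLin'_toMatrix']
    rw [h1, Matrix.mulVec_mulVec, hcomm g, ← Matrix.mulVec_mulVec, hv, Matrix.mulVec_zero]⟩
  rcases eq_bot_or_eq_top σ with h1 | h1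
  · have hker : LinearMap.ker (Matrix.toLin' B) = ⊥ := by
      have : σ.toSubmodule = (⊥ : Subrepresentation ρ).toSubmodule := by rw [h1]
      exact this
    have hinj : Function.Injective B.mulVec := by
      have := LinearMap.ker_eq_bot.mp hker
      intro v w hvw
      apply this
      rw [Matrix.toLin'_apply, Matrix.toLin'_apply]
      exact hvw
    have hunit := Matrix.mulVec_injective_iff_isUnit.mp hinj
    exact ((Matrix.isUnit_iff_isUnit_det B).mp hunit).ne_zero
  · exfalso
    apply hB0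
    have hker : LinearMap.ker (Matrix.toLin' B) = ⊤ := by
      have : σ.toSubmodule = (⊤ : Subrepresentation ρ).toSubmodule := by rw [h1]
      exact this
    have h2 : Matrix.toLin' B = 0 := LinearMap.ker_eq_top.mp hker
    have h3 : Matrix.toLin' B = Matrix.toLin' (0 : Matrix (Fin n) (Fin n) ℂ) := by
      rw [h2, map_zero]
    exact Matrix.toLin'.injective h3

theorem det_eq_zero_of_antisymm_odd (hn : Odd n) (B : Matrix (Fin n) (Fin n) ℂ) (hB : Bᵀ = -B) :
    B.det = 0 := by
  have h1 : B.det = (-B).det := by rw [← hB, Matrix.det_transpose]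
  rw [Matrix.det_neg, Fintype.card_fin, hn.neg_one_pow] at h1
  linear_combination h1 / 2

/-- A real-valued irreducible character of odd degree has Frobenius–Schur indicator `1`. -/
theorem fs_indicator_one_of_real_odd (χ : G → ℂ) (hχ : IsIrrCharacter G χ)
    (hreal : ∀ g : G, (χ g).im = 0) (d : ℕ) (hd : χ 1 = d) (hodd : Odd d) :
    (Nat.card G : ℂ)⁻¹ * ∑ s : G, χ (s * s) = 1 := by
  classical
  obtain ⟨n, ρ, hirr, hρ⟩ := hχ
  have hχ' : IsIrrCharacter G χ := ⟨n, ρ, hirr, hρ⟩
  have hnd : n = d := by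
    have h1 : ρ.character 1 = (n : ℂ) := by
      rw [Representation.char_one]; simp
    rw [hρ, hd] at h1
    exact_mod_cast h1.symm
  subst hnd
  let χ' : IrrCharacter G := ⟨χ, hχ'⟩
  have hconj : χ' = irrConj χ' := ((irrConj_eq_iff χ').mpr hreal).symm
  have hfin := fs_finrank χ' ρ hρ
  rw [if_pos hconj] at hfin
  have hfin1 : Module.finrank ℂ (bilRep ρ).invariants = 1 := by exact_mod_cast hfin
  obtain ⟨⟨B, hB⟩, hB0, -⟩ := finrank_eq_one_iff'.mp hfin1
  have hB0' : B ≠ 0 := fun h => hB0 (Subtype.ext h)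
  have hspan : ∀ w : (bilRep ρ).invariants, ∃ c : ℂ, c • B = (w : Matrix (Fin n) (Fin n) ℂ) := by
    intro w
    have h2 := (finrank_eq_one_iff_of_nonzero' (⟨B, hB⟩ : (bilRep ρ).invariants) hB0).mp hfin1 w
    obtain ⟨c, hc⟩ := h2
    exact ⟨c, congrArg Subtype.val hc⟩
  have hTB : transposeL n B ∈ (bilRep ρ).invariants := by
    intro g
    have := congrArg (fun F : Matrix (Fin n) (Fin n) ℂ →ₗ[ℂ] Matrix (Fin n) (Fin n) ℂ => F B)
      (transposeL_comp_bilRep ρ g)
    simp only [LinearMap.comp_apply] at this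
    rw [← this, hB g]
  obtain ⟨c, hc⟩ := hspan ⟨transposeL n B, hTB⟩
  have hc' : transposeL n B = c • B := hc.symm
  have htr := trace_comp_avgOp_eq (bilRep ρ) (transposeL n) hfin1 B hB hB0' c hc'
  have hind := fs_indicator_eq_trace χ' ρ hρ
  have hind' : (Nat.card G : ℂ)⁻¹ * ∑ s : G, χ (s * s) = c := by
    rw [← htr]; exact hind
  rw [hind']
  have hcc : c * c = 1 := by
    have h2 : transposeL n (transposeL n B) = B :=
      congrArg (fun F : Matrix (Fin n) (Fin n) ℂ →ₗ[ℂ] Matrix (Fin n) (Fin n) ℂ => F B)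
        transposeL_comp_self
    rw [hc', map_smul, hc', smul_smul] at h2
    have h3 : (c * c - 1) • B = 0 := by rw [sub_smul, h2, one_smul, sub_self]
    rcases smul_eq_zero.mp h3 with h4 | h4
    · linear_combination h4
    · exact absurd h4 hB0'
  have hc1 : (c - 1) * (c + 1) = 0 := by linear_combination hcc
  rcases mul_eq_zero.mp hc1 with h5 | h5
  · linear_combination h5
  · exfalso
    have hcm : c = -1 := by linear_combination h5
    have hanti : Bᵀ = -B := by
      have : transposeL n B = Bᵀ := transposeL_apply B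
      rw [← this, hc', hcm]; simp
    exact det_ne_zero_of_invariant ρ B hB hB0' (det_eq_zero_of_antisymm_odd hodd B hanti)

end FS2

end Cfsg.Agent.Lib.helper24
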