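import Cfsg.Agent.Lib.helper24.CharOdd

set_option autoImplicit false

namespace Cfsg.Agent.Lib.helper24

open Representation
open scoped ComplexConjugate

universe u v w

variable {G : Type u} [Group G]

section Faithful

/-- A representation of degree less than the smallest prime divisor of the group order has
commuting image. -/
theorem rep_comm_of_small_degree [Finite G] (V : Type v) [AddCommGroup V] [Module ℂ V]
    [FiniteDimensional ℂ V] (ρ : Representation ℂ G V)
    (hdeg : ∀ p : ℕ, p.Prime → p ∣ Nat.card G → Module.finrank ℂ V < p) (a b : G) :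
    ρ a ∘ₗ ρ b = ρ b ∘ₗ ρ a := by
  revert hdeg a b
  refine rep_induction (G := G)
    (fun V _ _ ρ => (∀ p : ℕ, p.Prime → p ∣ Nat.card G → Module.finrank ℂ V < p) →
      ∀ a b : G, ρ a ∘ₗ ρ b = ρ b ∘ₗ ρ a) ?_ ?_ ?_ V ρ
  · intro V _ _ _ ρ hV _ a b
    ext v
    exact Subsingleton.elim _ _
  · intro V _ _ _ ρ hirr hdeg a b
    have hdvd : Module.finrank ℂ V ∣ Nat.card G :=
      Cfsg.Agent.Lib.helper23.genrep_finrank_dvd_card ρ
    have hpos : 0 < Module.finrank ℂ V := by
      have := Fintype.ofFinite G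
      exact finrank_pos_of_irreducible ρ
    have h1 : Module.finrank ℂ V = 1 := by
      by_contra hne
      obtain ⟨p, hp, hpd⟩ := Nat.exists_prime_and_dvd hne
      have := hdeg p hp (hpd.trans hdvd)
      have := Nat.le_of_dvd hpos hpd
      omega
    rw [rep_eq_char_smul_of_finrank_one h1 ρ a, rep_eq_char_smul_of_finrank_one h1 ρ b]
    ext v
    simp [smul_smul, mul_comm]
  · intro V _ _ _ ρ σ σ' hc h1 h2 hdeg a b
    have hc' := isCompl_toSubmodule hc
    have hd1 : ∀ p : ℕ, p.Prime → p ∣ Nat.card G → Module.finrank ℂ σ.toSubmodule < p :=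
      fun p hp hpd => lt_of_le_of_lt (Submodule.finrank_le _) (hdeg p hp hpd)
    have hd2 : ∀ p : ℕ, p.Prime → p ∣ Nat.card G → Module.finrank ℂ σ'.toSubmodule < p :=
      fun p hp hpd => lt_of_le_of_lt (Submodule.finrank_le _) (hdeg p hp hpd)
    have e1 := h1 hd1 a b
    have e2 := h2 hd2 a b
    apply LinearMap.ext
    intro v
    have hv : v ∈ σ.toSubmodule ⊔ σ'.toSubmodule := by rw [hc'.sup_eq_top]; trivial
    obtain ⟨x, hx, y, hy, rfl⟩ := Submodule.mem_sup.mp hv
    have ex := congrArg (fun F : σ.toSubmodule →ₗ[ℂ] σ.toSubmodule =>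
      ((F ⟨x, hx⟩ : σ.toSubmodule) : V)) e1
    have ey := congrArg (fun F : σ'.toSubmodule →ₗ[ℂ] σ'.toSubmodule =>
      ((F ⟨y, hy⟩ : σ'.toSubmodule) : V)) e2
    have ex' : ρ a (ρ b x) = ρ b (ρ a x) := ex
    have ey' : ρ a (ρ b y) = ρ b (ρ a y) := ey
    simp only [LinearMap.comp_apply, map_add, ex', ey']

/-- A group with a faithful representation of degree less than its smallest prime divisor is
abelian. -/
theorem comm_of_faithful_small_degree [Finite G] (V : Type v) [AddCommGroup V] [Module ℂ V]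
    [FiniteDimensional ℂ V] (ρ : Representation ℂ G V) (hfaithful : Function.Injective ρ)
    (hdeg : ∀ p : ℕ, p.Prime → p ∣ Nat.card G → Module.finrank ℂ V < p) (a b : G) :
    a * b = b * a := by
  apply hfaithful
  rw [map_mul, map_mul]
  exact rep_comm_of_small_degree V ρ hdeg a b

end Faithful

end Cfsg.Agent.Lib.helper24
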