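import Cfsg.Agent.Lib.helper24.CharExt815
import Cfsg.Agent.Lib.helper24.CharClifford
import Cfsg.Agent.Lib.helper24.CharRamified
import Cfsg.Agent.Lib.helper24.CharGallagher2
import Cfsg.Agent.Lib.helper24.CharChief
import Cfsg.Agent.Lib.helper22.DetChar

set_option autoImplicit false

namespace Cfsg.Agent.Lib.helper24
open Cfsg

universe u

/-- `T/N` abelian, `(|N|, |T:N|) = 1`, `θ` invariant: every irreducible constituent of the induced
character restricts to `θ`. -/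
theorem restrict_eq_of_abelian_coprime {T : Type u} [Group T] [Fintype T] (N : Subgroup T)
    [hN : N.Normal] [Fintype N] (θ : N → ℂ) (hθ : IsIrrCharacter N θ)
    (hinv : ∀ (g : T) (n : N), θ ⟨g * n * g⁻¹, hN.conj_mem (n : T) n.2 g⟩ = θ n)
    (hab : commutator T ≤ N) (hcop : Nat.Coprime (Nat.card N) N.index)
    (ψ : T → ℂ) (hψ : IsIrrCharacter T ψ) (hcon : classInner (fun n : N => ψ n) θ ≠ 0) :
    ∀ n : N, ψ n = θ n := by
  classical
  obtain ⟨d, hd, hdvd⟩ := irr_degree_dvd_card (⟨θ, hθ⟩ : IrrCharacter N)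
  have hcop' : Nat.Coprime N.index (detOrder θ * d) :=
    Nat.Coprime.mul_right (hcop.symm.coprime_dvd_right (Cfsg.Agent.Lib.helper22.detOrder_dvd_card θ))
      (hcop.symm.coprime_dvd_right hdvd)
  obtain ⟨χ, ⟨hχ, hext, -⟩, -⟩ := ext_coprime_unique N θ hθ hinv d hd hcop'
  have hχθ : (fun n : N => χ n) = θ := funext hext
  have hχN : IsIrrCharacter N (fun n : N => χ n) := by rw [hχθ]; exact hθ
  have hbij := gallagher_quotient N χ hχ hχN
  have hmem : ψ ∈ {ψ : T → ℂ | IsIrrCharacter T ψ ∧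
      classInner (fun n : N => ψ n) (fun n : N => χ n) ≠ 0} := by
    refine ⟨hψ, ?_⟩
    rw [hχθ]; exact hcon
  obtain ⟨β, ⟨hβ, hβN⟩, hβψ⟩ := hbij.surjOn hmem
  have hβ1 : β 1 = 1 := irr_linear_of_commutator_le_ker hβ (fun k hk => hβN k (hab hk))
  intro n
  have h1 : ψ n = β n * χ n := by rw [← hβψ]; rfl
  rw [h1, hβN n n.2, hβ1, one_mul, hext]

theorem induced_coprime_abelian {G : Type u} [Group G] [Fintype G] (H T : Subgroup G)
    [hN : H.Normal] (θ : H → ℂ) (hθ : IsIrrCharacter H θ)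
    (hT : ∀ g : G, g ∈ T ↔ ∀ h : H, θ ⟨g * h * g⁻¹, hN.conj_mem h h.2 g⟩ = θ h)
    (hab : ∀ x ∈ T, ∀ y ∈ T, x * y * x⁻¹ * y⁻¹ ∈ H)
    (hcop : Nat.Coprime (Nat.card H) (H.relIndex T)) :
    ∃ C : Finset (G → ℂ), (∀ χ ∈ C, IsIrrCharacter G χ) ∧ C.card = H.relIndex T ∧
      indFun H θ = ∑ χ ∈ C, χ ∧ ∀ χ ∈ C, χ 1 = (T.index : ℂ) * θ 1 := by
  classical
  have hHT : H ≤ T := by
    intro h₀ hh₀
    rw [hT]
    intro h
    exact isCharacter_conj_class (isCharacter_of_isIrrCharacter hθ) h ⟨h₀, hh₀⟩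
  haveI : Fintype (IrrCharacter T) := Fintype.ofFinite _
  obtain ⟨c, hc1, hc2, hc3, hc4⟩ := clifford_correspondence H θ hθ T hT hHT
  have key : ∀ ψ : IrrCharacter T, c ψ ≠ 0 → ∀ h : H, ψ.1 ⟨h, hHT h.2⟩ = θ h := by
    intro ψ hψ
    let N : Subgroup T := H.subgroupOf T
    have hNn : N.Normal := Subgroup.Normal.subgroupOf hN T
    let e : N ≃* H := Subgroup.subgroupOfEquivOfLe hHT
    have hθ' : IsIrrCharacter N (θ ∘ e) := isIrrCharacter_comp_equiv e hθ
    have hinv' : ∀ (g : T) (n : N), (θ ∘ e) ⟨g * n * g⁻¹, hNn.conj_mem (n : T) n.2 g⟩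
        = (θ ∘ e) n := by
      intro g n
      exact (hT g).1 g.2 (e n)
    have hab' : commutator T ≤ N := by
      rw [commutator_eq_closure, Subgroup.closure_le]
      rintro _ ⟨x, y, rfl⟩
      have := hab x x.2 y y.2
      simpa [N, Subgroup.mem_subgroupOf, commutatorElement_def] using this
    have hcop' : Nat.Coprime (Nat.card N) N.index := by
      rw [Nat.card_congr e.toEquiv]
      exact hcop
    have hcon : classInner (fun n : N => ψ.1 n) (θ ∘ e) ≠ 0 := by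
      have h1 := classInner_comp_equiv e (fun n : H => ψ.1 ⟨(n : G), hHT n.2⟩) θ
      have h2 : (fun n : H => ψ.1 ⟨(n : G), hHT n.2⟩) ∘ e = fun n : N => ψ.1 n := by
        funext n
        rfl
      rw [h2] at h1
      rw [h1, hc1]
      exact_mod_cast hψ
    have hres := restrict_eq_of_abelian_coprime N (θ ∘ e) hθ' hinv' hab' hcop' ψ.1 ψ.2 hcon
    intro h
    exact hres ⟨⟨h, hHT h.2⟩, h.2⟩
  have hone : ∀ ψ : IrrCharacter T, c ψ ≠ 0 → c ψ = 1 := by
    intro ψ hψ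
    have h1 := hc1 ψ
    have h2 : (fun n : H => ψ.1 ⟨(n : G), hHT n.2⟩) = θ := funext (key ψ hψ)
    rw [h2, isIrrCharacter_inner_self hθ] at h1
    exact_mod_cast h1.symm
  let S : Finset (IrrCharacter T) := Finset.univ.filter (fun ψ => c ψ ≠ 0)
  have hsum : indFun H θ = ∑ ψ ∈ S, indFun T ψ.1 := by
    rw [hc2, Finset.sum_filter]
    refine Finset.sum_congr rfl (fun ψ _ => ?_)
    by_cases hψ : c ψ = 0
    · simp [hψ]
    · simp [hψ, hone ψ hψ]
  have hinj : Set.InjOn (fun ψ : IrrCharacter T => indFun T ψ.1) S := by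
    intro ψ hψ ψ' hψ' heq
    by_contra hne
    have h1 := hc4 ψ ψ' (Finset.mem_filter.1 hψ).2 (Finset.mem_filter.1 hψ').2 hne
    have h2 := isIrrCharacter_inner_self (hc3 ψ (Finset.mem_filter.1 hψ).2)
    simp only at heq
    rw [← heq, h2] at h1
    exact one_ne_zero h1
  have hdeg : ∀ ψ ∈ S, indFun T ψ.1 1 = (T.index : ℂ) * θ 1 := by
    intro ψ hψ
    rw [indFun_one]
    congr 1
    exact key ψ (Finset.mem_filter.1 hψ).2 1
  refine ⟨S.image (fun ψ : IrrCharacter T => indFun T ψ.1), ?_, ?_, ?_, ?_⟩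
  · intro χ hχ
    obtain ⟨ψ, hψ, rfl⟩ := Finset.mem_image.1 hχ
    exact hc3 ψ (Finset.mem_filter.1 hψ).2
  · rw [Finset.card_image_of_injOn hinj]
    have h1 : indFun H θ 1 = ∑ ψ ∈ S, indFun T ψ.1 1 := by
      rw [hsum, Finset.sum_apply]
    rw [indFun_one, Finset.sum_congr rfl hdeg, Finset.sum_const, ← Subgroup.relIndex_mul_index hHT]
      at h1
    have hθ1 : θ 1 ≠ 0 := irr_one_ne_zero (⟨θ, hθ⟩ : IrrCharacter H)
    have hTi : (T.index : ℂ) ≠ 0 := by
      exact_mod_cast Subgroup.index_ne_zero_of_finite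
    have h2 : ((H.relIndex T : ℕ) : ℂ) = (S.card : ℂ) := by
      have h3 : ((H.relIndex T : ℕ) : ℂ) * ((T.index : ℂ) * θ 1) = (S.card : ℂ) * ((T.index : ℂ) * θ 1) := by
        rw [nsmul_eq_mul] at h1
        rw [← h1]; push_cast; ring
      exact mul_right_cancel₀ (mul_ne_zero hTi hθ1) h3
    exact_mod_cast h2.symm
  · rw [Finset.sum_image hinj]
    exact hsum
  · intro χ hχ
    obtain ⟨ψ, hψ, rfl⟩ := Finset.mem_image.1 hχ
    exact hdeg ψ hψ

end Cfsg.Agent.Lib.helper24
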