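import Cfsg.Agent.Lib.helper24.CharChief
import Cfsg.Agent.Lib.helper24.CharMGroup
import Cfsg.Agent.Lib.helper24.CharClifford

set_option autoImplicit false

namespace Cfsg.Agent.Lib.helper24

open Cfsg
open scoped ComplexConjugate

universe u

/-- A chief factor above `N` of a group with solvable quotient by `N` is abelian. -/
theorem commutator_le_of_chief_solvable {G : Type u} [Group G] (N K L : Subgroup G)
    [hN : N.Normal] [hK : K.Normal] [hL : L.Normal] (hsolv : Group.IsSolvable (G ⧸ N))
    (hNL : N ≤ L) (hLK : L < K)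
    (hchief : ∀ M : Subgroup G, M.Normal → L ≤ M → M ≤ K → M = L ∨ M = K) : ⁅K, K⁆ ≤ L := by
  haveI : (⁅K, K⁆ : Subgroup G).Normal := Subgroup.commutator_normal K K
  have hDn : (⁅K, K⁆ ⊔ L : Subgroup G).Normal := inferInstance
  have hDK : ⁅K, K⁆ ⊔ L ≤ K := sup_le (Subgroup.commutator_le_right K K) hLK.le
  rcases hchief _ hDn le_sup_right hDK with h | h
  · exact le_sup_left.trans (le_of_eq h)
  · exfalso
    haveI : Group.IsSolvable (G ⧸ L) := by
      let f : G ⧸ N →* G ⧸ L := QuotientGroup.map N L (MonoidHom.id G) hNL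
      have hf : Function.Surjective f := by
        intro x
        induction x using QuotientGroup.induction_on with
        | _ t => exact ⟨(t : G ⧸ N), rfl⟩
      exact Group.isSolvable_of_surjective hf
    have hKne : K.map (QuotientGroup.mk' L) ≠ ⊥ := by
      intro h0
      rw [Subgroup.map_eq_bot_iff, QuotientGroup.ker_mk'] at h0
      exact absurd h0 (not_le_of_gt hLK)
    have hlt := Group.IsSolvable.commutator_lt_of_ne_bot hKne
    have h1 : (⁅K, K⁆ ⊔ L).map (QuotientGroup.mk' L)
        = ⁅K.map (QuotientGroup.mk' L), K.map (QuotientGroup.mk' L)⁆ := by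
      rw [Subgroup.map_sup, Subgroup.map_commutator, QuotientGroup.map_mk'_self, sup_bot_eq]
    rw [h] at h1
    rw [← h1] at hlt
    exact lt_irrefl _ hlt

/-- Isaacs 6.22: relative M-groups from non-square chief factors, by induction on the order. -/
theorem relative_m_group : ∀ (n : ℕ) (G : Type u) [Group G] [Fintype G] (N : Subgroup G)
    [N.Normal], Nat.card G = n → Group.IsSolvable (G ⧸ N) →
    (∀ (H K L : Subgroup G), N ≤ L → L < K → K ≤ H → (∀ h ∈ H, ∀ k ∈ K, h * k * h⁻¹ ∈ K) →
      (∀ h ∈ H, ∀ l ∈ L, h * l * h⁻¹ ∈ L) →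
      (∀ M : Subgroup G, L ≤ M → M ≤ K → (∀ h ∈ H, ∀ m ∈ M, h * m * h⁻¹ ∈ M) → M = L ∨ M = K) →
      ¬ IsSquare (L.relIndex K)) →
    ∀ (χ : G → ℂ), IsIrrCharacter G χ →
      ∃ (H : Subgroup G) (hNH : N ≤ H) (ψ : H → ℂ), IsIrrCharacter H ψ ∧ indFun H ψ = χ ∧
        IsIrrCharacter N (fun n : N => ψ ⟨(n : G), hNH n.2⟩) := by
  intro n
  induction n using Nat.strong_induction_on with
  | _ n ih =>
  intro G _ _ N hN hn hsolv hchief χ hχ
  classical
  have hχc := isCharacter_of_isIrrCharacter hχ
  have hχcl := isCharacter_conj_class hχc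
  by_cases hχN : IsIrrCharacter N (fun n : N => χ n)
  · refine ⟨⊤, le_top, fun h => χ h, ?_, indFun_top hχcl, hχN⟩
    exact isIrrCharacter_comp_equiv Subgroup.topEquiv hχ
  · obtain ⟨K, ⟨hKn, hNK, hχK⟩, hKmin⟩ :=
      (Set.toFinite {K : Subgroup G | K.Normal ∧ N ≤ K ∧ IsIrrCharacter K (fun k : K => χ k)}).exists_minimal
        ⟨⊤, inferInstance, le_top, isIrrCharacter_comp_equiv Subgroup.topEquiv hχ⟩
    have hNneK : N ≠ K := by
      intro h
      apply hχN
      have h2 : ∀ (K' : Subgroup G), N = K' → IsIrrCharacter K' (fun k : K' => χ k) →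
          IsIrrCharacter N (fun n : N => χ n) := by
        intro K' hK' hirr
        subst hK'
        exact hirr
      exact h2 K h hχK
    have hNltK : N < K := lt_of_le_of_ne hNK hNneK
    obtain ⟨L, ⟨hLn, hNL, hLK⟩, hLmax⟩ :=
      (Set.toFinite {L : Subgroup G | L.Normal ∧ N ≤ L ∧ L < K}).exists_maximal
        ⟨N, hN, le_refl _, hNltK⟩
    have hchiefG : ∀ M : Subgroup G, M.Normal → L ≤ M → M ≤ K → M = L ∨ M = K := by
      intro M hMn hLM hMK
      by_cases h : M = K
      · right
        exact h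
      · left
        have h2 : M ≤ L := hLmax ⟨hMn, hNL.trans hLM, lt_of_le_of_ne hMK h⟩ hLM
        exact le_antisymm h2 hLM
    have hab := commutator_le_of_chief_solvable N K L hsolv hNL hLK hchiefG
    have hχL : ¬ IsIrrCharacter L (fun l : L => χ l) := by
      intro h
      have h2 : K ≤ L := hKmin ⟨hLn, hNL, h⟩ hLK.le
      exact absurd h2 (not_le_of_gt hLK)
    have hinvK : ∀ (g : G) (k : K),
        (fun k : K => χ k) ⟨g * k * g⁻¹, hKn.conj_mem (k : G) k.2 g⟩ = (fun k : K => χ k) k :=
      fun g k => hχcl k g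
    rcases chief_restriction K L hLK hchiefG hab (fun k : K => χ k) hχK hinvK with
      h1 | ⟨φ, e, hφ, hres, he⟩ | ⟨F, hF, hFcard, hres⟩
    · exact absurd h1 hχL
    · exfalso
      apply hchief ⊤ K L hNL hLK le_top (fun h _ k hk => hKn.conj_mem k hk h)
        (fun h _ l hl => hLn.conj_mem l hl h) ?_
      · exact ⟨e, by rw [← he]; ring⟩
      · intro M hLM hMK hMn
        exact hchiefG M ⟨fun m hm g => hMn g (Subgroup.mem_top g) m hm⟩ hLM hMK
    · -- the restriction to `L` is a sum of `|K : L| ≥ 2` distinct irreducible characters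
      have hrel2 : 2 ≤ L.relIndex K := by
        have h0 : L.relIndex K ≠ 0 := (Subgroup.index_ne_zero_of_finite : (L.subgroupOf K).index ≠ 0)
        have h1 : L.relIndex K ≠ 1 := by
          intro h
          rw [Subgroup.relIndex_eq_one] at h
          exact absurd h (not_le_of_gt hLK)
        omega
      have hFcard2 : 1 < F.card := by omega
      obtain ⟨φ₁, hφ₁, φ₂, hφ₂, hne⟩ := Finset.one_lt_card.mp hFcard2
      have hinner : ∀ φ₀ ∈ F, classInner (fun x : L => χ x) φ₀ = 1 := by
        intro φ₀ hφ₀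
        have h1 : (fun x : L => χ x) = ∑ φ ∈ F, φ := hres
        rw [h1, classInner_sum_left, Finset.sum_eq_single φ₀]
        · exact irr_inner_self (⟨φ₀, hF φ₀ hφ₀⟩ : IrrCharacter L)
        · intro φ hφ hne'
          have h2 : (⟨φ, hF φ hφ⟩ : IrrCharacter L) ≠ ⟨φ₀, hF φ₀ hφ₀⟩ := by
            intro h
            exact hne' (congrArg Subtype.val h)
          have h3 : classInner (⟨φ, hF φ hφ⟩ : IrrCharacter L).1
              (⟨φ₀, hF φ₀ hφ₀⟩ : IrrCharacter L).1 = 0 := irr_inner_ne h2
          exact h3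
        · intro h
          exact absurd hφ₀ h
      have hφ₁irr := hF φ₁ hφ₁
      have hT : ∀ g : G, g ∈ conjStab L φ₁ ↔
          ∀ x : L, φ₁ ⟨g * x * g⁻¹, hLn.conj_mem (x : G) x.2 g⟩ = φ₁ x := by
        intro g
        rw [mem_conjStab]
        constructor
        · intro h x
          exact congrFun h x
        · intro h
          funext x
          exact h x
      have hLT : L ≤ conjStab L φ₁ := by
        intro l₀ hl₀
        rw [hT]
        intro x
        exact isCharacter_conj_class (isCharacter_of_isIrrCharacter hφ₁irr) x ⟨l₀, hl₀⟩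
      have hcon : classInner (fun x : L => χ x) φ₁ ≠ 0 := by
        rw [hinner φ₁ hφ₁]
        exact one_ne_zero
      obtain ⟨ψ, hψ, hψind, -⟩ :=
        clifford_correspondence_surj L φ₁ hφ₁irr (conjStab L φ₁) hT hLT χ hχ hcon
      have hTne : conjStab L φ₁ ≠ ⊤ := by
        intro htop
        have hinvφ : ∀ (g : G) (x : L),
            φ₁ ⟨g * x * g⁻¹, hLn.conj_mem (x : G) x.2 g⟩ = φ₁ x := by
          intro g
          exact (hT g).mp (by rw [htop]; exact Subgroup.mem_top g)
        have h1 := restrict_eq_smul_of_invariant L χ hχ φ₁ hφ₁irr hcon hinvφ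
        have h2 := hinner φ₂ hφ₂
        rw [h1, classInner_smul_left] at h2
        have h3 : (⟨φ₁, hF φ₁ hφ₁⟩ : IrrCharacter L) ≠ ⟨φ₂, hF φ₂ hφ₂⟩ := by
          intro h
          exact hne (congrArg Subtype.val h)
        have h4 : classInner (⟨φ₁, hF φ₁ hφ₁⟩ : IrrCharacter L).1
            (⟨φ₂, hF φ₂ hφ₂⟩ : IrrCharacter L).1 = 0 := irr_inner_ne h3
        have h5 : classInner φ₁ φ₂ = 0 := h4
        rw [h5, mul_zero] at h2
        exact zero_ne_one h2
      have hNT : N ≤ conjStab L φ₁ := hNL.trans hLT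
      have hcardT : Nat.card (conjStab L φ₁) < n := by
        rw [← hn]
        exact card_lt_of_ne_top _ hTne
      have hN'n : (N.subgroupOf (conjStab L φ₁)).Normal := Subgroup.Normal.subgroupOf hN _
      have hsolv' : Group.IsSolvable (conjStab L φ₁ ⧸ N.subgroupOf (conjStab L φ₁)) := by
        let f : conjStab L φ₁ ⧸ N.subgroupOf (conjStab L φ₁) →* G ⧸ N :=
          QuotientGroup.map _ N (conjStab L φ₁).subtype (le_refl _)
        have hf : Function.Injective f := by
          rw [injective_iff_map_eq_one]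
          intro x
          induction x using QuotientGroup.induction_on with
          | _ t =>
            intro ht
            have h1 : ((t : G) : G ⧸ N) = 1 := ht
            rw [QuotientGroup.eq_one_iff] at h1
            exact (QuotientGroup.eq_one_iff t).mpr h1
        exact Group.isSolvable_of_isSolvable_injective hf
      have hinj : Function.Injective (conjStab L φ₁).subtype := Subgroup.subtype_injective _
      have hchief' : ∀ (H' K' L' : Subgroup (conjStab L φ₁)),
          N.subgroupOf (conjStab L φ₁) ≤ L' → L' < K' → K' ≤ H' →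
          (∀ h ∈ H', ∀ k ∈ K', h * k * h⁻¹ ∈ K') → (∀ h ∈ H', ∀ l ∈ L', h * l * h⁻¹ ∈ L') →
          (∀ M : Subgroup (conjStab L φ₁), L' ≤ M → M ≤ K' →
            (∀ h ∈ H', ∀ m ∈ M, h * m * h⁻¹ ∈ M) → M = L' ∨ M = K') →
          ¬ IsSquare (L'.relIndex K') := by
        intro H' K' L' hNL' hLK' hKH' hKn' hLn' hmin
        have key := hchief (H'.map (conjStab L φ₁).subtype) (K'.map (conjStab L φ₁).subtype)
          (L'.map (conjStab L φ₁).subtype) ?_ ?_ ?_ ?_ ?_ ?_
        · rw [Subgroup.relIndex_map_map_of_injective _ _ hinj] at key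
          exact key
        · intro x hx
          exact ⟨⟨x, hNT hx⟩, hNL' (Subgroup.mem_subgroupOf.mpr hx), rfl⟩
        · exact (Subgroup.map_lt_map_iff_of_injective hinj).mpr hLK'
        · exact Subgroup.map_mono hKH'
        · rintro _ ⟨h, hh, rfl⟩ _ ⟨k, hk, rfl⟩
          exact ⟨h * k * h⁻¹, hKn' h hh k hk, rfl⟩
        · rintro _ ⟨h, hh, rfl⟩ _ ⟨l, hl, rfl⟩
          exact ⟨h * l * h⁻¹, hLn' h hh l hl, rfl⟩
        · intro M hLM hMK hMn
          have hMT : M ≤ conjStab L φ₁ := by
            intro x hx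
            obtain ⟨k, -, rfl⟩ := hMK hx
            exact k.2
          have hMeq : (M.subgroupOf (conjStab L φ₁)).map (conjStab L φ₁).subtype = M :=
            Subgroup.map_subgroupOf_eq_of_le hMT
          have h1 := hmin (M.subgroupOf (conjStab L φ₁)) ?_ ?_ ?_
          · rcases h1 with h1 | h1
            · left
              rw [← hMeq, h1]
            · right
              rw [← hMeq, h1]
          · intro x hx
            exact Subgroup.mem_subgroupOf.mpr (hLM ⟨x, hx, rfl⟩)
          · intro x hx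
            obtain ⟨k, hk, hkx⟩ := hMK (Subgroup.mem_subgroupOf.mp hx)
            have h2 : k = x := Subtype.ext hkx
            rw [← h2]
            exact hk
          · intro h hh m hm
            exact Subgroup.mem_subgroupOf.mpr
              (hMn (h : G) ⟨h, hh, rfl⟩ (m : G) (Subgroup.mem_subgroupOf.mp hm))
      obtain ⟨H', hNH', ψ', hψ', hψ'ind, hψ'N⟩ :=
        ih _ hcardT (conjStab L φ₁) (N.subgroupOf (conjStab L φ₁)) rfl hsolv' hchief' ψ hψ
      let eH : H' ≃* H'.map (conjStab L φ₁).subtype :=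
        Subgroup.equivMapOfInjective H' (conjStab L φ₁).subtype hinj
      have hNH : N ≤ H'.map (conjStab L φ₁).subtype := by
        intro x hx
        exact ⟨⟨x, hNT hx⟩, hNH' (Subgroup.mem_subgroupOf.mpr hx), rfl⟩
      refine ⟨H'.map (conjStab L φ₁).subtype, hNH, fun y => ψ' (eH.symm y), ?_, ?_, ?_⟩
      · exact isIrrCharacter_comp_equiv eH.symm hψ'
      · rw [← indFun_map_subtype (conjStab L φ₁) H' ψ', hψ'ind, hψind]
      · let eN : N ≃* N.subgroupOf (conjStab L φ₁) := (Subgroup.subgroupOfEquivOfLe hNT).symm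
        have h1 : (fun n : N => ψ' (eH.symm ⟨(n : G), hNH n.2⟩))
            = (fun n' : N.subgroupOf (conjStab L φ₁) => ψ' ⟨(n' : conjStab L φ₁), hNH' n'.2⟩) ∘ eN := by
          funext x
          show ψ' (eH.symm ⟨(x : G), hNH x.2⟩) = ψ' ⟨((eN x : N.subgroupOf (conjStab L φ₁)) : conjStab L φ₁), _⟩
          congr 1
          rw [MulEquiv.symm_apply_eq]
          apply Subtype.ext
          rfl
        rw [h1]
        exact isIrrCharacter_comp_equiv eN hψ'N

end Cfsg.Agent.Lib.helper24
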