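import Cfsg.Agent.Lib.helper24.CharFaithful
import Cfsg.Agent.Lib.helper23.BurnsideSimple

set_option autoImplicit false

namespace Cfsg.Agent.Lib.helper24

open Representation
open scoped ComplexConjugate

universe u v w

variable {G : Type u} [Group G]

section SylAb

theorem comm_of_card_dvd_prime_sq {P : Type u} [Group P] [Finite P] (p : ℕ) [hp : Fact p.Prime]
    (hP : IsPGroup p P) (h : ¬ p ^ 3 ∣ Nat.card P) (a b : P) : a * b = b * a := by
  obtain ⟨j, hj⟩ := hP.exists_card_eq
  have hj3 : j < 3 := by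
    by_contra hcon
    apply h
    rw [hj]
    exact pow_dvd_pow p (by omega)
  interval_cases j
  · have : Subsingleton P := by
      rw [pow_zero] at hj
      exact (Nat.card_eq_one_iff_unique.mp hj).1
    rw [Subsingleton.elim a b]
  · rw [pow_one] at hj
    have : IsCyclic P := isCyclic_of_prime_card hj
    have hc : IsMulCommutative P := IsCyclic.isMulCommutative
    exact hc.is_comm.comm a b
  · have hc : IsMulCommutative P := IsPGroup.isMulCommutative_of_card_eq_prime_sq hj
    exact hc.is_comm.comm a b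

/-- In a simple group with a nonabelian Sylow `p`-subgroup, nontrivial irreducible characters
have degree at least `p`. -/
theorem irr_degree_ge_of_nonabelian_sylow [Finite G] [IsSimpleGroup G] (p : ℕ) [Fact p.Prime]
    (P : Sylow p G) (hnab : ∃ a b : G, a ∈ P ∧ b ∈ P ∧ a * b ≠ b * a) (χ : IrrCharacter G)
    (hχ : χ ≠ trivIrr G) : ∃ d : ℕ, χ.1 1 = (d : ℂ) ∧ p ≤ d := by
  obtain ⟨n, ρ, hirr, hρ⟩ := χ.2
  refine ⟨n, ?_, ?_⟩
  · rw [← hρ, Representation.char_one]
    simp
  · by_contra hlt
    push Not at hlt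
    have hker := Cfsg.Agent.Lib.helper23.irr_rep_ker_eq_bot_of_simple χ hχ n ρ hirr hρ
    have hinj : Function.Injective ρ := (MonoidHom.ker_eq_bot_iff _).mp hker
    obtain ⟨a, b, ha, hb, hab⟩ := hnab
    have hinj' : Function.Injective (ρ.comp (P : Subgroup G).subtype :
        Representation ℂ (P : Subgroup G) (Fin n → ℂ)) := by
      intro x y hxy
      exact Subtype.ext (hinj hxy)
    have hdeg : ∀ q : ℕ, q.Prime → q ∣ Nat.card (P : Subgroup G) →
        Module.finrank ℂ (Fin n → ℂ) < q := by
      intro q hq hqd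
      obtain ⟨j, hj⟩ := P.2.exists_card_eq
      rw [hj] at hqd
      have : q = p := (Nat.prime_dvd_prime_iff_eq hq (Fact.out)).mp (hq.dvd_of_dvd_pow hqd)
      rw [this]
      simpa using hlt
    have := comm_of_faithful_small_degree (G := (P : Subgroup G)) (Fin n → ℂ)
      (ρ.comp (P : Subgroup G).subtype) hinj' hdeg ⟨a, ha⟩ ⟨b, hb⟩
    exact hab (congrArg Subtype.val this)

/-- A simple group with more than `|G| / p²` classes has abelian Sylow `p`-subgroups. -/
theorem sylow_comm_of_many_classes [Finite G] [IsSimpleGroup G] (p : ℕ) [Fact p.Prime]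
    (hmany : Nat.card G < p ^ 2 * Nat.card (ConjClasses G)) (P : Sylow p G) (a b : G)
    (ha : a ∈ P) (hb : b ∈ P) : a * b = b * a := by
  classical
  by_contra hab
  have := Fintype.ofFinite G
  have := Fintype.ofFinite (IrrCharacter G)
  have hnab : ∃ a b : G, a ∈ P ∧ b ∈ P ∧ a * b ≠ b * a := ⟨a, b, ha, hb, hab⟩
  have hp3 : p ^ 3 ∣ Nat.card (P : Subgroup G) := by
    by_contra h3
    have := comm_of_card_dvd_prime_sq (P := (P : Subgroup G)) p P.2 h3 ⟨a, ha⟩ ⟨b, hb⟩
    exact hab (congrArg Subtype.val this)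
  have hp2 : p ^ 2 ∣ Nat.card G :=
    ((pow_dvd_pow p (by norm_num : 2 ≤ 3)).trans hp3).trans (Subgroup.card_subgroup_dvd_card _)
  obtain ⟨m, hm⟩ := hp2
  choose d hd using (fun χ : IrrCharacter G => isIrrCharacter_one χ.2)
  have hdge : ∀ χ : IrrCharacter G, χ ≠ trivIrr G → p ≤ d χ := by
    intro χ hχ
    obtain ⟨d', hd', hpd⟩ := irr_degree_ge_of_nonabelian_sylow p P hnab χ hχ
    have : d χ = d' := by
      have := (hd χ).2
      rw [hd'] at this
      exact_mod_cast this.symm
    rw [this]
    exact hpd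
  have h1 : ∑ χ : IrrCharacter G, (d χ) ^ 2 = Nat.card G := by
    have := sum_sq_degrees (G := G)
    simp only [fun χ => (hd χ).2] at this
    exact_mod_cast this
  have hk : Fintype.card (IrrCharacter G) = Nat.card (ConjClasses G) := by
    rw [← Nat.card_eq_fintype_card, card_irr_eq_card_conjClasses]
  have hdt : d (trivIrr G) = 1 := by
    have := (hd (trivIrr G)).2
    rw [trivIrr_apply] at this
    exact_mod_cast this.symm
  have h2 : 1 + (Fintype.card (IrrCharacter G) - 1) * p ^ 2 ≤ Nat.card G := by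
    rw [← h1, ← Finset.add_sum_erase Finset.univ _ (Finset.mem_univ (trivIrr G)), hdt]
    have : (Fintype.card (IrrCharacter G) - 1) * p ^ 2
        ≤ ∑ χ ∈ Finset.univ.erase (trivIrr G), (d χ) ^ 2 := by
      have hc : (Finset.univ.erase (trivIrr G)).card = Fintype.card (IrrCharacter G) - 1 := by
        rw [Finset.card_erase_of_mem (Finset.mem_univ _), Finset.card_univ]
      rw [← hc, ← smul_eq_mul, ← Finset.sum_const]
      apply Finset.sum_le_sum
      intro χ hχ
      exact Nat.pow_le_pow_left (hdge χ (Finset.ne_of_mem_erase hχ)) 2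
    omega
  rw [hk] at h2
  have hkpos : 0 < Nat.card (ConjClasses G) := Nat.card_pos
  rw [hm] at hmany h2
  have h3 : m < Nat.card (ConjClasses G) := by
    by_contra hcon
    push Not at hcon
    have := Nat.mul_le_mul_left (p ^ 2) hcon
    omega
  have h4 : p ^ 2 * m ≤ p ^ 2 * (Nat.card (ConjClasses G) - 1) :=
    Nat.mul_le_mul_left (p ^ 2) (by omega)
  have h5 : (Nat.card (ConjClasses G) - 1) * p ^ 2 = p ^ 2 * (Nat.card (ConjClasses G) - 1) :=
    mul_comm _ _
  omega

end SylAb

end Cfsg.Agent.Lib.helper24
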