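import Cfsg.Agent.Lib.helper24.CycFpf

set_option autoImplicit false

namespace Cfsg.Agent.Lib.helper24

open Cfsg
open scoped ComplexConjugate

universe u

theorem centralizer_zpowers_eq {Γ : Type u} [Group Γ] (x : Γ) :
    Subgroup.centralizer ((Subgroup.zpowers x : Subgroup Γ) : Set Γ)
      = Subgroup.centralizer ({x} : Set Γ) := by
  ext z
  rw [Subgroup.mem_centralizer_iff, Subgroup.mem_centralizer_iff]
  constructor
  · intro h y hy
    rw [Set.mem_singleton_iff] at hy
    rw [hy]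
    exact h x (Subgroup.mem_zpowers x)
  · intro h y hy
    obtain ⟨i, rfl⟩ := Subgroup.mem_zpowers_iff.mp hy
    have h1 : Commute x z := h x rfl
    exact (h1.zpow_left i).eq

/-- Isaacs: coprime cyclic action with a common centraliser of the non-identity elements. -/
theorem cyc_fpf_values {Γ : Type u} [Group Γ] [Fintype Γ] (G S : Subgroup Γ) [Fintype G] (hnorm : ∀ s ∈ S, ∀ g ∈ G, s * g * s⁻¹ ∈ G) (hcop : (Nat.card G).Coprime (Nat.card S)) (htop : G ⊔ S = ⊤) (hcyc : IsCyclic S) (C : Subgroup Γ) [Fintype C] (hC : C = G ⊓ Subgroup.centralizer (S : Set Γ)) (hCG : C ≤ G) (hfpf : ∀ x ∈ S, x ≠ 1 → G ⊓ Subgroup.centralizer ({x} : Set Γ) = C) (χ : IrrCharacter G) (hinv : (∀ s ∈ S, ∀ g g' : G, (g' : Γ) = s * g * s⁻¹ → (χ : G → ℂ) g' = (χ : G → ℂ) g)) (χh : IrrCharacter Γ) (hext : (∀ g : G, (χh : Γ → ℂ) g = (χ : G → ℂ) g)) (hdet : (detOrder (χh : Γ → ℂ)).Coprime (Nat.card S)) (β : IrrCharacter C) (ε₀ : ℤ) (hε₀ : ε₀ = 1 ∨ ε₀ = -1) (hβ : ∀ c : C, ∀ s : Γ, Subgroup.zpowers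 s = S → (χh : Γ → ℂ) ((c : Γ) * s) = (ε₀ : ℂ) * (β : C → ℂ) c) : ∃ ε : ℤ, (ε = 1 ∨ ε = -1) ∧ (∃ μ : S → ℂ, IsCharacter S μ ∧ μ 1 = 1 ∧ (∀ x : S, μ x * μ x = 1) ∧ ∀ c : C, ∀ x : S, x ≠ 1 → (χh : Γ → ℂ) ((c : Γ) * x) = (ε : ℂ) * (β : C → ℂ) c * μ x) ∧ (∃ ϑ : C → ℂ, IsCharacter C ϑ ∧ (fun c : C => (χ : G → ℂ) ⟨c, hCG c.2⟩) = fun c => (Nat.card S : ℂ) * ϑ c + (ε : ℂ) * (β : C → ℂ) c) ∧ (Nat.card S : ℤ) ∣ (charDegree (χ : G → ℂ) : ℤ) - ε * (charDegree (β : C → ℂ) : ℤ) := by
  classical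
  haveI hG : G.Normal := normal_of_sup_top G S hnorm htop
  obtain ⟨s₀, hs₀⟩ := hcyc.exists_generator
  have hs : Subgroup.zpowers (s₀ : Γ) = S :=
    (zpowers_coe_eq_iff S s₀).mp ((Subgroup.eq_top_iff' _).mpr hs₀)
  have hcomm := comm_of_zpowers_eq hs
  have : Fintype S := Fintype.ofFinite S
  have := Fintype.ofFinite (IrrCharacter C)
  have hχhc := isCharacter_of_isIrrCharacter χh.2
  have hχ : IsIrrCharacter G (fun g : G => χh.1 g) := by
    have : (fun g : G => χh.1 g) = χ.1 := funext hext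
    rw [this]; exact χ.2
  have hCS : ∀ (z : C) (a : S), Commute (C.subtype z) (S.subtype a) := by
    intro z a
    have hz : (z : Γ) ∈ G ⊓ Subgroup.centralizer (S : Set Γ) := hC ▸ z.2
    exact (Subgroup.mem_centralizer_iff.mp hz.2 a a.2).symm
  let P : C × S →* Γ := MonoidHom.noncommCoprod C.subtype S.subtype hCS
  have hP : ∀ (c : C) (x : S), P (c, x) = (c : Γ) * x := fun c x => rfl
  set Ψ : C × S → ℂ := χh.1 ∘ P with hΨdef
  have hΨval : ∀ (c : C) (x : S), Ψ (c, x) = χh.1 ((c : Γ) * x) := fun c x => rfl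
  have hΨ : IsCharacter (C × S) Ψ := Cfsg.Agent.Lib.helper24.isCharacter_comp P hχhc
  have hΨc := isCharacter_conj_class hΨ
  obtain ⟨f, hfdef⟩ : ∃ f : IrrCharacter C → S → ℂ,
      ∀ β' x, f β' x = classInner (fun c => Ψ (c, x)) β'.1 := ⟨_, fun _ _ => rfl⟩
  have hf : ∀ β', IsCharacter S (f β') := by
    intro β'
    have : f β' = fun x => classInner (fun c => Ψ (c, x)) β'.1 := funext (hfdef β')
    rw [this]
    exact slice_isCharacter hΨ β'
  have hsl : ∀ x : S, IsClassFunction C (fun c => Ψ (c, x)) := by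
    intro x g h
    have := hΨc (g, x) (h, 1)
    simpa using this
  have hexp : ∀ (x : S) (c : C), Ψ (c, x) = ∑ β' : IrrCharacter C, f β' x * β'.1 c := by
    intro x c
    rw [classFunction_expansion_apply (hsl x) c]
    apply Finset.sum_congr rfl
    intro β' _
    rw [hfdef]
  have hG0 : (Nat.card G : ℂ) ≠ 0 := by exact_mod_cast Nat.card_pos.ne'
  have hC0 : (Nat.card C : ℂ) ≠ 0 := by exact_mod_cast Nat.card_pos.ne'
  have hint : ∀ (x : S), x ≠ 1 → ∀ β' : IrrCharacter C, ∃ z : ℤ, f β' x = z := by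
    intro x hx β'
    let T : Subgroup Γ := Subgroup.zpowers (x : Γ)
    have hTS : T ≤ S := (Subgroup.zpowers_le).mpr x.2
    have : Fintype T := Fintype.ofFinite T
    have hCT : ∀ (z : C) (a : T), Commute (C.subtype z) (T.subtype a) :=
      fun z a => hCS z ⟨a, hTS a.2⟩
    let PT : C × T →* Γ := MonoidHom.noncommCoprod C.subtype T.subtype hCT
    have hΨT : IsCharacter (C × T) (χh.1 ∘ PT) :=
      Cfsg.Agent.Lib.helper24.isCharacter_comp PT hχhc
    let x₀ : T := ⟨x, Subgroup.mem_zpowers _⟩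
    have hx₀ : Subgroup.zpowers x₀ = ⊤ := (zpowers_coe_eq_iff T x₀).mpr rfl
    have hgen : ∀ x' : T, Subgroup.zpowers x' = ⊤ →
        ∀ c : C, (χh.1 ∘ PT) (c, x') = (χh.1 ∘ PT) (c, x₀) := by
      intro x' hx' c
      have hx'' : Subgroup.zpowers (x' : Γ) = T := (zpowers_coe_eq_iff T x').mp hx'
      show χh.1 ((c : Γ) * x') = χh.1 ((c : Γ) * x)
      exact canon_gen_indep_sub G S hcop htop hcomm χh.1 χh.2 hχ hdet x x' x.2 hx'' c
        (hC ▸ c.2)
    obtain ⟨z, hz⟩ := slice_int hΨT x₀ hx₀ hgen β'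
    exact ⟨z, by rw [hfdef]; exact hz⟩
  have hnorm1 : ∀ x : S, x ≠ 1 →
      classInner (fun c => Ψ (c, x)) (fun c => Ψ (c, x)) = 1 := by
    intro x hx
    have hxΓ : (x : Γ) ≠ 1 := fun h => hx (Subtype.ext h)
    have hca := (coset_average_statement G χh.1 χh.2 hχ χh.1 χh.2 _ rfl).2.2 rfl
    have h1 : (Nat.card G : ℂ)⁻¹ * ∑ n : G, χh.1 ((n : Γ) * x) * conj (χh.1 ((n : Γ) * x))
        = 1 := congrFun hca x
    have hF₀ : IsClassFunction Γ (fun y => χh.1 y * conj (χh.1 y)) := by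
      intro g h
      show χh.1 (h * g * h⁻¹) * conj (χh.1 (h * g * h⁻¹)) = χh.1 g * conj (χh.1 g)
      rw [isCharacter_conj_class hχhc g h]
    have hcopx : (Nat.card G).Coprime (Nat.card (Subgroup.zpowers (x : Γ))) :=
      Nat.Coprime.coprime_dvd_right
        (Subgroup.card_dvd_of_le ((Subgroup.zpowers_le).mpr x.2)) hcop
    have hCx : C = G ⊓ Subgroup.centralizer
        ((Subgroup.zpowers (x : Γ) : Subgroup Γ) : Set Γ) := by
      rw [centralizer_zpowers_eq, hfpf x x.2 hxΓ]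
    have h2 := coset_sum_eq G (Subgroup.zpowers (x : Γ)) hcopx x rfl C hCx
      (fun y => χh.1 y * conj (χh.1 y)) hF₀
    have h3 : ∑ n : G, χh.1 ((n : Γ) * x) * conj (χh.1 ((n : Γ) * x)) = (Nat.card G : ℂ) :=
      ((inv_mul_eq_one₀ hG0).mp h1).symm
    simp only [h3] at h2
    have h4 : ∑ c : C, χh.1 ((c : Γ) * x) * conj (χh.1 ((c : Γ) * x)) = (Nat.card C : ℂ) := by
      apply mul_left_cancel₀ hG0
      rw [← h2, mul_comm]
    unfold classInner
    simp only [hΨval]
    rw [h4, inv_mul_cancel₀ hC0]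
  have hsmall : ∀ β' : IrrCharacter C, ∀ x : S, x ≠ 1 → ∃ z : ℤ, f β' x = z ∧ z ^ 2 ≤ 1 := by
    intro β' x hx
    choose z hz using hint x hx
    have hpars : classInner (fun c => Ψ (c, x)) (fun c => Ψ (c, x))
        = ((∑ β'' : IrrCharacter C, z β'' ^ 2 : ℤ) : ℂ) := by
      have hexp' := classFunction_expansion (hsl x)
      conv_lhs => rhs; rw [hexp']
      rw [classInner_sum_right]
      push_cast
      apply Finset.sum_congr rfl
      intro β'' _
      rw [classInner_smul_right, ← hfdef, hz β'', map_intCast]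
      ring
    rw [hnorm1 x hx] at hpars
    have hsum : ∑ β'' : IrrCharacter C, z β'' ^ 2 = 1 := by exact_mod_cast hpars.symm
    refine ⟨z β', hz β', ?_⟩
    rw [← hsum]
    exact Finset.single_le_sum (fun i _ => sq_nonneg (z i)) (Finset.mem_univ β')
  have hV := fun β' => char_small_off_identity
    (fun a b : S => Subtype.ext (hcomm a a.2 b b.2)) (hf β') (hsmall β')
  obtain ⟨dχ, hdχpos, hdχ⟩ := isIrrCharacter_one χ.2
  have hdeg : ∀ β' : IrrCharacter C, ∃ d : ℕ, 0 < d ∧ β'.1 1 = (d : ℂ) :=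
    fun β' => isIrrCharacter_one β'.2
  choose dβ hdβpos hdβ using hdeg
  have hcdχ : charDegree χ.1 = dχ := by
    unfold charDegree; rw [hdχ]; simp
  have hcdβ : charDegree β.1 = dβ β := by
    unfold charDegree; rw [hdβ β]; simp
  have hχC : ∀ c : C, χ.1 ⟨c, hCG c.2⟩ = Ψ (c, 1) := by
    intro c
    rw [hΨval, ← hext ⟨c, hCG c.2⟩]
    simp
  by_cases hn1 : Nat.card S = 1
  · have hsub : Subsingleton S := (Nat.card_eq_one_iff_unique.mp hn1).1
    have hs1 : (s₀ : Γ) = 1 := by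
      have : s₀ = 1 := Subsingleton.elim _ _
      rw [this]; rfl
    refine ⟨ε₀, hε₀, ⟨fun _ => 1, isCharacter_trivial, rfl, fun x => by simp, ?_⟩,
      ⟨0, isCharacter_zero, ?_⟩, ?_⟩
    · intro c x hx
      exact absurd (Subsingleton.elim x 1) hx
    · funext c
      have h1 := hβ c s₀ hs
      rw [hs1, mul_one] at h1
      rw [← hext ⟨c, hCG c.2⟩]
      simp only [Pi.zero_apply, mul_zero, zero_add]
      exact h1
    · rw [hn1]; simp
  · have hn2 : 2 ≤ Nat.card S := by
      have : 0 < Nat.card S := Nat.card_pos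
      omega
    have hs₀1 : s₀ ≠ 1 := by
      intro h
      apply hn1
      rw [← hs, h]
      simp
    have hfs₀ : ∀ β' : IrrCharacter C, f β' s₀ = if β' = β then (ε₀ : ℂ) else 0 := by
      intro β'
      rw [hfdef]
      have : (fun c : C => Ψ (c, s₀)) = (ε₀ : ℂ) • β.1 := by
        funext c
        rw [hΨval]
        exact hβ c s₀ hs
      rw [this, classInner_smul_left, irr_orthonormal]
      by_cases h : β' = β
      · rw [if_pos h, if_pos h.symm, mul_one]
      · rw [if_neg h, if_neg (fun h' => h h'.symm), mul_zero]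
    have hε₀C : (ε₀ : ℂ) ≠ 0 := by rcases hε₀ with h | h <;> simp [h]
    -- the character β
    obtain ⟨a, hcase⟩ := hV β
    have hβcase : ∃ (ε : ℤ) (lam : S →* ℂˣ), (ε = 1 ∨ ε = -1) ∧
        f β 1 = (a : ℂ) * (Nat.card S : ℂ) + ε ∧ ∀ x : S, x ≠ 1 → f β x = ε * (lam x : ℂ) := by
      rcases hcase with ⟨-, h0⟩ | h
      · exfalso
        have := h0 s₀ hs₀1
        rw [hfs₀ β, if_pos rfl] at this
        exact hε₀C this
      · exact h
    obtain ⟨ε, lam, hε, hfβ1, hfβx⟩ := hβcase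
    have hεC : (ε : ℂ) ≠ 0 := by rcases hε with h | h <;> simp [h]
    have hoff : ∀ β' : IrrCharacter C, β' ≠ β → ∃ a' : ℕ,
        f β' 1 = (a' : ℂ) * (Nat.card S : ℂ) ∧ ∀ x : S, x ≠ 1 → f β' x = 0 := by
      intro β' hne
      obtain ⟨a', hcase'⟩ := hV β'
      rcases hcase' with h | ⟨ε', lam', hε', -, hx'⟩
      · exact ⟨a', h⟩
      · exfalso
        have := hx' s₀ hs₀1
        rw [hfs₀ β', if_neg hne] at this
        have hε'C : (ε' : ℂ) ≠ 0 := by rcases hε' with h | h <;> simp [h]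
        exact (mul_ne_zero hε'C (Units.ne_zero (lam' s₀))) this.symm
    let aa : IrrCharacter C → ℕ := fun β' =>
      if h : β' = β then a else Classical.choose (hoff β' h)
    have haa : ∀ β' : IrrCharacter C, f β' 1
        = (aa β' : ℂ) * (Nat.card S : ℂ) + (if β' = β then (ε : ℂ) else 0) := by
      intro β'
      by_cases h : β' = β
      · subst h
        simp only [aa, dif_pos rfl, if_pos rfl]
        exact hfβ1
      · simp only [aa, dif_neg h, if_neg h, add_zero]
        exact (Classical.choose_spec (hoff β' h)).1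
    have hvalx : ∀ (c : C) (x : S), x ≠ 1 →
        χh.1 ((c : Γ) * x) = (ε : ℂ) * β.1 c * (lam x : ℂ) := by
      intro c x hx
      rw [← hΨval, hexp x c, Finset.sum_eq_single β]
      · rw [hfβx x hx]; ring
      · intro β' _ hne
        rw [(hoff β' hne).choose_spec.2 x hx, zero_mul]
      · intro h; exact absurd (Finset.mem_univ β) h
    refine ⟨ε, hε, ⟨fun x => (lam x : ℂ), (isCharacter_of_hom_linear lam).1,
      (isCharacter_of_hom_linear lam).2, ?_, hvalx⟩, ⟨∑ β' : IrrCharacter C, aa β' • β'.1, ?_, ?_⟩,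
      ?_⟩
    · intro x
      by_cases hx : x = 1
      · rw [hx]; simp
      · obtain ⟨z, hz, hz1⟩ := hsmall β x hx
        rw [hfβx x hx] at hz
        have hz0 : z ≠ 0 := by
          intro h0
          rw [h0] at hz
          simp only [Int.cast_zero] at hz
          exact (mul_ne_zero hεC (Units.ne_zero (lam x))) hz
        have hz2 : z ^ 2 = 1 := by
          have : 0 < z ^ 2 := by positivity
          omega
        have hsq : ((ε : ℂ) * (lam x : ℂ)) ^ 2 = 1 := by
          rw [hz]; exact_mod_cast hz2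
        have hε2 : (ε : ℂ) ^ 2 = 1 := by rcases hε with h | h <;> simp [h]
        have : (lam x : ℂ) ^ 2 = 1 := by
          rw [mul_pow, hε2, one_mul] at hsq
          exact hsq
        rw [← sq]; exact this
    · apply isCharacter_finset_sum
      intro β' _
      exact isCharacter_nsmul (aa β') (isCharacter_of_isIrrCharacter β'.2)
    · funext c
      rw [hχC c, hexp 1 c]
      have e1 : (∑ β' : IrrCharacter C, aa β' • β'.1) c
          = ∑ β' : IrrCharacter C, (aa β' : ℂ) * β'.1 c := by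
        rw [Finset.sum_apply]
        apply Finset.sum_congr rfl
        intro β' _
        simp [Pi.smul_apply, nsmul_eq_mul]
      rw [e1, Finset.mul_sum]
      have e2 : ∑ β' : IrrCharacter C, f β' 1 * β'.1 c
          = ∑ β' : IrrCharacter C, ((Nat.card S : ℂ) * ((aa β' : ℂ) * β'.1 c)
            + (if β' = β then (ε : ℂ) * β.1 c else 0)) := by
        apply Finset.sum_congr rfl
        intro β' _
        rw [haa β']
        by_cases h : β' = β
        · rw [if_pos h, if_pos h, h]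
          ring
        · simp only [if_neg h]
          ring
      rw [e2, Finset.sum_add_distrib, Finset.sum_ite_eq' Finset.univ β, if_pos (Finset.mem_univ β)]
    · refine ⟨∑ β' : IrrCharacter C, (aa β' : ℤ) * (dβ β' : ℤ), ?_⟩
      rw [hcdχ, hcdβ]
      have h1 := hexp 1 1
      rw [← hχC 1] at h1
      have h2 : χ.1 ⟨((1 : C) : Γ), hCG (1 : C).2⟩ = (dχ : ℂ) := hdχ
      rw [h2] at h1
      have e2 : ∑ β' : IrrCharacter C, f β' 1 * β'.1 1
          = ∑ β' : IrrCharacter C, ((Nat.card S : ℂ) * ((aa β' : ℂ) * (dβ β' : ℂ))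
            + (if β' = β then (ε : ℂ) * (dβ β : ℂ) else 0)) := by
        apply Finset.sum_congr rfl
        intro β' _
        rw [haa β', hdβ β']
        by_cases h : β' = β
        · rw [if_pos h, if_pos h, h]
          ring
        · simp only [if_neg h]
          ring
      rw [e2, Finset.sum_add_distrib, Finset.sum_ite_eq' Finset.univ β,
        if_pos (Finset.mem_univ β), ← Finset.mul_sum] at h1
      have h3 : (((dχ : ℤ) - ε * (dβ β : ℤ) : ℤ) : ℂ)
          = (((Nat.card S : ℤ) * ∑ β' : IrrCharacter C, (aa β' : ℤ) * (dβ β' : ℤ) : ℤ) : ℂ) := by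
        push_cast
        rw [h1]
        ring
      exact_mod_cast h3

end Cfsg.Agent.Lib.helper24
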