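import Cfsg.Agent.Lib.helper24.CycTI4
import Cfsg.Agent.S1506

set_option autoImplicit false

namespace Cfsg.Agent.Lib.helper24
open Cfsg
open scoped ComplexConjugate

universe u

/-- combinatorial lemma: an "additive" matrix with few nonzero entries is zero, or supported
on one column with constant value, or on one row with constant value -/
theorem rect_few {A B : Type*} [Fintype A] [Fintype B] [DecidableEq A] [DecidableEq B]
    (a : A → B → ℂ) (hrect : ∀ i i' j j', a i j + a i' j' = a i j' + a i' j)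
    (hcard : Fintype.card A + 2 ≤ Fintype.card B)
    (hfew : (Finset.univ.filter (fun p : A × B => a p.1 p.2 ≠ 0)).card < 2 * Fintype.card A) :
    (∀ i j, a i j = 0) ∨ (∃ j₀ c, ∀ i j, a i j = if j = j₀ then c else 0) ∨
      (∃ i₀ c, ∀ i j, a i j = if i = i₀ then c else 0) := by
  classical
  by_cases hA : IsEmpty A
  · left
    intro i
    exact (hA.false i).elim
  have c1 : ∃ i₁, ∀ j j', a i₁ j ≠ 0 → a i₁ j' ≠ 0 → j = j' := by
    by_contra hcon
    push_neg at hcon
    choose f g hf hg hfg using hcon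
    have hinj : Function.Injective
        (fun p : A × Bool => ((p.1, if p.2 then f p.1 else g p.1) : A × B)) := by
      rintro ⟨i, b⟩ ⟨i', b'⟩ h
      simp only [Prod.mk.injEq] at h
      obtain ⟨rfl, h2⟩ := h
      have hne := hfg i
      cases b <;> cases b'
      · rfl
      · simp only [Bool.false_eq_true, if_false, if_true] at h2
        exact absurd h2.symm hne
      · simp only [Bool.false_eq_true, if_false, if_true] at h2
        exact absurd h2 hne
      · rfl
    have himg : (Finset.univ.image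
        (fun p : A × Bool => ((p.1, if p.2 then f p.1 else g p.1) : A × B))) ⊆
        Finset.univ.filter (fun p : A × B => a p.1 p.2 ≠ 0) := by
      intro q hq
      obtain ⟨⟨i, b⟩, -, rfl⟩ := Finset.mem_image.mp hq
      rw [Finset.mem_filter]
      refine ⟨Finset.mem_univ _, ?_⟩
      cases b
      · simp only [Bool.false_eq_true, if_false]
        exact hg i
      · simp only [if_true]
        exact hf i
    have h2 : 2 * Fintype.card A ≤
        (Finset.univ.filter (fun p : A × B => a p.1 p.2 ≠ 0)).card := by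
      calc 2 * Fintype.card A = Fintype.card (A × Bool) := by
            simp [Fintype.card_prod, mul_comm]
        _ = (Finset.univ.image
            (fun p : A × Bool => ((p.1, if p.2 then f p.1 else g p.1) : A × B))).card := by
            rw [Finset.card_image_of_injective _ hinj, Finset.card_univ]
        _ ≤ _ := Finset.card_le_card himg
    omega
  obtain ⟨i₁, hi₁⟩ := c1
  have hx : ∀ i j j', a i j - a i₁ j = a i j' - a i₁ j' := by
    intro i j j'
    have := hrect i i₁ j j'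
    linear_combination this
  have hB1 : 1 < Fintype.card B := by omega
  by_cases hrow : ∀ j, a i₁ j = 0
  · obtain ⟨jb⟩ : Nonempty B := Fintype.card_pos_iff.mp (by omega)
    have ha : ∀ i j, a i j = a i jb := by
      intro i j
      have := hx i j jb
      rw [hrow j, hrow jb] at this
      simpa using this
    by_cases hR : ∀ i, a i jb = 0
    · left
      intro i j
      rw [ha i j, hR i]
    · push_neg at hR
      obtain ⟨i₀, hi₀⟩ := hR
      right; right
      refine ⟨i₀, a i₀ jb, fun i j => ?_⟩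
      by_cases hi : i = i₀
      · subst hi
        rw [if_pos rfl]
        exact ha i j
      · rw [if_neg hi, ha i j]
        by_contra hne
        have hinj : Function.Injective
            (fun p : B × Bool => ((if p.2 then i else i₀, p.1) : A × B)) := by
          rintro ⟨j, b⟩ ⟨j', b'⟩ h
          simp only [Prod.mk.injEq] at h
          obtain ⟨h1, rfl⟩ := h
          cases b <;> cases b' <;> simp_all
        have himg : (Finset.univ.image
            (fun p : B × Bool => ((if p.2 then i else i₀, p.1) : A × B))) ⊆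
            Finset.univ.filter (fun p : A × B => a p.1 p.2 ≠ 0) := by
          intro q hq
          obtain ⟨⟨j, b⟩, -, rfl⟩ := Finset.mem_image.mp hq
          rw [Finset.mem_filter]
          refine ⟨Finset.mem_univ _, ?_⟩
          cases b
          · simp only [Bool.false_eq_true, if_false]
            rw [ha i₀ j]
            exact hi₀
          · simp only [if_true]
            rw [ha i j]
            exact hne
        have h2 : 2 * Fintype.card B ≤
            (Finset.univ.filter (fun p : A × B => a p.1 p.2 ≠ 0)).card := by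
          calc 2 * Fintype.card B = Fintype.card (B × Bool) := by
                simp [Fintype.card_prod, mul_comm]
            _ = (Finset.univ.image
                (fun p : B × Bool => ((if p.2 then i else i₀, p.1) : A × B))).card := by
                rw [Finset.card_image_of_injective _ hinj, Finset.card_univ]
            _ ≤ _ := Finset.card_le_card himg
        omega
  · push_neg at hrow
    obtain ⟨j₀, hj₀⟩ := hrow
    have hz : ∀ j, j ≠ j₀ → a i₁ j = 0 := by
      intro j hj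
      by_contra h
      exact hj (hi₁ j j₀ h hj₀)
    obtain ⟨j₁, hj₁⟩ := Fintype.exists_ne_of_one_lt_card hB1 j₀
    have ha : ∀ i j, j ≠ j₀ → a i j = a i j₁ := by
      intro i j hj
      have := hx i j j₁
      rw [hz j hj, hz j₁ hj₁] at this
      simpa using this
    have ha0 : ∀ i, a i j₀ = a i j₁ + a i₁ j₀ := by
      intro i
      have := hx i j₀ j₁
      rw [hz j₁ hj₁] at this
      linear_combination this
    by_cases hR : ∀ i, a i j₁ = 0
    · right; left
      refine ⟨j₀, a i₁ j₀, fun i j => ?_⟩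
      by_cases hj : j = j₀
      · subst hj
        rw [if_pos rfl, ha0 i, hR i, zero_add]
      · rw [if_neg hj, ha i j hj, hR i]
    · exfalso
      push_neg at hR
      obtain ⟨i₀, hi₀⟩ := hR
      -- the nonzero entries of row i₀ off column j₀, and one nonzero entry in each other row
      have hsub : ((Finset.univ.erase j₀).image (fun j => ((i₀, j) : A × B))) ∪
          ((Finset.univ.erase i₀).image
            (fun i => ((i, if a i j₁ = 0 then j₀ else j₁) : A × B))) ⊆
          Finset.univ.filter (fun p : A × B => a p.1 p.2 ≠ 0) := by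
        intro q hq
        rw [Finset.mem_filter]
        refine ⟨Finset.mem_univ _, ?_⟩
        rcases Finset.mem_union.mp hq with h | h
        · obtain ⟨j, hj, rfl⟩ := Finset.mem_image.mp h
          have hj' : j ≠ j₀ := (Finset.mem_erase.mp hj).1
          show a i₀ j ≠ 0
          rw [ha i₀ j hj']
          exact hi₀
        · obtain ⟨i, -, rfl⟩ := Finset.mem_image.mp h
          show a i (if a i j₁ = 0 then j₀ else j₁) ≠ 0
          by_cases h0 : a i j₁ = 0
          · rw [if_pos h0, ha0 i, h0, zero_add]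
            exact hj₀
          · rw [if_neg h0]
            exact h0
      have hdisj : Disjoint ((Finset.univ.erase j₀).image (fun j => ((i₀, j) : A × B)))
          ((Finset.univ.erase i₀).image
            (fun i => ((i, if a i j₁ = 0 then j₀ else j₁) : A × B))) := by
        rw [Finset.disjoint_left]
        intro q h1 h2
        obtain ⟨j, -, rfl⟩ := Finset.mem_image.mp h1
        obtain ⟨i, hi, h3⟩ := Finset.mem_image.mp h2
        have : i = i₀ := congrArg Prod.fst h3
        exact (Finset.mem_erase.mp hi).1 this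
      have hc1 : ((Finset.univ.erase j₀).image (fun j => ((i₀, j) : A × B))).card =
          Fintype.card B - 1 := by
        rw [Finset.card_image_of_injective _ (fun j j' h => congrArg Prod.snd h),
          Finset.card_erase_of_mem (Finset.mem_univ _), Finset.card_univ]
      have hc2 : ((Finset.univ.erase i₀).image
            (fun i => ((i, if a i j₁ = 0 then j₀ else j₁) : A × B))).card =
          Fintype.card A - 1 := by
        rw [Finset.card_image_of_injective _ (fun i i' h => congrArg Prod.fst h),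
          Finset.card_erase_of_mem (Finset.mem_univ _), Finset.card_univ]
      have hle := Finset.card_le_card hsub
      rw [Finset.card_union_of_disjoint hdisj, hc1, hc2] at hle
      have hApos : 0 < Fintype.card A := Fintype.card_pos_iff.mpr ⟨i₀⟩
      omega

/-- instance-free form of `rect_few` -/
theorem rect_few' {A B : Type*} [Finite A] [Finite B]
    (a : A → B → ℂ) (hrect : ∀ i i' j j', a i j + a i' j' = a i j' + a i' j)
    (hcard : Nat.card A + 2 ≤ Nat.card B)
    (hfew : Nat.card {p : A × B // a p.1 p.2 ≠ 0} < 2 * Nat.card A) :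
    (∀ i j, a i j = 0) ∨ (∃ j₀ c, ∀ i j, (j = j₀ → a i j = c) ∧ (j ≠ j₀ → a i j = 0)) ∨
      (∃ i₀ c, ∀ i j, (i = i₀ → a i j = c) ∧ (i ≠ i₀ → a i j = 0)) := by
  classical
  have : Fintype A := Fintype.ofFinite A
  have : Fintype B := Fintype.ofFinite B
  have h1 : Fintype.card A + 2 ≤ Fintype.card B := by
    rw [← Nat.card_eq_fintype_card, ← Nat.card_eq_fintype_card]
    exact hcard
  have h2 : (Finset.univ.filter (fun p : A × B => a p.1 p.2 ≠ 0)).card < 2 * Fintype.card A := by
    rw [← Fintype.card_subtype, ← Nat.card_eq_fintype_card, ← Nat.card_eq_fintype_card]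
    exact hfew
  rcases rect_few a hrect h1 h2 with h | ⟨j₀, c, h⟩ | ⟨i₀, c, h⟩
  · exact Or.inl h
  · right; left
    refine ⟨j₀, c, fun i j => ⟨fun hj => ?_, fun hj => ?_⟩⟩
    · rw [h i j, if_pos hj]
    · rw [h i j, if_neg hj]
  · right; right
    refine ⟨i₀, c, fun i j => ⟨fun hi => ?_, fun hi => ?_⟩⟩
    · rw [h i j, if_pos hi]
    · rw [h i j, if_neg hi]

/-- the number of linear characters of a finite cyclic group -/
theorem card_hom_cyclic {W : Type u} [Group W] [Finite W] (hcyc : IsCyclic W) :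
    Nat.card (W →* ℂˣ) = Nat.card W := by
  rw [card_hom_units]
  have : commutator W = ⊥ := by
    rw [commutator_eq_bot_iff_center_eq_top, Subgroup.eq_top_iff']
    intro x
    rw [Subgroup.mem_center_iff]
    intro y
    obtain ⟨g, hg⟩ := hcyc.exists_generator
    obtain ⟨a, rfl⟩ := Subgroup.mem_zpowers_iff.mp (hg x)
    obtain ⟨b, rfl⟩ := Subgroup.mem_zpowers_iff.mp (hg y)
    exact (Commute.zpow_zpow_self g b a).eq
  rw [this, Subgroup.index_bot]

theorem finite_hom_units {W : Type u} [Group W] [Finite W] : Finite (W →* ℂˣ) := by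
  apply Nat.finite_of_card_ne_zero
  rw [card_hom_units]
  exact Subgroup.index_ne_zero_of_finite

/-- the subtype of linear characters trivial on `W₂` -/
abbrev PhiSub {G : Type u} [Group G] (W₁ W₂ : Subgroup G) : Type u :=
  {φ : ↥(W₁ ⊔ W₂) →* ℂˣ // ∀ w : ↥(W₁ ⊔ W₂), (w : G) ∈ W₂ → φ w = 1}

/-- the subtype of linear characters trivial on `W₁` -/
abbrev PsiSub {G : Type u} [Group G] (W₁ W₂ : Subgroup G) : Type u :=
  {ψ : ↥(W₁ ⊔ W₂) →* ℂˣ // ∀ w : ↥(W₁ ⊔ W₂), (w : G) ∈ W₁ → ψ w = 1}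

/-- the parametrisation of the linear characters of `W₁ ⊔ W₂` -/
noncomputable def phiPsiEquiv {G : Type u} [Group G] [Finite G] {W₁ W₂ : Subgroup G}
    (hW : IsSelfNormalizingCyclic W₁ W₂) : PhiSub W₁ W₂ × PsiSub W₁ W₂ ≃ (↥(W₁ ⊔ W₂) →* ℂˣ) :=
  Equiv.ofBijective (fun p => p.1.1 * p.2.1) (by
    constructor
    · rintro ⟨i, j⟩ ⟨i', j'⟩ h
      have := (hom_prod_eq_iff W₁ W₂ i.1 j.1 i'.1 j'.1 i.2 j.2 i'.2 j'.2).mp h
      exact Prod.ext (Subtype.ext this.1) (Subtype.ext this.2)
    · intro ω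
      obtain ⟨φ, ψ, hφ, hψ, rfl⟩ := snc_hom_decomp hW ω
      exact ⟨(⟨φ, hφ⟩, ⟨ψ, hψ⟩), rfl⟩)

theorem phiPsiEquiv_apply {G : Type u} [Group G] [Finite G] {W₁ W₂ : Subgroup G}
    (hW : IsSelfNormalizingCyclic W₁ W₂) (p : PhiSub W₁ W₂ × PsiSub W₁ W₂) :
    phiPsiEquiv hW p = p.1.1 * p.2.1 := rfl

theorem card_phiSub_le {G : Type u} [Group G] [Finite G] (W₁ W₂ : Subgroup G) :
    Nat.card (PhiSub W₁ W₂) ≤ Nat.card W₁ := by
  have hfin1 : Finite (↥W₁ →* ℂˣ) := finite_hom_units
  have h1 : Nat.card (↥W₁ →* ℂˣ) ≤ Nat.card W₁ := by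
    rw [card_hom_units]
    exact Nat.le_of_dvd Nat.card_pos (Subgroup.index_dvd_card _)
  refine le_trans ?_ h1
  refine Nat.card_le_card_of_injective
    (fun φ : PhiSub W₁ W₂ => φ.1.comp (Subgroup.inclusion (le_sup_left : W₁ ≤ W₁ ⊔ W₂))) ?_
  intro φ φ' h
  apply Subtype.ext
  have hδ : φ.1 * φ'.1⁻¹ = 1 := by
    apply hom_eq_one_of_sup
    · intro w hw
      have := congrArg (fun f : ↥W₁ →* ℂˣ => f ⟨w, hw⟩) h
      simp only [MonoidHom.comp_apply] at this
      have e1 : Subgroup.inclusion (le_sup_left : W₁ ≤ W₁ ⊔ W₂) ⟨(w : G), hw⟩ = w :=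
        Subtype.ext rfl
      rw [e1] at this
      simp [this]
    · intro w hw
      simp [φ.2 w hw, φ'.2 w hw]
  exact mul_inv_eq_one.mp hδ

theorem card_psiSub_le {G : Type u} [Group G] [Finite G] (W₁ W₂ : Subgroup G) :
    Nat.card (PsiSub W₁ W₂) ≤ Nat.card W₂ := by
  have hfin1 : Finite (↥W₂ →* ℂˣ) := finite_hom_units
  have h1 : Nat.card (↥W₂ →* ℂˣ) ≤ Nat.card W₂ := by
    rw [card_hom_units]
    exact Nat.le_of_dvd Nat.card_pos (Subgroup.index_dvd_card _)
  refine le_trans ?_ h1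
  refine Nat.card_le_card_of_injective
    (fun ψ : PsiSub W₁ W₂ => ψ.1.comp (Subgroup.inclusion (le_sup_right : W₂ ≤ W₁ ⊔ W₂))) ?_
  intro ψ ψ' h
  apply Subtype.ext
  have hδ : ψ.1 * ψ'.1⁻¹ = 1 := by
    apply hom_eq_one_of_sup
    · intro w hw
      simp [ψ.2 w hw, ψ'.2 w hw]
    · intro w hw
      have := congrArg (fun f : ↥W₂ →* ℂˣ => f ⟨w, hw⟩) h
      simp only [MonoidHom.comp_apply] at this
      have e1 : Subgroup.inclusion (le_sup_right : W₂ ≤ W₁ ⊔ W₂) ⟨(w : G), hw⟩ = w :=
        Subtype.ext rfl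
      rw [e1] at this
      simp [this]
  exact mul_inv_eq_one.mp hδ

/-- the cardinalities of the two families of linear characters -/
theorem card_phiSub_psiSub {G : Type u} [Group G] [Finite G] {W₁ W₂ : Subgroup G}
    (hW : IsSelfNormalizingCyclic W₁ W₂) :
    Nat.card (PhiSub W₁ W₂) = Nat.card W₁ ∧ Nat.card (PsiSub W₁ W₂) = Nat.card W₂ := by
  have hcyc : IsCyclic ↥(W₁ ⊔ W₂) := hW.2.2.2.2.1
  have hfinŴ : Finite (↥(W₁ ⊔ W₂) →* ℂˣ) := finite_hom_units
  have hAB : Nat.card (PhiSub W₁ W₂) * Nat.card (PsiSub W₁ W₂) = Nat.card ↥(W₁ ⊔ W₂) := by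
    rw [← card_hom_cyclic hcyc, ← Nat.card_prod]
    exact Nat.card_congr (phiPsiEquiv hW)
  have hA := card_phiSub_le W₁ W₂
  have hB := card_psiSub_le W₁ W₂
  have hd1 : Nat.card W₁ ∣ Nat.card ↥(W₁ ⊔ W₂) :=
    Subgroup.card_dvd_of_le (le_sup_left : W₁ ≤ W₁ ⊔ W₂)
  have hd2 : Nat.card W₂ ∣ Nat.card ↥(W₁ ⊔ W₂) :=
    Subgroup.card_dvd_of_le (le_sup_right : W₂ ≤ W₁ ⊔ W₂)
  have hprod : Nat.card W₁ * Nat.card W₂ ≤ Nat.card ↥(W₁ ⊔ W₂) :=
    Nat.le_of_dvd Nat.card_pos ((snc_card_coprime hW).mul_dvd_of_dvd_of_dvd hd1 hd2)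
  have hpos1 : 0 < Nat.card W₁ := Nat.card_pos
  have hpos2 : 0 < Nat.card W₂ := Nat.card_pos
  constructor
  · by_contra hne
    have hlt' := lt_of_le_of_ne hA hne
    nlinarith
  · by_contra hne
    have hlt' := lt_of_le_of_ne hB hne
    nlinarith

open Classical in
/-- S1507 -/
theorem cyclicTI_trichotomy {G : Type u} [Group G] [Fintype G] (W₁ W₂ : Subgroup G) (hW : IsSelfNormalizingCyclic W₁ W₂) (hodd : Odd (Nat.card ↥(W₁ ⊔ W₂))) (χ : (↥(W₁ ⊔ W₂) →* ℂˣ) → (G → ℂ)) (hχ : IsCyclicTIFamily W₁ W₂ χ) (hlt : Nat.card W₁ < Nat.card W₂) (θ : G → ℂ) (hθ : IsClassFunction G θ) (hθV : ∀ w : ↥(W₁ ⊔ W₂), (w : G) ∉ W₁ → (w : G) ∉ W₂ → θ w = 0) (hfew : Nat.card {ω : ↥(W₁ ⊔ W₂) →* ℂˣ // classInner θ (χ ω) ≠ 0} < 2 * Nat.card W₁) : (∀ ω, classInner θ (χ ω) = 0) ∨ (∃ (ψ₀ : ↥(W₁ ⊔ W₂) →* ℂˣ) (a : ℂ), ∀ ω, classInner θ (χ ω) = if (∀ w : ↥(W₁ ⊔ W₂), (w : G) ∈ W₂ → (ω * ψ₀⁻¹) w = 1) then a else 0) ∨ (∃ (φ₀ : ↥(W₁ ⊔ W₂) →* ℂˣ) (a : ℂ), ∀ ω, classInner θ (χ ω) = if (∀ w : ↥(W₁ ⊔ W₂),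 (w : G) ∈ W₁ → (ω * φ₀⁻¹) w = 1) then a else 0) := by
  have hfinŴ : Finite (↥(W₁ ⊔ W₂) →* ℂˣ) := finite_hom_units
  obtain ⟨hAeq, hBeq⟩ := card_phiSub_psiSub hW
  have hd1 : Nat.card W₁ ∣ Nat.card ↥(W₁ ⊔ W₂) :=
    Subgroup.card_dvd_of_le (le_sup_left : W₁ ≤ W₁ ⊔ W₂)
  have hd2 : Nat.card W₂ ∣ Nat.card ↥(W₁ ⊔ W₂) :=
    Subgroup.card_dvd_of_le (le_sup_right : W₂ ≤ W₁ ⊔ W₂)
  have hodd1 : Odd (Nat.card W₁) := Odd.of_dvd_nat hodd hd1
  have hodd2 : Odd (Nat.card W₂) := Odd.of_dvd_nat hodd hd2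
  have hcard2 : Nat.card W₁ + 2 ≤ Nat.card W₂ := by
    obtain ⟨s, hs⟩ := hodd1
    obtain ⟨t, ht⟩ := hodd2
    omega
  have hrect := fun (i i' : PhiSub W₁ W₂) (j j' : PsiSub W₁ W₂) =>
    Cfsg.Agent.S1506.result W₁ W₂ hW χ hχ θ hθ hθV i.1 i'.1 j.1 j'.1
      (fun w hw => ⟨i.2 w hw, i'.2 w hw⟩) (fun w hw => ⟨j.2 w hw, j'.2 w hw⟩)
  have hfew' : Nat.card {p : PhiSub W₁ W₂ × PsiSub W₁ W₂ //
      classInner θ (χ (p.1.1 * p.2.1)) ≠ 0} < 2 * Nat.card (PhiSub W₁ W₂) := by
    rw [hAeq]
    refine lt_of_eq_of_lt ?_ hfew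
    exact Nat.card_congr (Equiv.subtypeEquiv (phiPsiEquiv hW) (fun p => Iff.rfl))
  have hsurj : ∀ ω : ↥(W₁ ⊔ W₂) →* ℂˣ, ∃ (i : PhiSub W₁ W₂) (j : PsiSub W₁ W₂), ω = i.1 * j.1 := by
    intro ω
    obtain ⟨φ, ψ, hφ, hψ, rfl⟩ := snc_hom_decomp hW ω
    exact ⟨⟨φ, hφ⟩, ⟨ψ, hψ⟩, rfl⟩
  rcases rect_few' (fun (i : PhiSub W₁ W₂) (j : PsiSub W₁ W₂) => classInner θ (χ (i.1 * j.1)))
    hrect (by rw [hAeq, hBeq]; exact hcard2) hfew' with h | ⟨j₀, c, h⟩ | ⟨i₀, c, h⟩
  · left
    intro ω
    obtain ⟨i, j, rfl⟩ := hsurj ω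
    exact h i j
  · right; left
    refine ⟨j₀.1, c, fun ω => ?_⟩
    obtain ⟨i, j, rfl⟩ := hsurj ω
    by_cases hj : j = j₀
    · rw [if_pos, (h i j).1 hj]
      intro w hw
      subst hj
      simp [i.2 w hw]
    · rw [if_neg, (h i j).2 hj]
      intro hall
      apply hj
      apply Subtype.ext
      have hδ : j.1 * j₀.1⁻¹ = 1 := by
        apply hom_eq_one_of_sup
        · intro w hw
          simp [j.2 w hw, j₀.2 w hw]
        · intro w hw
          have := hall w hw
          simp only [MonoidHom.mul_apply, MonoidHom.inv_apply, i.2 w hw, one_mul] at this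
          simpa using this
      exact mul_inv_eq_one.mp hδ
  · right; right
    refine ⟨i₀.1, c, fun ω => ?_⟩
    obtain ⟨i, j, rfl⟩ := hsurj ω
    by_cases hi : i = i₀
    · rw [if_pos, (h i j).1 hi]
      intro w hw
      subst hi
      simp [j.2 w hw]
    · rw [if_neg, (h i j).2 hi]
      intro hall
      apply hi
      apply Subtype.ext
      have hδ : i.1 * i₀.1⁻¹ = 1 := by
        apply hom_eq_one_of_sup
        · intro w hw
          have := hall w hw
          simp only [MonoidHom.mul_apply, MonoidHom.inv_apply, j.2 w hw, mul_one] at this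
          simpa using this
        · intro w hw
          simp [i.2 w hw, i₀.2 w hw]
      exact mul_inv_eq_one.mp hδ

end Cfsg.Agent.Lib.helper24
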