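import Cfsg.Prelude.Def_OddOrderChar
import Cfsg.Agent.Lib.helper24.CycPow
import Cfsg.Agent.Lib.helper24.CharOps

set_option autoImplicit false

namespace Cfsg.Agent.Lib.helper24

open Cfsg
open scoped ComplexConjugate

universe u

section Dade

variable {G : Type u} [Group G] {A : Set G} {L : Subgroup G} {H : G → Subgroup G}

theorem dade_mem_CL (hD : DadeHypothesis A L H) {a : G} (ha : a ∈ A) :
    a ∈ L ⊓ Subgroup.centralizer ({a} : Set G) := by
  refine ⟨hD.subset ha, ?_⟩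
  show a ∈ Subgroup.centralizer ({a} : Set G)
  rw [Subgroup.mem_centralizer_iff]
  intro h hh
  rw [Set.mem_singleton_iff] at hh
  rw [hh]

theorem dade_commute (hD : DadeHypothesis A L H) {a u : G} (ha : a ∈ A) (hu : u ∈ H a) :
    Commute a u := by
  have := hD.le_centralizer a ha hu
  rw [Subgroup.mem_centralizer_iff] at this
  exact this a rfl

/-- (K1) the `π`-part of `a * u` is `a`. -/
theorem dade_pi_part [Finite G] (hD : DadeHypothesis A L H) {a a' u u' x : G} (ha : a ∈ A)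
    (ha' : a' ∈ A) (hu : u ∈ H a) (hu' : u' ∈ H a') (h : x * (a * u) * x⁻¹ = a' * u') :
    x * a * x⁻¹ = a' := by
  have hcop : Nat.Coprime
      (Nat.card ↥(L ⊓ Subgroup.centralizer ({a} : Set G)) *
        Nat.card ↥(L ⊓ Subgroup.centralizer ({a'} : Set G)))
      (Nat.card (H a) * Nat.card (H a')) := by
    apply Nat.Coprime.symm
    apply Nat.Coprime.mul_left
    · exact Nat.Coprime.mul_right (hD.coprime a ha a ha) (hD.coprime a ha a' ha')
    · exact Nat.Coprime.mul_right (hD.coprime a' ha' a ha) (hD.coprime a' ha' a' ha')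
  obtain ⟨k, hk1, hk0⟩ := Nat.chineseRemainder hcop 1 0
  have e1 : a ^ k = a := by
    have := pow_eq_of_modEq_card (dade_mem_CL hD ha) (Nat.ModEq.of_mul_right _ hk1)
    rwa [pow_one] at this
  have e2 : a' ^ k = a' := by
    have := pow_eq_of_modEq_card (dade_mem_CL hD ha') (Nat.ModEq.of_mul_left _ hk1)
    rwa [pow_one] at this
  have e3 : u ^ k = 1 := by
    have := pow_eq_of_modEq_card hu (Nat.ModEq.of_mul_right _ hk0)
    rwa [pow_zero] at this
  have e4 : u' ^ k = 1 := by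
    have := pow_eq_of_modEq_card hu' (Nat.ModEq.of_mul_left _ hk0)
    rwa [pow_zero] at this
  have e5 : (a * u) ^ k = a := by
    rw [(dade_commute hD ha hu).mul_pow, e1, e3, mul_one]
  have e6 : (a' * u') ^ k = a' := by
    rw [(dade_commute hD ha' hu').mul_pow, e2, e4, mul_one]
  calc x * a * x⁻¹ = x * (a * u) ^ k * x⁻¹ := by rw [e5]
    _ = (x * (a * u) * x⁻¹) ^ k := (conj_pow).symm
    _ = a' := by rw [h, e6]

/-- (K3) decomposition of the centralizer. -/
theorem dade_decomp (hD : DadeHypothesis A L H) {a : G} (ha : a ∈ A) {c : G}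
    (hc : c ∈ Subgroup.centralizer ({a} : Set G)) :
    ∃ c' ∈ L ⊓ Subgroup.centralizer ({a} : Set G), ∃ h ∈ H a, c = c' * h := by
  have hLE : (L ⊓ Subgroup.centralizer ({a} : Set G)) ≤ Subgroup.normalizer ((H a : Subgroup G) : Set G) := by
    intro c hc
    rw [Subgroup.mem_normalizer_iff]
    intro h
    constructor
    · intro hh
      exact hD.conj_mem_H a ha c hc.2 h hh
    · intro hh
      have := hD.conj_mem_H a ha c⁻¹ (Subgroup.inv_mem _ hc.2) _ hh
      have e : c⁻¹ * (c * h * c⁻¹) * c⁻¹⁻¹ = h := by group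
      rwa [e] at this
  have h1 := Subgroup.coe_mul_of_left_le_normalizer_right _ _ hLE
  have h2 : c ∈ (↑((L ⊓ Subgroup.centralizer ({a} : Set G)) ⊔ H a) : Set G) := by
    rw [sup_comm, hD.sup_eq a ha]; exact hc
  rw [h1] at h2
  obtain ⟨c', hc', h, hh, rfl⟩ := Set.mem_mul.1 h2
  exact ⟨c', hc', h, hh, rfl⟩

/-- (K2) `H` is compatible with `L`-conjugation. -/
theorem dade_H_conj [Finite G] (hD : DadeHypothesis A L H) {a : G} (ha : a ∈ A) {l : G}
    (hl : l ∈ L) {u : G} (hu : u ∈ H a) : l * u * l⁻¹ ∈ H (l * a * l⁻¹) := by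
  have ha' : l * a * l⁻¹ ∈ A := hD.conj_mem l hl a ha
  have hv : l * u * l⁻¹ ∈ Subgroup.centralizer ({l * a * l⁻¹} : Set G) := by
    rw [Subgroup.mem_centralizer_iff]
    intro h hh
    rw [Set.mem_singleton_iff] at hh
    rw [hh]
    have := (dade_commute hD ha hu).eq
    calc l * a * l⁻¹ * (l * u * l⁻¹) = l * (a * u) * l⁻¹ := by group
      _ = l * (u * a) * l⁻¹ := by rw [this]
      _ = l * u * l⁻¹ * (l * a * l⁻¹) := by group
  obtain ⟨c, hc, h, hh, hvc⟩ := dade_decomp hD ha' hv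
  have hpow : ∀ k : ℕ, ∃ h' ∈ H (l * a * l⁻¹), (c * h) ^ k = c ^ k * h' := by
    intro k
    induction k with
    | zero => exact ⟨1, Subgroup.one_mem _, by simp⟩
    | succ k ih =>
      obtain ⟨h', hh', e⟩ := ih
      refine ⟨c⁻¹ * h' * c⁻¹⁻¹ * h, Subgroup.mul_mem _
        (hD.conj_mem_H _ ha' c⁻¹ (Subgroup.inv_mem _ hc.2) h' hh') hh, ?_⟩
      rw [pow_succ, e, pow_succ]; group
  obtain ⟨h', hh', e⟩ := hpow (Nat.card (H a))
  have hvm : (l * u * l⁻¹) ^ Nat.card (H a) = 1 := by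
    rw [conj_pow]
    have := pow_eq_of_modEq_card hu (Nat.modEq_zero_iff_dvd.mpr (dvd_refl (Nat.card (H a))))
    rw [pow_zero] at this
    rw [this]; group
  rw [hvc, e] at hvm
  have hcm : c ^ Nat.card (H a) ∈ H (l * a * l⁻¹) ⊓ (L ⊓ Subgroup.centralizer ({l * a * l⁻¹} : Set G)) := by
    refine ⟨?_, Subgroup.pow_mem _ hc _⟩
    have : c ^ Nat.card (H a) = h'⁻¹ := eq_inv_of_mul_eq_one_left hvm
    show c ^ Nat.card (H a) ∈ H (l * a * l⁻¹)
    rw [this]; exact Subgroup.inv_mem _ hh'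
  rw [hD.inf_eq_bot _ ha', Subgroup.mem_bot] at hcm
  have hcn : c ^ Nat.card ↥(L ⊓ Subgroup.centralizer ({l * a * l⁻¹} : Set G)) = 1 := by
    have := pow_eq_of_modEq_card hc (Nat.modEq_zero_iff_dvd.mpr (dvd_refl
      (Nat.card ↥(L ⊓ Subgroup.centralizer ({l * a * l⁻¹} : Set G)))))
    rwa [pow_zero] at this
  have hc1 : c = 1 := by
    have h1 := orderOf_dvd_of_pow_eq_one hcm
    have h2 := orderOf_dvd_of_pow_eq_one hcn
    have h3 := Nat.dvd_gcd h1 h2
    rw [(hD.coprime a ha _ ha').gcd_eq_one, Nat.dvd_one] at h3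
    exact orderOf_eq_one_iff.mp h3
  rw [hvc, hc1, one_mul]; exact hh

/-- (K2') cardinalities of `H` along `L`-conjugates. -/
theorem dade_card_H_conj [Finite G] (hD : DadeHypothesis A L H) {a : G} (ha : a ∈ A) {l : G}
    (hl : l ∈ L) : Nat.card (H (l * a * l⁻¹)) = Nat.card (H a) := by
  have ha' : l * a * l⁻¹ ∈ A := hD.conj_mem l hl a ha
  have hback : ∀ w ∈ H (l * a * l⁻¹), l⁻¹ * w * l ∈ H a := by
    intro w hw
    have := dade_H_conj hD ha' (Subgroup.inv_mem _ hl) hw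
    have e : l⁻¹ * (l * a * l⁻¹) * l⁻¹⁻¹ = a := by group
    rw [e, inv_inv] at this
    exact this
  symm
  apply Nat.card_congr
  exact
    { toFun := fun u => ⟨l * u * l⁻¹, dade_H_conj hD ha hl u.2⟩
      invFun := fun w => ⟨l⁻¹ * w * l, hback w w.2⟩
      left_inv := fun u => Subtype.ext (by simp; group)
      right_inv := fun w => Subtype.ext (by simp; group) }

/-- Well-definedness of the Dade map. -/
theorem dade_welldef [Finite G] (hD : DadeHypothesis A L H) (α : L → ℂ)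
    (hα : IsClassFunction L α) (g : G) (a : L) (haA : (a : G) ∈ A) (x u : G)
    (hu : u ∈ H (a : G)) (hx : x * g * x⁻¹ = (a : G) * u) :
    dadeIsometry A L H α g = α a := by
  have hex : ∃ a : ↥L, (a : G) ∈ A ∧ ∃ x : G, ∃ u ∈ H (a : G), x * g * x⁻¹ = (a : G) * u :=
    ⟨a, haA, x, u, hu, hx⟩
  unfold dadeIsometry
  rw [dif_pos hex]
  obtain ⟨hA', x', u', hu', hx'⟩ := Classical.choose_spec hex
  have h1 : (x * x'⁻¹) * (((Classical.choose hex : ↥L) : G) * u') * (x * x'⁻¹)⁻¹ = (a : G) * u := by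
    rw [← hx', ← hx]; group
  have h2 := dade_pi_part hD hA' haA hu' hu h1
  obtain ⟨l, hl, hl2⟩ := hD.fusion _ hA' (x * x'⁻¹) (by rw [h2]; exact haA)
  rw [h2] at hl2
  have h3 : a = ⟨l, hl⟩ * Classical.choose hex * ⟨l, hl⟩⁻¹ := Subtype.ext hl2.symm
  rw [h3]
  exact (hα _ _).symm

/-- The support predicate of the Dade map. -/
def DadeSupp (A : Set G) (L : Subgroup G) (H : G → Subgroup G) (g : G) : Prop :=
  ∃ a : ↥L, (a : G) ∈ A ∧ ∃ x : G, ∃ u ∈ H (a : G), x * g * x⁻¹ = (a : G) * u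

theorem dade_card_X [Finite G] (hD : DadeHypothesis A L H) {a₀ : G} (ha₀ : a₀ ∈ A) :
    Nat.card {x : G // ∃ l ∈ L, ∃ h ∈ H a₀, x = l * h} = Nat.card L * Nat.card (H a₀) := by
  rw [← Nat.card_prod]
  symm
  apply Nat.card_congr
  refine Equiv.ofBijective
    (fun p : L × H a₀ => ⟨(p.1 : G) * (p.2 : G), ⟨p.1, p.1.2, p.2, p.2.2, rfl⟩⟩) ⟨?_, ?_⟩
  · rintro ⟨l, h⟩ ⟨l', h'⟩ e
    have e' : (l : G) * (h : G) = (l' : G) * (h' : G) := congrArg Subtype.val e
    have hz : (l' : G)⁻¹ * (l : G) = (h' : G) * (h : G)⁻¹ := by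
      calc (l' : G)⁻¹ * (l : G) = (l' : G)⁻¹ * ((l : G) * (h : G)) * (h : G)⁻¹ := by group
        _ = (h' : G) * (h : G)⁻¹ := by rw [e']; group
    have hzL : (l' : G)⁻¹ * (l : G) ∈ L := Subgroup.mul_mem _ (Subgroup.inv_mem _ l'.2) l.2
    have hzH : (l' : G)⁻¹ * (l : G) ∈ H a₀ := by
      rw [hz]; exact Subgroup.mul_mem _ h'.2 (Subgroup.inv_mem _ h.2)
    have hbot : (l' : G)⁻¹ * (l : G) ∈ H a₀ ⊓ (L ⊓ Subgroup.centralizer ({a₀} : Set G)) :=
      ⟨hzH, hzL, hD.le_centralizer a₀ ha₀ hzH⟩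
    rw [hD.inf_eq_bot a₀ ha₀, Subgroup.mem_bot] at hbot
    have h1 : (l : G) = (l' : G) := by
      calc (l : G) = (l' : G) * ((l' : G)⁻¹ * (l : G)) := by group
        _ = (l' : G) := by rw [hbot, mul_one]
    have h2 : (h : G) = (h' : G) := by
      rw [h1] at e'
      exact mul_left_cancel e'
    exact Prod.ext (Subtype.ext h1) (Subtype.ext h2)
  · rintro ⟨x, l, hl, h, hh, rfl⟩
    exact ⟨(⟨l, hl⟩, ⟨h, hh⟩), rfl⟩

theorem dade_inner_sum {K : Type*} [Field K] [CharZero K] [Finite G] [Fintype L] [DecidablePred (· ∈ A)]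
    [∀ a : G, DecidablePred (· ∈ H a)] (hD : DadeHypothesis A L H)
    {a₀ u₀ : G} (ha₀ : a₀ ∈ A) (hu₀ : u₀ ∈ H a₀) (x : G)
    [Decidable (∃ l ∈ L, ∃ h ∈ H a₀, x = l * h)] :
    ∑ a : L, (if (a : G) ∈ A then (Nat.card (H a) : K)⁻¹ *
        (if (a : G)⁻¹ * (x * (a₀ * u₀) * x⁻¹) ∈ H a then 1 else 0) else 0)
      = if (∃ l ∈ L, ∃ h ∈ H a₀, x = l * h) then (Nat.card (H a₀) : K)⁻¹ else 0 := by
  by_cases hx : ∃ l ∈ L, ∃ h ∈ H a₀, x = l * h
  · rw [if_pos hx]
    obtain ⟨l, hl, h, hh, rfl⟩ := hx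
    have ha₁A : l * a₀ * l⁻¹ ∈ A := hD.conj_mem l hl a₀ ha₀
    have hconj : l * h * a₀ * (l * h)⁻¹ = l * a₀ * l⁻¹ := by
      have := (dade_commute hD ha₀ hh).eq
      calc l * h * a₀ * (l * h)⁻¹ = l * (h * a₀) * h⁻¹ * l⁻¹ := by group
        _ = l * (a₀ * h) * h⁻¹ * l⁻¹ := by rw [this]
        _ = l * a₀ * l⁻¹ := by group
    rw [Finset.sum_eq_single (⟨l * a₀ * l⁻¹, hD.subset ha₁A⟩ : L)]
    · rw [if_pos ha₁A]
      have hmem : (l * a₀ * l⁻¹)⁻¹ * (l * h * (a₀ * u₀) * (l * h)⁻¹) ∈ H (l * a₀ * l⁻¹) := by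
        have e : (l * a₀ * l⁻¹)⁻¹ * (l * h * (a₀ * u₀) * (l * h)⁻¹) = l * (h * u₀ * h⁻¹) * l⁻¹ := by
          have := (dade_commute hD ha₀ hh).eq
          calc (l * a₀ * l⁻¹)⁻¹ * (l * h * (a₀ * u₀) * (l * h)⁻¹)
              = l * a₀⁻¹ * (h * a₀) * u₀ * h⁻¹ * l⁻¹ := by group
            _ = l * a₀⁻¹ * (a₀ * h) * u₀ * h⁻¹ * l⁻¹ := by rw [this]
            _ = l * (h * u₀ * h⁻¹) * l⁻¹ := by group
        rw [e]
        exact dade_H_conj hD ha₀ hl
          (Subgroup.mul_mem _ (Subgroup.mul_mem _ hh hu₀) (Subgroup.inv_mem _ hh))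
      rw [if_pos hmem, mul_one, dade_card_H_conj hD ha₀ hl]
    · intro b _ hb
      by_cases hbA : (b : G) ∈ A
      · rw [if_pos hbA]
        by_cases hm : (b : G)⁻¹ * (l * h * (a₀ * u₀) * (l * h)⁻¹) ∈ H b
        · exfalso
          apply hb
          have h1 : l * h * (a₀ * u₀) * (l * h)⁻¹
              = (b : G) * ((b : G)⁻¹ * (l * h * (a₀ * u₀) * (l * h)⁻¹)) := by group
          have h2 := dade_pi_part hD ha₀ hbA hu₀ hm h1
          apply Subtype.ext
          rw [← h2, hconj]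
        · rw [if_neg hm, mul_zero]
      · rw [if_neg hbA]
    · intro h; exact absurd (Finset.mem_univ _) h
  · rw [if_neg hx]
    apply Finset.sum_eq_zero
    intro b _
    by_cases hbA : (b : G) ∈ A
    · rw [if_pos hbA]
      by_cases hm : (b : G)⁻¹ * (x * (a₀ * u₀) * x⁻¹) ∈ H b
      · exfalso
        apply hx
        have h1 : x * (a₀ * u₀) * x⁻¹ = (b : G) * ((b : G)⁻¹ * (x * (a₀ * u₀) * x⁻¹)) := by group
        have h2 := dade_pi_part hD ha₀ hbA hu₀ hm h1
        obtain ⟨l, hl, hl2⟩ := hD.fusion a₀ ha₀ x (by rw [h2]; exact hbA)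
        have hc : l⁻¹ * x ∈ Subgroup.centralizer ({a₀} : Set G) := by
          rw [Subgroup.mem_centralizer_iff]
          intro y hy
          rw [Set.mem_singleton_iff] at hy
          rw [hy]
          calc a₀ * (l⁻¹ * x) = l⁻¹ * (l * a₀ * l⁻¹) * x := by group
            _ = l⁻¹ * (x * a₀ * x⁻¹) * x := by rw [hl2]
            _ = l⁻¹ * x * a₀ := by group
        obtain ⟨c', hc', h, hh, e⟩ := dade_decomp hD ha₀ hc
        refine ⟨l * c', Subgroup.mul_mem _ hl hc'.1, h, hh, ?_⟩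
        calc x = l * (l⁻¹ * x) := by group
          _ = l * c' * h := by rw [e]; group
      · rw [if_neg hm, mul_zero]
    · rw [if_neg hbA]

theorem dade_W {K : Type*} [Field K] [CharZero K] [Fintype G] [Fintype L] [DecidablePred (· ∈ A)]
    [∀ a : G, DecidablePred (· ∈ H a)] (hD : DadeHypothesis A L H) (g : G)
    [Decidable (DadeSupp A L H g)] :
    ∑ x : G, ∑ a : L, (if (a : G) ∈ A then (Nat.card (H a) : K)⁻¹ *
        (if (a : G)⁻¹ * (x * g * x⁻¹) ∈ H a then 1 else 0) else 0)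
      = if DadeSupp A L H g then (Nat.card L : K) else 0 := by
  classical
  by_cases hg : DadeSupp A L H g
  · rw [if_pos hg]
    obtain ⟨a₀, ha₀, y, u₀, hu₀, hy⟩ := hg
    rw [Fintype.sum_equiv (Equiv.mulRight y⁻¹)
      (fun x : G => ∑ a : L, (if (a : G) ∈ A then (Nat.card (H a) : K)⁻¹ *
        (if (a : G)⁻¹ * (x * g * x⁻¹) ∈ H a then 1 else 0) else 0))
      (fun x : G => ∑ a : L, (if (a : G) ∈ A then (Nat.card (H a) : K)⁻¹ *
        (if (a : G)⁻¹ * (x * ((a₀ : G) * u₀) * x⁻¹) ∈ H a then 1 else 0) else 0))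
      (fun x => by
        have e : (Equiv.mulRight y⁻¹ x) * ((a₀ : G) * u₀) * (Equiv.mulRight y⁻¹ x)⁻¹
            = x * g * x⁻¹ := by
          rw [← hy]; simp only [Equiv.coe_mulRight]; group
        simp only [e])]
    rw [Finset.sum_congr rfl (fun x _ => dade_inner_sum hD ha₀ hu₀ x)]
    rw [Finset.sum_ite, Finset.sum_const_zero, add_zero, Finset.sum_const, nsmul_eq_mul]
    have hcard : (Finset.univ.filter (fun x : G => ∃ l ∈ L, ∃ h ∈ H (a₀ : G), x = l * h)).card
        = Nat.card L * Nat.card (H (a₀ : G)) := by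
      rw [← dade_card_X hD ha₀, Nat.card_eq_fintype_card, Fintype.card_subtype]
    rw [hcard, Nat.cast_mul]
    have hne : (Nat.card (H (a₀ : G)) : K) ≠ 0 := Nat.cast_ne_zero.mpr Nat.card_pos.ne'
    field_simp
  · rw [if_neg hg]
    apply Finset.sum_eq_zero
    intro x _
    apply Finset.sum_eq_zero
    intro a _
    by_cases haA : (a : G) ∈ A
    · rw [if_pos haA]
      by_cases hm : (a : G)⁻¹ * (x * g * x⁻¹) ∈ H a
      · exfalso
        apply hg
        exact ⟨a, haA, x, _, hm, by group⟩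
      · rw [if_neg hm, mul_zero]
    · rw [if_neg haA]

/-- The main counting identity for the Dade map. -/
theorem dade_main {K : Type*} [Field K] [CharZero K] [Fintype G] [Fintype L] [DecidablePred (· ∈ A)]
    [∀ a : G, DecidablePred (· ∈ H a)] [DecidablePred (DadeSupp A L H)]
    (hD : DadeHypothesis A L H) (F : G → K) (hF : ∀ g h : G, F (h * g * h⁻¹) = F g) :
    (Nat.card L : K) * ∑ g : G, (if DadeSupp A L H g then F g else 0)
      = (Nat.card G : K) * ∑ a : L, (if (a : G) ∈ A then (Nat.card (H a) : K)⁻¹ *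
          ∑ t : G, (if t ∈ H a then F ((a : G) * t) else 0) else 0) := by
  have hS1 : ∑ x : G, ∑ a : L, (if (a : G) ∈ A then (Nat.card (H a) : K)⁻¹ *
          ∑ t : G, (if t ∈ H a then F (x⁻¹ * ((a : G) * t) * x) else 0) else 0)
      = (Nat.card G : K) * ∑ a : L, (if (a : G) ∈ A then (Nat.card (H a) : K)⁻¹ *
          ∑ t : G, (if t ∈ H a then F ((a : G) * t) else 0) else 0) := by
    have h1 : ∀ x : G, ∑ a : L, (if (a : G) ∈ A then (Nat.card (H a) : K)⁻¹ *
          ∑ t : G, (if t ∈ H a then F (x⁻¹ * ((a : G) * t) * x) else 0) else 0)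
        = ∑ a : L, (if (a : G) ∈ A then (Nat.card (H a) : K)⁻¹ *
          ∑ t : G, (if t ∈ H a then F ((a : G) * t) else 0) else 0) := by
      intro x
      apply Finset.sum_congr rfl
      intro a _
      have h2 : ∀ t : G, F (x⁻¹ * ((a : G) * t) * x) = F ((a : G) * t) := by
        intro t
        have := hF ((a : G) * t) x⁻¹
        rwa [inv_inv] at this
      simp only [h2]
    rw [Finset.sum_congr rfl (fun x _ => h1 x), Finset.sum_const, Finset.card_univ,
      nsmul_eq_mul, Nat.card_eq_fintype_card]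
  have hS2 : ∑ x : G, ∑ a : L, (if (a : G) ∈ A then (Nat.card (H a) : K)⁻¹ *
          ∑ t : G, (if t ∈ H a then F (x⁻¹ * ((a : G) * t) * x) else 0) else 0)
      = ∑ g : G, F g * ∑ x : G, ∑ a : L, (if (a : G) ∈ A then (Nat.card (H a) : K)⁻¹ *
        (if (a : G)⁻¹ * (x * g * x⁻¹) ∈ H a then 1 else 0) else 0) := by
    have h1 : ∀ (x : G) (a : L), (if (a : G) ∈ A then (Nat.card (H a) : K)⁻¹ *
          ∑ t : G, (if t ∈ H a then F (x⁻¹ * ((a : G) * t) * x) else 0) else 0)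
        = ∑ g : G, F g * (if (a : G) ∈ A then (Nat.card (H a) : K)⁻¹ *
        (if (a : G)⁻¹ * (x * g * x⁻¹) ∈ H a then 1 else 0) else 0) := by
      intro x a
      by_cases haA : (a : G) ∈ A
      · simp only [if_pos haA]
        rw [Fintype.sum_equiv ((Equiv.mulLeft (a : G)).trans
            ((Equiv.mulLeft x⁻¹).trans (Equiv.mulRight x)))
          (fun t : G => if t ∈ H a then F (x⁻¹ * ((a : G) * t) * x) else 0)
          (fun g : G => F g * (if (a : G)⁻¹ * (x * g * x⁻¹) ∈ H a then 1 else 0))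
          (fun t => by
            have e : (a : G)⁻¹ * (x * (((Equiv.mulLeft (a : G)).trans
                ((Equiv.mulLeft x⁻¹).trans (Equiv.mulRight x))) t) * x⁻¹) = t := by
              simp only [Equiv.trans_apply, Equiv.coe_mulLeft, Equiv.coe_mulRight]; group
            have e2 : ((Equiv.mulLeft (a : G)).trans
                ((Equiv.mulLeft x⁻¹).trans (Equiv.mulRight x))) t = x⁻¹ * ((a : G) * t) * x := by
              simp only [Equiv.trans_apply, Equiv.coe_mulLeft, Equiv.coe_mulRight]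
            rw [e, e2]
            by_cases ht : t ∈ H a
            · rw [if_pos ht, if_pos ht, mul_one]
            · rw [if_neg ht, if_neg ht, mul_zero])]
        rw [Finset.mul_sum]
        apply Finset.sum_congr rfl
        intro g _
        ring
      · simp only [if_neg haA, mul_zero, Finset.sum_const_zero]
    simp only [h1]
    rw [Finset.sum_congr rfl (fun x _ => Finset.sum_comm), Finset.sum_comm]
    apply Finset.sum_congr rfl
    intro g _
    rw [Finset.mul_sum]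
    apply Finset.sum_congr rfl
    intro x _
    rw [Finset.mul_sum]
  rw [← hS1, hS2, Finset.mul_sum]
  apply Finset.sum_congr rfl
  intro g _
  rw [dade_W hD g]
  by_cases hg : DadeSupp A L H g
  · rw [if_pos hg, if_pos hg, mul_comm]
  · rw [if_neg hg, if_neg hg, mul_zero, mul_zero]

end Dade

end Cfsg.Agent.Lib.helper24
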