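import Cfsg.Agent.Lib.helper24.Dade1

set_option autoImplicit false

namespace Cfsg.Agent.Lib.helper24

open Cfsg
open scoped ComplexConjugate

universe u

theorem finsum_mem_eq_sum_ite {α : Type*} {M : Type*} [Fintype α] [AddCommMonoid M] (s : Set α)
    [DecidablePred (· ∈ s)] (f : α → M) : ∑ᶠ a ∈ s, f a = ∑ a, if a ∈ s then f a else 0 := by
  rw [finsum_mem_def, finsum_eq_sum_of_fintype]
  apply Finset.sum_congr rfl
  intro a _
  by_cases h : a ∈ s
  · rw [Set.indicator_of_mem h, if_pos h]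
  · rw [Set.indicator_of_notMem h, if_neg h]

section Dade

variable {G : Type u} [Group G] {A : Set G} {L : Subgroup G} {H : G → Subgroup G}

theorem dade_eq_zero (α : L → ℂ) (g : G) (hg : ¬ DadeSupp A L H g) :
    dadeIsometry A L H α g = 0 := by
  unfold dadeIsometry
  exact dif_neg hg

theorem dadeSupp_conj {g : G} (h : G) (hg : DadeSupp A L H g) : DadeSupp A L H (h * g * h⁻¹) := by
  obtain ⟨a, haA, x, u, hu, hx⟩ := hg
  exact ⟨a, haA, x * h⁻¹, u, hu, by rw [← hx]; group⟩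

theorem dade_isClassFunction [Finite G] (hD : DadeHypothesis A L H) (α : L → ℂ)
    (hα : IsClassFunction L α) : IsClassFunction G (dadeIsometry A L H α) := by
  intro g h
  by_cases hg : DadeSupp A L H g
  · obtain ⟨a, haA, x, u, hu, hx⟩ := hg
    rw [dade_welldef hD α hα g a haA x u hu hx,
      dade_welldef hD α hα (h * g * h⁻¹) a haA (x * h⁻¹) u hu (by rw [← hx]; group)]
  · have hg' : ¬ DadeSupp A L H (h * g * h⁻¹) := by
      intro h'
      apply hg
      have := dadeSupp_conj h⁻¹ h'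
      have e : h⁻¹ * (h * g * h⁻¹) * h⁻¹⁻¹ = g := by group
      rwa [e] at this
    rw [dade_eq_zero α g hg, dade_eq_zero α _ hg']

theorem dade_coset_value [Finite G] (hD : DadeHypothesis A L H) (α : L → ℂ)
    (hα : IsClassFunction L α) (a : L) (haA : (a : G) ∈ A) (t : G) (ht : t ∈ H (a : G)) :
    dadeIsometry A L H α ((a : G) * t) = α a :=
  dade_welldef hD α hα _ a haA 1 t ht (by group)

theorem dade_inner_general [Fintype G] [Fintype L] (hD : DadeHypothesis A L H) (α : L → ℂ)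
    (hα : IsClassFunction L α) (hαA : ∀ x : L, (x : G) ∉ A → α x = 0)
    (χ : G → ℂ) (ψ : L → ℂ) (hχ : IsClassFunction G χ)
    (hψ : ∀ a : L, (a : G) ∈ A → ψ a = (Nat.card (H a) : ℂ)⁻¹ * ∑ᶠ u ∈ (H a : Set G), χ (a * u)) :
    classInner (dadeIsometry A L H α) χ = classInner α ψ := by
  classical
  have hF : ∀ g h : G, (fun g => dadeIsometry A L H α g * conj (χ g)) (h * g * h⁻¹)
      = (fun g => dadeIsometry A L H α g * conj (χ g)) g := by
    intro g h
    show dadeIsometry A L H α (h * g * h⁻¹) * conj (χ (h * g * h⁻¹))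
      = dadeIsometry A L H α g * conj (χ g)
    rw [dade_isClassFunction hD α hα g h, hχ g h]
  have hmain := dade_main (K := ℂ) hD (fun g => dadeIsometry A L H α g * conj (χ g)) hF
  have h1 : ∑ g : G, dadeIsometry A L H α g * conj (χ g)
      = ∑ g : G, (if DadeSupp A L H g then dadeIsometry A L H α g * conj (χ g) else 0) := by
    apply Finset.sum_congr rfl
    intro g _
    by_cases hg : DadeSupp A L H g
    · rw [if_pos hg]
    · rw [if_neg hg, dade_eq_zero α g hg, zero_mul]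
  have h2 : ∑ a : L, (if (a : G) ∈ A then (Nat.card (H a) : ℂ)⁻¹ *
          ∑ t : G, (if t ∈ H a then (fun g => dadeIsometry A L H α g * conj (χ g)) ((a : G) * t)
            else 0) else 0)
      = ∑ a : L, α a * conj (ψ a) := by
    apply Finset.sum_congr rfl
    intro a _
    by_cases haA : (a : G) ∈ A
    · rw [if_pos haA, hψ a haA, finsum_mem_eq_sum_ite, map_mul, map_inv₀, Complex.conj_natCast,
        map_sum, mul_left_comm (α a) _ _]
      congr 1
      rw [Finset.mul_sum]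
      apply Finset.sum_congr rfl
      intro t _
      by_cases ht : t ∈ H (a : G)
      · rw [if_pos ht]
        have ht' : t ∈ ((H (a : G) : Subgroup G) : Set G) := ht
        rw [if_pos ht']
        show dadeIsometry A L H α ((a : G) * t) * conj (χ ((a : G) * t)) = _
        rw [dade_coset_value hD α hα a haA t ht]
      · rw [if_neg ht]
        have ht' : t ∉ ((H (a : G) : Subgroup G) : Set G) := ht
        rw [if_neg ht', map_zero, mul_zero]
    · rw [if_neg haA, hαA a haA, zero_mul]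
  rw [h2] at hmain
  unfold classInner
  rw [h1]
  have hL : (Nat.card L : ℂ) ≠ 0 := Nat.cast_ne_zero.mpr Nat.card_pos.ne'
  have hG : (Nat.card G : ℂ) ≠ 0 := Nat.cast_ne_zero.mpr Nat.card_pos.ne'
  field_simp
  rw [mul_comm]
  exact hmain

theorem dade_isometry_statement {G : Type u} [Group G] [Fintype G] (A : Set G) (L : Subgroup G) [Fintype L] (H : G → Subgroup G) (hD : DadeHypothesis A L H) (α : L → ℂ) (hα : IsClassFunction L α) (hαA : ∀ x : L, (x : G) ∉ A → α x = 0) : (∀ β : L → ℂ, IsClassFunction L β → (∀ x : L, (x : G) ∉ A → β x = 0) → classInner (dadeIsometry A L H α) (dadeIsometry A L H β) = classInner α β) ∧ (∀ (χ : G → ℂ) (ψ : L → ℂ), IsClassFunction G χ → (∀ a : L, (a : G) ∈ A → ψ a = (Nat.card (H a) : ℂ)⁻¹ * ∑ᶠ u ∈ (H a : Set G), χ (a * u)) → classInner (dadeIsometry A L H α) χ = classInner α ψ) := by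
  classical
  refine ⟨?_, ?_⟩
  · intro β hβ hβA
    apply dade_inner_general hD α hα hαA (dadeIsometry A L H β) β (dade_isClassFunction hD β hβ)
    intro a haA
    rw [finsum_mem_eq_sum_ite]
    have h1 : ∀ t : G, (if t ∈ ((H (a : G) : Subgroup G) : Set G) then
        dadeIsometry A L H β ((a : G) * t) else 0)
        = if t ∈ ((H (a : G) : Subgroup G) : Set G) then β a else 0 := by
      intro t
      by_cases ht : t ∈ ((H (a : G) : Subgroup G) : Set G)
      · rw [if_pos ht, if_pos ht, dade_coset_value hD β hβ a haA t ht]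
      · rw [if_neg ht, if_neg ht]
    rw [Finset.sum_congr rfl (fun t _ => h1 t), Finset.sum_ite, Finset.sum_const_zero, add_zero,
      Finset.sum_const, nsmul_eq_mul]
    have hcard : (Finset.univ.filter (fun t : G => t ∈ ((H (a : G) : Subgroup G) : Set G))).card
        = Nat.card (H (a : G)) := by
      rw [Nat.card_eq_fintype_card, Fintype.card_subtype]
      rfl
    rw [hcard]
    have hne : (Nat.card (H (a : G)) : ℂ) ≠ 0 := Nat.cast_ne_zero.mpr Nat.card_pos.ne'
    field_simp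
  · intro χ ψ hχ hψ
    exact dade_inner_general hD α hα hαA χ ψ hχ hψ

theorem dade_norm_inequality {G : Type u} [Group G] [Fintype G] (A : Set G) (L : Subgroup G) [Fintype L] (H : G → Subgroup G) (hD : DadeHypothesis A L H) (χ : G → ℂ) (hχ : IsClassFunction G χ) (ψ : L → ℂ) (hψ : ∀ a : L, (a : G) ∈ A → ψ a = (Nat.card (H a) : ℂ)⁻¹ * ∑ᶠ u ∈ (H a : Set G), χ (a * u)) : (Nat.card L : ℝ)⁻¹ * ∑ᶠ a ∈ {a : L | (a : G) ∈ A}, ‖ψ a‖ ^ 2 ≤ (Nat.card G : ℝ)⁻¹ * ∑ᶠ g ∈ {g : G | ∃ a ∈ A, ∃ u ∈ H a, ∃ x : G, x * g * x⁻¹ = a * u}, ‖χ g‖ ^ 2 := by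
  classical
  have hF : ∀ g h : G, (fun g => ‖χ g‖ ^ 2) (h * g * h⁻¹) = (fun g => ‖χ g‖ ^ 2) g := by
    intro g h
    show ‖χ (h * g * h⁻¹)‖ ^ 2 = ‖χ g‖ ^ 2
    rw [hχ g h]
  have hmain := dade_main (K := ℝ) hD (fun g => ‖χ g‖ ^ 2) hF
  rw [finsum_mem_eq_sum_ite, finsum_mem_eq_sum_ite]
  have hset : ∀ g : G, (g ∈ {g : G | ∃ a ∈ A, ∃ u ∈ H a, ∃ x : G, x * g * x⁻¹ = a * u})
      ↔ DadeSupp A L H g := by
    intro g
    constructor
    · rintro ⟨a, haA, u, hu, x, hx⟩
      exact ⟨⟨a, hD.subset haA⟩, haA, x, u, hu, hx⟩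
    · rintro ⟨a, haA, x, u, hu, hx⟩
      exact ⟨a, haA, u, hu, x, hx⟩
  have hR : ∑ g : G, (if g ∈ {g : G | ∃ a ∈ A, ∃ u ∈ H a, ∃ x : G, x * g * x⁻¹ = a * u}
      then ‖χ g‖ ^ 2 else 0) = ∑ g : G, (if DadeSupp A L H g then ‖χ g‖ ^ 2 else 0) := by
    apply Finset.sum_congr rfl
    intro g _
    by_cases hg : DadeSupp A L H g
    · rw [if_pos hg, if_pos ((hset g).mpr hg)]
    · rw [if_neg hg, if_neg (fun h => hg ((hset g).mp h))]
  rw [hR]
  have hpt : ∀ a : L, (if a ∈ {a : L | (a : G) ∈ A} then ‖ψ a‖ ^ 2 else 0)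
      ≤ (if (a : G) ∈ A then (Nat.card (H a) : ℝ)⁻¹ *
          ∑ t : G, (if t ∈ H a then (fun g => ‖χ g‖ ^ 2) ((a : G) * t) else 0) else 0) := by
    intro a
    by_cases haA : (a : G) ∈ A
    · rw [if_pos haA, if_pos (show a ∈ {a : L | (a : G) ∈ A} from haA)]
      rw [hψ a haA, finsum_mem_eq_sum_ite, norm_mul, norm_inv, Complex.norm_natCast, mul_pow]
      have hn : (0 : ℝ) < Nat.card (H (a : G)) := Nat.cast_pos.mpr Nat.card_pos
      have hcard : (Finset.univ.filter (fun t : G => t ∈ H (a : G))).card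
          = Nat.card (H (a : G)) := by
        rw [Nat.card_eq_fintype_card, Fintype.card_subtype]
      have h1 : ‖∑ t : G, (if t ∈ ((H (a : G) : Subgroup G) : Set G) then χ ((a : G) * t) else 0)‖
          ≤ ∑ t ∈ Finset.univ.filter (fun t : G => t ∈ H (a : G)), ‖χ ((a : G) * t)‖ := by
        refine le_trans (norm_sum_le _ _) ?_
        rw [Finset.sum_filter]
        apply le_of_eq
        apply Finset.sum_congr rfl
        intro t _
        by_cases ht : t ∈ H (a : G)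
        · rw [if_pos ht, if_pos (show t ∈ ((H (a : G) : Subgroup G) : Set G) from ht)]
        · rw [if_neg ht, if_neg (show t ∉ ((H (a : G) : Subgroup G) : Set G) from ht), norm_zero]
      have h2 : (∑ t ∈ Finset.univ.filter (fun t : G => t ∈ H (a : G)), ‖χ ((a : G) * t)‖) ^ 2
          ≤ (Nat.card (H (a : G)) : ℝ) *
            ∑ t ∈ Finset.univ.filter (fun t : G => t ∈ H (a : G)), ‖χ ((a : G) * t)‖ ^ 2 := by
        have := sq_sum_le_card_mul_sum_sq (s := Finset.univ.filter (fun t : G => t ∈ H (a : G)))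
          (f := fun t => ‖χ ((a : G) * t)‖)
        rw [hcard] at this
        exact this
      have h3 : ∑ t : G, (if t ∈ H (a : G) then (fun g => ‖χ g‖ ^ 2) ((a : G) * t) else 0)
          = ∑ t ∈ Finset.univ.filter (fun t : G => t ∈ H (a : G)), ‖χ ((a : G) * t)‖ ^ 2 := by
        rw [Finset.sum_filter]
      rw [h3]
      have h4 : ‖∑ t : G, (if t ∈ ((H (a : G) : Subgroup G) : Set G) then χ ((a : G) * t) else 0)‖ ^ 2
          ≤ (Nat.card (H (a : G)) : ℝ) *
            ∑ t ∈ Finset.univ.filter (fun t : G => t ∈ H (a : G)), ‖χ ((a : G) * t)‖ ^ 2 :=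
        le_trans (pow_le_pow_left₀ (norm_nonneg _) h1 2) h2
      calc ((Nat.card (H (a : G)) : ℝ)⁻¹) ^ 2 *
            ‖∑ t : G, (if t ∈ ((H (a : G) : Subgroup G) : Set G) then χ ((a : G) * t) else 0)‖ ^ 2
          ≤ ((Nat.card (H (a : G)) : ℝ)⁻¹) ^ 2 * ((Nat.card (H (a : G)) : ℝ) *
            ∑ t ∈ Finset.univ.filter (fun t : G => t ∈ H (a : G)), ‖χ ((a : G) * t)‖ ^ 2) :=
            mul_le_mul_of_nonneg_left h4 (sq_nonneg _)
        _ = (Nat.card (H (a : G)) : ℝ)⁻¹ *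
            ∑ t ∈ Finset.univ.filter (fun t : G => t ∈ H (a : G)), ‖χ ((a : G) * t)‖ ^ 2 := by
            field_simp
    · rw [if_neg haA, if_neg (show a ∉ {a : L | (a : G) ∈ A} from haA)]
  have hL : (Nat.card L : ℝ) ≠ 0 := Nat.cast_ne_zero.mpr Nat.card_pos.ne'
  have hG : (Nat.card G : ℝ) ≠ 0 := Nat.cast_ne_zero.mpr Nat.card_pos.ne'
  calc (Nat.card L : ℝ)⁻¹ * ∑ a : L, (if a ∈ {a : L | (a : G) ∈ A} then ‖ψ a‖ ^ 2 else 0)
      ≤ (Nat.card L : ℝ)⁻¹ * ∑ a : L, (if (a : G) ∈ A then (Nat.card (H a) : ℝ)⁻¹ *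
          ∑ t : G, (if t ∈ H a then (fun g => ‖χ g‖ ^ 2) ((a : G) * t) else 0) else 0) :=
        mul_le_mul_of_nonneg_left (Finset.sum_le_sum (fun a _ => hpt a))
          (inv_nonneg.mpr (Nat.cast_nonneg _))
    _ = (Nat.card G : ℝ)⁻¹ * ∑ g : G, (if DadeSupp A L H g then ‖χ g‖ ^ 2 else 0) := by
        rw [inv_mul_eq_div, inv_mul_eq_div, div_eq_div_iff hL hG]
        linear_combination (-1 : ℝ) * hmain

end Dade

end Cfsg.Agent.Lib.helper24
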