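import Mathlib
import Cfsg.Prelude.Def_CaseTheorems
import Cfsg.Agent.S0016
import Cfsg.Agent.S0065
import Cfsg.Agent.Lib.helper1.NormAb2
import Cfsg.Agent.Lib.helper1.SelfCent

set_option autoImplicit false
open Cfsg

namespace Cfsg.Agent.Lib.helper24.Imprim

universe u

/-- If all abelian subgroups of a `p`-group are cyclic, it has a unique subgroup of order `p`. -/
theorem uniq_of_abelian_cyclic {G : Type u} [Group G] [Finite G] (p : ℕ) [Fact p.Prime]
    (hG : IsPGroup p G) (hab : ∀ B : Subgroup G, IsMulCommutative B → IsCyclic B) :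
    ∀ H K : Subgroup G, Nat.card H = p → Nat.card K = p → H = K := by
  classical
  have hp : p.Prime := Fact.out
  intro H K hH hK
  have hnt : Nontrivial G := by
    by_contra hnt
    rw [not_nontrivial_iff_subsingleton] at hnt
    have : Nat.card H = 1 := Nat.card_eq_one_iff_unique.2 ⟨inferInstance, ⟨1⟩⟩
    rw [hH] at this
    exact hp.one_lt.ne' this
  obtain ⟨z0, hz0c, hz0⟩ : ∃ z0 : G, z0 ∈ Subgroup.center G ∧ orderOf z0 = p := by
    haveI := hG.center_nontrivial
    have hZ : IsPGroup p (Subgroup.center G) := hG.to_subgroup _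
    obtain ⟨k, hk⟩ := IsPGroup.iff_card.1 hZ
    have hk0 : k ≠ 0 := by
      rintro rfl
      rw [pow_zero] at hk
      have := (Nat.card_eq_one_iff_unique.1 hk).1
      exact not_subsingleton _ this
    have hdvd : p ∣ Nat.card (Subgroup.center G) := by
      rw [hk]; exact dvd_pow_self p hk0
    obtain ⟨x, hx⟩ := exists_prime_orderOf_dvd_card' p hdvd
    exact ⟨x, x.2, by rw [← hx, Subgroup.orderOf_coe]⟩
  have key : ∀ H : Subgroup G, Nat.card H = p → H = Subgroup.zpowers z0 := by
    intro H hH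
    have hHnt : H ≠ ⊥ := by
      rintro rfl
      rw [Subgroup.card_bot] at hH
      exact hp.one_lt.ne hH
    obtain ⟨h, hh1⟩ := (Subgroup.ne_bot_iff_exists_ne_one.1 hHnt)
    have hh1' : (h : G) ≠ 1 := fun e => hh1 (Subtype.ext e)
    have hord : orderOf (h : G) = p := by
      have h1 : orderOf (h : G) ∣ p := by
        rw [← hH]; exact Subgroup.orderOf_dvd_natCard H h.2
      rcases (Nat.dvd_prime hp).1 h1 with h2 | h2
      · exact (hh1' (orderOf_eq_one_iff.1 h2)).elim
      · exact h2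
    have hcomm : ∀ a ∈ ({(h : G), z0} : Set G), ∀ b ∈ ({(h : G), z0} : Set G), a * b = b * a := by
      intro a ha b hb
      rcases ha with rfl | rfl
      · rcases hb with rfl | rfl
        · rfl
        · exact (Subgroup.mem_center_iff.1 hz0c _)
      · exact (Subgroup.mem_center_iff.1 hz0c _).symm
    have hBc := Subgroup.isMulCommutative_closure hcomm
    haveI hBcyc := hab _ hBc
    set B := Subgroup.closure ({(h : G), z0} : Set G) with hBdef
    haveI : Fintype B := Fintype.ofFinite _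
    have hhB : (h : G) ∈ B := Subgroup.subset_closure (by simp)
    have hzB : z0 ∈ B := Subgroup.subset_closure (by simp)
    have hle := IsCyclic.card_pow_eq_one_le (α := B) (n := p) hp.pos
    let T : Finset B := Finset.image (fun k : ℕ => (⟨z0, hzB⟩ : B) ^ k) (Finset.range p)
    have hTcard : T.card = p := by
      rw [Finset.card_image_of_injOn, Finset.card_range]
      intro a ha b hb hab'
      have ha' : a < p := by simpa using ha
      have hb' : b < p := by simpa using hb
      have h3 : z0 ^ a = z0 ^ b := by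
        have := congrArg Subtype.val hab'
        simpa using this
      exact pow_injOn_Iio_orderOf (by rw [hz0]; exact ha') (by rw [hz0]; exact hb') h3
    have hTsub : T ⊆ Finset.univ.filter (fun a : B => a ^ p = 1) := by
      intro a ha
      obtain ⟨k, _, rfl⟩ := Finset.mem_image.1 ha
      rw [Finset.mem_filter]
      refine ⟨Finset.mem_univ _, ?_⟩
      apply Subtype.ext
      simp only [Subgroup.coe_pow, Subgroup.coe_one]
      rw [← pow_mul, mul_comm, pow_mul, ← hz0, pow_orderOf_eq_one, one_pow]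
    have hTeq := Finset.eq_of_subset_of_card_le hTsub (by rw [hTcard]; exact hle)
    have hmem : (⟨(h : G), hhB⟩ : B) ∈ T := by
      rw [hTeq, Finset.mem_filter]
      refine ⟨Finset.mem_univ _, ?_⟩
      apply Subtype.ext
      simp only [Subgroup.coe_pow, Subgroup.coe_one]
      rw [← hord, pow_orderOf_eq_one]
    obtain ⟨k, _, hk⟩ := Finset.mem_image.1 hmem
    have hk' : z0 ^ k = (h : G) := by
      have := congrArg Subtype.val hk
      simpa using this
    have hle1 : Subgroup.zpowers (h : G) ≤ Subgroup.zpowers z0 := by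
      rw [Subgroup.zpowers_le, ← hk']
      exact Subgroup.pow_mem _ (Subgroup.mem_zpowers z0) k
    have hle2 : Subgroup.zpowers (h : G) ≤ H := by
      rw [Subgroup.zpowers_le]; exact h.2
    have hc1 : Nat.card (Subgroup.zpowers (h : G)) = p := by rw [Nat.card_zpowers, hord]
    have hc2 : Nat.card (Subgroup.zpowers z0) = p := by rw [Nat.card_zpowers, hz0]
    have e1 : Subgroup.zpowers (h : G) = Subgroup.zpowers z0 :=
      Subgroup.eq_of_le_of_card_ge hle1 (by rw [hc1, hc2])
    have e2 : Subgroup.zpowers (h : G) = H :=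
      Subgroup.eq_of_le_of_card_ge hle2 (by rw [hc1, hH])
    rw [← e2, e1]
  rw [key H hH, key K hK]

/-- Group-theoretic input: a `p`-group that is not cyclic, quaternion, dihedral or quasidihedral has a
central element `z` of order `p` and an element `x` of order `p` outside `⟨z⟩` with `[G, x] ≤ ⟨z⟩`. -/
theorem group_data {G : Type u} [Group G] [Finite G] (p : ℕ) [Fact p.Prime] (hG : IsPGroup p G)
    (hnc : ¬ IsCyclic G) (hnq : ∀ n : ℕ, ¬ Nonempty (G ≃* QuaternionGroup n))
    (hnd : ∀ n : ℕ, ¬ Nonempty (G ≃* DihedralGroup n)) (hnsd : ¬ Cfsg.IsQuasiDihedral G) :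
    ∃ z x : G, z ≠ 1 ∧ z ^ p = 1 ∧ (∀ g : G, g * z = z * g) ∧ x ^ p = 1 ∧ x ∉ Subgroup.zpowers z ∧
      ∀ g : G, ∃ j : ℕ, g * x * g⁻¹ = x * z ^ j := by
  classical
  have hp : p.Prime := Fact.out
  obtain ⟨A, hAn, hAp, hAc⟩ : ∃ A : Subgroup G, A.Normal ∧ (∀ a ∈ A, a ^ p = 1) ∧ Nat.card A = p ^ 2 := by
    by_cases hm : ∃ B : Subgroup G, IsMulCommutative B ∧ ¬ IsCyclic B
    · by_cases hn : ∀ A : Subgroup G, A.Normal → IsMulCommutative A → IsCyclic A
      · obtain ⟨_, h⟩ := Cfsg.Agent.Lib.helper1.p_group_cyclic_normal_abelian p hG hn hm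
        rcases h with ⟨n, ⟨e⟩⟩ | ⟨n, _, ⟨e⟩⟩ | h
        exacts [(hnq n ⟨e⟩).elim, (hnd n ⟨e⟩).elim, (hnsd h).elim]
      · push Not at hn
        obtain ⟨S, hSn, hSc, hSnc⟩ := hn
        obtain ⟨A, _, hAn, _, hAp, hAc⟩ := Cfsg.Agent.Lib.helper1.exists_normal_ea_sq_of_abelian hG S hSn
          (fun u hu v hv => congrArg Subtype.val (hSc.is_comm.comm ⟨u, hu⟩ ⟨v, hv⟩)) hSnc
        exact ⟨A, hAn, hAp, hAc⟩
    · push Not at hm
      have := Cfsg.Agent.S0016.result p hG (uniq_of_abelian_cyclic p hG (fun B hB => hm B hB))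
      rcases this with h | ⟨_, n, ⟨e⟩⟩
      exacts [(hnc h).elim, (hnq _ ⟨e⟩).elim]
  have := hAn
  have : Group.IsNilpotent G := hG.isNilpotent
  have hAne : A ≠ ⊥ := by
    rintro rfl
    rw [Subgroup.card_bot] at hAc
    have : 1 < p ^ 2 := Nat.one_lt_pow (by norm_num) hp.one_lt
    omega
  have h1 := Cfsg.Agent.S0065.result A hAne
  obtain ⟨z', hz'1⟩ := Subgroup.ne_bot_iff_exists_ne_one.1 h1
  obtain ⟨z, hzmem⟩ := z'
  have hz1 : z ≠ 1 := fun e => hz'1 (Subtype.ext e)
  have hzA : z ∈ A := hzmem.1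
  have hzc : ∀ g : G, g * z = z * g := fun g => Subgroup.mem_center_iff.1 hzmem.2 g
  have hzp : z ^ p = 1 := hAp z hzA
  have hzk : ∀ (k : ℤ) (g : G), g * z ^ k = z ^ k * g := fun k g =>
    (Commute.zpow_right (show Commute g z from hzc g) k).eq
  haveI hZn : (Subgroup.zpowers z).Normal := by
    refine ⟨fun n hn g => ?_⟩
    obtain ⟨k, rfl⟩ := Subgroup.mem_zpowers_iff.1 hn
    rw [hzk k g, mul_inv_cancel_right]
    exact Subgroup.zpow_mem _ (Subgroup.mem_zpowers z) k
  have hzord : orderOf z = p := orderOf_eq_prime hzp hz1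
  have hZcard : Nat.card (Subgroup.zpowers z) = p := by rw [Nat.card_zpowers, hzord]
  let π := QuotientGroup.mk' (Subgroup.zpowers z)
  have hπs : Function.Surjective π := QuotientGroup.mk'_surjective _
  haveI hAbn : (A.map π).Normal := Subgroup.Normal.map hAn π hπs
  haveI : Group.IsNilpotent (G ⧸ Subgroup.zpowers z) := (hG.to_quotient _).isNilpotent
  have hAbne : A.map π ≠ ⊥ := by
    intro hbot
    have hle : A ≤ Subgroup.zpowers z := by
      intro a ha
      have : π a ∈ A.map π := Subgroup.mem_map_of_mem π ha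
      rw [hbot, Subgroup.mem_bot] at this
      exact (QuotientGroup.eq_one_iff a).1 this
    have := Subgroup.card_le_of_le hle
    rw [hAc, hZcard] at this
    nlinarith [hp.one_lt]
  have h2 := Cfsg.Agent.S0065.result (A.map π) hAbne
  obtain ⟨y', hy'1⟩ := Subgroup.ne_bot_iff_exists_ne_one.1 h2
  obtain ⟨y, hymem⟩ := y'
  have hy1 : y ≠ 1 := fun e => hy'1 (Subtype.ext e)
  obtain ⟨x, hxA, rfl⟩ := Subgroup.mem_map.1 hymem.1
  have hyc := Subgroup.mem_center_iff.1 hymem.2
  refine ⟨z, x, hz1, hzp, hzc, hAp x hxA, ?_, ?_⟩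
  · intro hx
    exact hy1 ((QuotientGroup.eq_one_iff x).2 hx)
  · intro g
    have h3 : π (x⁻¹ * (g * x * g⁻¹)) = 1 := by
      have := hyc (π g)
      simp only [map_mul, map_inv]
      rw [this]
      group
    have h4 : x⁻¹ * (g * x * g⁻¹) ∈ Subgroup.zpowers z := (QuotientGroup.eq_one_iff _).1 h3
    rw [← mem_powers_iff_mem_zpowers] at h4
    obtain ⟨j, hj⟩ := (Submonoid.mem_powers_iff _ _).1 h4
    exact ⟨j, by rw [hj]; group⟩

end Cfsg.Agent.Lib.helper24.Imprim
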