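import Mathlib
import Cfsg.Agent.Lib.helper24.Imprim1

set_option autoImplicit false
open Cfsg

namespace Cfsg.Agent.Lib.helper24.Imprim

universe u v

theorem pow_mod_eq {M : Type*} [Monoid M] (p : ℕ) (a : M) (ha : a ^ p = 1) (n : ℕ) :
    a ^ (n % p) = a ^ n := by
  conv_rhs => rw [← Nat.div_add_mod n p, pow_add, pow_mul, ha, one_pow, one_mul]

theorem pow_val_add {M : Type*} [Monoid M] (p : ℕ) [Fact p.Prime] (a : M) (ha : a ^ p = 1)
    (s t : ZMod p) : a ^ (s + t).val = a ^ s.val * a ^ t.val := by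
  rw [ZMod.val_add, ← pow_add, pow_mod_eq p a ha]

theorem pow_val_mul {M : Type*} [Monoid M] (p : ℕ) [Fact p.Prime] (a : M) (ha : a ^ p = 1)
    (s t : ZMod p) : a ^ (s * t).val = (a ^ s.val) ^ t.val := by
  rw [ZMod.val_mul, pow_mod_eq p a ha, pow_mul]

theorem sum_pow_mul_val {R : Type*} [Semiring R] (p : ℕ) [Fact p.Prime] (a : R)
    (k : ZMod p) (hk : k ≠ 0) :
    ∑ t : ZMod p, a ^ (t * k).val = ∑ s : ZMod p, a ^ s.val :=
  Fintype.sum_equiv (Equiv.mulRight₀ k hk) _ _ (fun _ => rfl)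

theorem sum_E {R : Type*} [Ring R] (p : ℕ) [Fact p.Prime] (X Z : R) (hXZ : Commute X Z)
    (hZ : Z ^ p = 1) (hN : ∑ s : ZMod p, Z ^ s.val = 0) :
    ∑ t : ZMod p, ∑ k : ZMod p, (X * Z ^ t.val) ^ k.val = (p : R) := by
  have h1 : ∀ t k : ZMod p, (X * Z ^ t.val) ^ k.val = X ^ k.val * Z ^ (t * k).val := by
    intro t k
    rw [(hXZ.pow_right _).mul_pow, pow_val_mul p Z hZ]
  simp_rw [h1]
  rw [Finset.sum_comm]
  simp_rw [← Finset.mul_sum]
  rw [Finset.sum_eq_single (0 : ZMod p)]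
  · simp [ZMod.val_zero]
  · intro k _ hk
    rw [sum_pow_mul_val p Z k hk, hN, mul_zero]
  · intro h; exact absurd (Finset.mem_univ _) h

theorem mul_E {R : Type*} [Ring R] (p : ℕ) [Fact p.Prime] (B : R) (hB : B ^ p = 1) :
    B * ∑ k : ZMod p, B ^ k.val = ∑ k : ZMod p, B ^ k.val := by
  rw [Finset.mul_sum]
  have : ∀ k : ZMod p, B * B ^ k.val = B ^ (1 + k).val := by
    intro k
    rw [pow_val_add p B hB, ZMod.val_one, pow_one]
  simp_rw [this]
  exact Fintype.sum_equiv (Equiv.addLeft 1) _ _ (fun _ => rfl)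

/-- The fixed subspace of a group element. -/
def fixSub (q : ℕ) {V : Type u} [AddCommGroup V] [Module (ZMod q) V] {G : Type v} [Group G]
    (ρ : G →* (V ≃ₗ[ZMod q] V)) (c : G) : Submodule (ZMod q) V where
  carrier := {v | ρ c v = v}
  add_mem' := by
    intro a b ha hb
    simp only [Set.mem_setOf_eq] at *
    rw [map_add, ha, hb]
  zero_mem' := by simp
  smul_mem' := by
    intro r a ha
    simp only [Set.mem_setOf_eq] at *
    rw [map_smul, ha]

theorem mem_fixSub (q : ℕ) {V : Type u} [AddCommGroup V] [Module (ZMod q) V] {G : Type v} [Group G]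
    (ρ : G →* (V ≃ₗ[ZMod q] V)) (c : G) (v : V) : v ∈ fixSub q ρ c ↔ ρ c v = v := Iff.rfl

theorem rho_mul (q : ℕ) {V : Type u} [AddCommGroup V] [Module (ZMod q) V] {G : Type v} [Group G]
    (ρ : G →* (V ≃ₗ[ZMod q] V)) (a b : G) (v : V) : ρ (a * b) v = ρ a (ρ b v) := by
  rw [map_mul]; rfl

/-- A nontrivial central element has no nonzero fixed vector in a faithful irreducible module. -/
theorem central_fix (q : ℕ) {V : Type u} [AddCommGroup V] [Module (ZMod q) V]
    {G : Type v} [Group G]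
    (ρ : G →* (V ≃ₗ[ZMod q] V)) (hρ : Function.Injective ρ)
    (hirr : ∀ W : Submodule (ZMod q) V, (∀ g : G, ∀ w ∈ W, ρ g w ∈ W) → W = ⊥ ∨ W = ⊤)
    (c : G) (hc : ∀ g : G, g * c = c * g) (hc1 : c ≠ 1) (v : V) (hv : ρ c v = v) : v = 0 := by
  have hinv : ∀ g : G, ∀ w ∈ fixSub q ρ c, ρ g w ∈ fixSub q ρ c := by
    intro g w hw
    rw [mem_fixSub] at hw ⊢
    rw [← rho_mul, ← hc g, rho_mul, hw]
  rcases hirr _ hinv with h | h
  · have : v ∈ fixSub q ρ c := hv
    rw [h] at this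
    exact (Submodule.mem_bot _).1 this
  · exfalso
    apply hc1
    apply hρ
    rw [map_one]
    ext w
    have : w ∈ fixSub q ρ c := by rw [h]; exact Submodule.mem_top
    exact this

theorem char_ne (q : ℕ) [Fact q.Prime] {V : Type u} [AddCommGroup V] [Module (ZMod q) V] [Finite V]
    [Nontrivial V] {G : Type v} [Group G] [Finite G] (p : ℕ) [Fact p.Prime] (hG : IsPGroup p G)
    (ρ : G →* (V ≃ₗ[ZMod q] V)) (hfix : ∀ v : V, (∀ g, ρ g v = v) → v = 0) : q ≠ p := by
  intro hqp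
  have hq : q.Prime := Fact.out
  letI : MulAction G V :=
    { smul := fun g v => ρ g v
      one_smul := fun v => by show ρ 1 v = v; rw [map_one]; rfl
      mul_smul := fun a b v => rho_mul q ρ a b v }
  have hdvd : p ∣ Nat.card V := by
    obtain ⟨v, hv⟩ := exists_ne (0 : V)
    have h1 : q • v = 0 := by
      rw [← Nat.cast_smul_eq_nsmul (ZMod q), ZMod.natCast_self, zero_smul]
    have h2 : addOrderOf v ∣ q := addOrderOf_dvd_of_nsmul_eq_zero h1
    rcases (Nat.dvd_prime hq).1 h2 with h3 | h3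
    · exact (hv (AddMonoid.addOrderOf_eq_one_iff.1 h3)).elim
    · rw [← hqp, ← h3]; exact addOrderOf_dvd_natCard v
  have h0 : (0 : V) ∈ MulAction.fixedPoints G V := fun g => map_zero (ρ g)
  obtain ⟨b, hb, hb0⟩ := hG.exists_fixed_point_of_prime_dvd_card_of_fixed_point V hdvd h0
  exact hb0 (hfix b (fun g => hb g)).symm

end Cfsg.Agent.Lib.helper24.Imprim
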