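import Mathlib
import Cfsg.Agent.Lib.helper24.Imprim2

set_option autoImplicit false
open Cfsg

namespace Cfsg.Agent.Lib.helper24.Imprim

universe u v

theorem imprimitive (q : ℕ) [Fact q.Prime] {V : Type u} [AddCommGroup V] [Module (ZMod q) V]
    [Finite V] [Nontrivial V]
    {G : Type v} [Group G] [Finite G] (p : ℕ) [Fact p.Prime] (hG : IsPGroup p G)
    (ρ : G →* (V ≃ₗ[ZMod q] V)) (hρ : Function.Injective ρ)
    (hirr : ∀ W : Submodule (ZMod q) V, (∀ g : G, ∀ w ∈ W, ρ g w ∈ W) → W = ⊥ ∨ W = ⊤)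
    (z x : G) (hz1 : z ≠ 1) (hzp : z ^ p = 1) (hzc : ∀ g : G, g * z = z * g) (hxp : x ^ p = 1)
    (hxz : x ∉ Subgroup.zpowers z) (hx : ∀ g : G, ∃ j : ℕ, g * x * g⁻¹ = x * z ^ j) :
    ∃ (H : Subgroup G) (W : Fin p → Submodule (ZMod q) V), H.index = p ∧
      iSup W = ⊤ ∧ iSupIndep W ∧
      (∀ h ∈ H, ∀ i, ∀ w ∈ W i, ρ h w ∈ W i) ∧
      (∀ i, ∃ h ∈ H, h ≠ 1 ∧ ∀ w ∈ W i, ρ h w = w) ∧
      ∀ g : G, g ∉ H → ∃ σ : Equiv.Perm (Fin p), orderOf σ = p ∧
        ∀ i, (W i).map (ρ g : V →ₗ[ZMod q] V) = W (σ i) := by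
  classical
  have hp : p.Prime := Fact.out
  have hq : q.Prime := Fact.out
  have hzord : orderOf z = p := orderOf_eq_prime hzp hz1
  have hzfix : ∀ v : V, ρ z v = v → v = 0 := central_fix q ρ hρ hirr z hzc hz1
  have hqp : q ≠ p := char_ne q p hG ρ (fun v hv => hzfix v (hv z))
  have hpq : (p : ZMod q) ≠ 0 := by
    intro h
    rw [ZMod.natCast_eq_zero_iff] at h
    exact hqp ((Nat.prime_dvd_prime_iff_eq hq hp).1 h)
  -- the representation as a monoid hom into End
  let r : G →* Module.End (ZMod q) V :=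
    { toFun := fun g => (ρ g : V →ₗ[ZMod q] V)
      map_one' := by ext v; simp
      map_mul' := by intro a b; ext v; simp }
  have hr : ∀ g v, r g v = ρ g v := fun g v => rfl
  have hXZ : Commute (r x) (r z) := by
    show r x * r z = r z * r x
    rw [← map_mul, ← map_mul, hzc x]
  have hZp : r z ^ p = 1 := by rw [← map_pow, hzp, map_one]
  have hN : ∑ s : ZMod p, r z ^ s.val = 0 := by
    ext v
    rw [LinearMap.zero_apply]
    apply hzfix
    rw [← hr, ← Module.End.mul_apply, mul_E p (r z) hZp]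
  -- the elements b t
  have hzpow : ∀ (n : ℕ) (g : G), g * z ^ n = z ^ n * g := fun n g =>
    (Commute.pow_right (show Commute g z from hzc g) n).eq
  have hb1 : ∀ t : ZMod p, x * z ^ t.val ≠ 1 := by
    intro t h
    apply hxz
    have : x = (z ^ t.val)⁻¹ := eq_inv_of_mul_eq_one_left h
    rw [this]
    exact Subgroup.inv_mem _ (Subgroup.pow_mem _ (Subgroup.mem_zpowers z) _)
  have hbp : ∀ t : ZMod p, (x * z ^ t.val) ^ p = 1 := by
    intro t
    rw [(Commute.pow_right (show Commute x z from hzc x) _).mul_pow, hxp, ← pow_mul, mul_comm,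
      pow_mul, hzp, one_pow, one_mul]
  have hB : ∀ t : ZMod p, r (x * z ^ t.val) = r x * r z ^ t.val := by
    intro t; rw [map_mul, map_pow]
  have hBp : ∀ t : ZMod p, (r x * r z ^ t.val) ^ p = 1 := by
    intro t; rw [← hB, ← map_pow, hbp, map_one]
  -- the subspaces
  let W' : ZMod p → Submodule (ZMod q) V := fun t => fixSub q ρ (x * z ^ t.val)
  have hW' : ∀ t v, v ∈ W' t ↔ (r x * r z ^ t.val) v = v := by
    intro t v
    rw [← hB]
    exact Iff.rfl
  have hdiv : ∀ (S : Submodule (ZMod q) V) (v : V), (p : ZMod q) • v ∈ S → v ∈ S := by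
    intro S v hv
    have := S.smul_mem (p : ZMod q)⁻¹ hv
    rwa [inv_smul_smul₀ hpq] at this
  have hEmem : ∀ (t : ZMod p) (v : V), (∑ k : ZMod p, (r x * r z ^ t.val) ^ k.val) v ∈ W' t := by
    intro t v
    rw [hW', ← Module.End.mul_apply, mul_E p _ (hBp t)]
  have hsup : ⨆ t, W' t = ⊤ := by
    rw [eq_top_iff]
    intro v _
    apply hdiv
    have h2 := congrArg (fun T : Module.End (ZMod q) V => T v) (sum_E p (r x) (r z) hXZ hZp hN)
    simp only [LinearMap.sum_apply] at h2
    have h3 : ((p : Module.End (ZMod q) V)) v = (p : ZMod q) • v := by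
      rw [Module.End.natCast_apply, Nat.cast_smul_eq_nsmul]
    rw [← h3, ← h2]
    refine Submodule.sum_mem _ (fun t _ => ?_)
    have := hEmem t v
    rw [LinearMap.sum_apply] at this
    exact (le_iSup W' t) this
  have hEfix : ∀ (t : ZMod p) (w : V), w ∈ W' t →
      (∑ k : ZMod p, (r x * r z ^ t.val) ^ k.val) w = (p : ZMod q) • w := by
    intro t w hw
    rw [hW'] at hw
    have h1 : ∀ n : ℕ, ((r x * r z ^ t.val) ^ n) w = w := by
      intro n
      induction n with
      | zero => simp
      | succ n ih => rw [pow_succ, Module.End.mul_apply, hw, ih]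
    rw [LinearMap.sum_apply]
    simp_rw [h1]
    rw [Finset.sum_const, Finset.card_univ, ZMod.card, Nat.cast_smul_eq_nsmul]
  have hEker : ∀ (t t' : ZMod p) (w : V), t' ≠ t → w ∈ W' t' →
      (∑ k : ZMod p, (r x * r z ^ t.val) ^ k.val) w = 0 := by
    intro t t' w htt hw
    rw [hW'] at hw
    have h1 : ∀ n : ℕ, ((r x * r z ^ t'.val) ^ n) w = w := by
      intro n
      induction n with
      | zero => simp
      | succ n ih => rw [pow_succ, Module.End.mul_apply, hw, ih]
    have h2 : r x * r z ^ t.val = r z ^ (t - t').val * (r x * r z ^ t'.val) := by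
      have : t = (t - t') + t' := by ring
      conv_lhs => rw [this, pow_val_add p (r z) hZp]
      rw [← mul_assoc, ← mul_assoc, (hXZ.pow_right _).eq]
    have hcomm : Commute (r z ^ (t - t').val) (r x * r z ^ t'.val) := by
      apply Commute.mul_right
      · exact (hXZ.pow_right _).symm
      · exact (Commute.refl (r z)).pow_pow _ _
    have h3 : ∀ k : ZMod p, ((r x * r z ^ t.val) ^ k.val) w = (r z ^ ((t - t') * k).val) w := by
      intro k
      rw [h2, hcomm.mul_pow, Module.End.mul_apply, h1, pow_val_mul p (r z) hZp]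
    rw [LinearMap.sum_apply]
    simp_rw [h3]
    rw [← LinearMap.sum_apply]
    have h4 : ∑ k : ZMod p, r z ^ ((t - t') * k).val = ∑ s : ZMod p, r z ^ s.val := by
      have := sum_pow_mul_val p (r z) (t - t') (sub_ne_zero.2 (Ne.symm htt))
      rw [← this]
      exact Finset.sum_congr rfl (fun k _ => by rw [mul_comm])
    rw [h4, hN, LinearMap.zero_apply]
  have hind : iSupIndep W' := by
    intro t
    rw [Submodule.disjoint_def]
    intro w hw1 hw2
    have hle : (⨆ (j : ZMod p) (_ : j ≠ t), W' j) ≤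
        LinearMap.ker (∑ k : ZMod p, (r x * r z ^ t.val) ^ k.val) := by
      refine iSup₂_le (fun j hj => ?_)
      intro w' hw'
      rw [LinearMap.mem_ker]
      exact hEker t j w' hj hw'
    have h1 := hle hw2
    rw [LinearMap.mem_ker, hEfix t w hw1] at h1
    rcases smul_eq_zero.1 h1 with h | h
    · exact (hpq h).elim
    · exact h
  -- the exponent function
  have hx' : ∀ g : G, ∃ j : ZMod p, g * x * g⁻¹ = x * z ^ j.val := by
    intro g
    obtain ⟨j, hj⟩ := hx g
    refine ⟨(j : ZMod p), ?_⟩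
    rw [ZMod.val_natCast, pow_mod_eq p z hzp, hj]
  choose jf hjf using hx'
  have huniq : ∀ s t : ZMod p, x * z ^ s.val = x * z ^ t.val → s = t := by
    intro s t h
    have h1 := mul_left_cancel h
    apply ZMod.val_injective
    exact pow_injOn_Iio_orderOf (by rw [hzord]; exact ZMod.val_lt s)
      (by rw [hzord]; exact ZMod.val_lt t) h1
  have hjmul : ∀ g h : G, jf (g * h) = jf g + jf h := by
    intro g h
    apply huniq
    rw [← hjf (g * h), pow_val_add p z hzp]
    have hc : g⁻¹ * z ^ (jf h).val = z ^ (jf h).val * g⁻¹ := hzpow _ g⁻¹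
    calc g * h * x * (g * h)⁻¹ = g * (h * x * h⁻¹) * g⁻¹ := by group
      _ = g * (x * z ^ (jf h).val) * g⁻¹ := by rw [hjf h]
      _ = g * x * (z ^ (jf h).val * g⁻¹) := by simp only [mul_assoc]
      _ = g * x * (g⁻¹ * z ^ (jf h).val) := by rw [hc]
      _ = (g * x * g⁻¹) * z ^ (jf h).val := by simp only [mul_assoc]
      _ = x * (z ^ (jf g).val * z ^ (jf h).val) := by rw [hjf g, mul_assoc]
  let φ : G →* Multiplicative (ZMod p) :=
    MonoidHom.mk' (fun g => Multiplicative.ofAdd (jf g)) (fun a b => by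
      show Multiplicative.ofAdd (jf (a * b)) =
        Multiplicative.ofAdd (jf a) * Multiplicative.ofAdd (jf b)
      rw [hjmul, ofAdd_add])
  have hφ : ∀ g, g ∈ φ.ker ↔ jf g = 0 := by
    intro g
    rw [MonoidHom.mem_ker]
    show Multiplicative.ofAdd (jf g) = 1 ↔ _
    rw [ofAdd_eq_one]
  have hker : ∀ g, g ∈ φ.ker ↔ g * x = x * g := by
    intro g
    rw [hφ]
    constructor
    · intro h
      have := hjf g
      rw [h, ZMod.val_zero, pow_zero, mul_one] at this
      calc g * x = g * x * g⁻¹ * g := by group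
        _ = x * g := by rw [this]
    · intro h
      apply huniq
      rw [← hjf g, ZMod.val_zero, pow_zero, mul_one, h]
      group
  have hidx : φ.ker.index = p := by
    rw [Subgroup.index_ker]
    have h1 : Nat.card φ.range ∣ p := by
      have := Subgroup.card_subgroup_dvd_card φ.range
      rwa [Nat.card_eq_fintype_card (α := Multiplicative (ZMod p)), Fintype.card_multiplicative,
        ZMod.card] at this
    rcases (Nat.dvd_prime hp).1 h1 with h2 | h2
    · exfalso
      have h3 : φ.range = ⊥ := Subgroup.card_eq_one.1 h2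
      have h4 : ∀ g, g * x = x * g := by
        intro g
        rw [← hker, MonoidHom.mem_ker]
        have : φ g ∈ φ.range := ⟨g, rfl⟩
        rw [h3, Subgroup.mem_bot] at this
        exact this
      have h5 : ∀ t, W' t = ⊥ := by
        intro t
        rw [eq_bot_iff]
        intro v hv
        rw [Submodule.mem_bot]
        refine central_fix q ρ hρ hirr (x * z ^ t.val) ?_ (hb1 t) v hv
        intro g
        rw [← mul_assoc, h4 g, mul_assoc, hzpow, mul_assoc]
      have h6 : (⨆ t, W' t) = ⊥ := by simp [h5]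
      rw [hsup] at h6
      exact top_ne_bot h6
    · exact h2
  have hmap : ∀ (g : G) (t : ZMod p),
      (W' t).map (ρ g : V →ₗ[ZMod q] V) = W' (t + jf g) := by
    intro g t
    have e1 : g * x = x * z ^ (jf g).val * g := by rw [← hjf g]; group
    have hconj : (x * z ^ (t + jf g).val) * g = g * (x * z ^ t.val) := by
      calc x * z ^ (t + jf g).val * g = x * (z ^ (jf g).val * z ^ t.val) * g := by
            rw [add_comm, pow_val_add p z hzp]
        _ = x * z ^ (jf g).val * (z ^ t.val * g) := by simp only [mul_assoc]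
        _ = x * z ^ (jf g).val * (g * z ^ t.val) := by rw [← hzpow t.val g]
        _ = (x * z ^ (jf g).val * g) * z ^ t.val := by simp only [mul_assoc]
        _ = g * x * z ^ t.val := by rw [e1]
        _ = g * (x * z ^ t.val) := by rw [mul_assoc]
    have hconj' : (x * z ^ t.val) * g⁻¹ = g⁻¹ * (x * z ^ (t + jf g).val) := by
      calc (x * z ^ t.val) * g⁻¹ = g⁻¹ * (g * (x * z ^ t.val)) * g⁻¹ := by group
        _ = g⁻¹ * ((x * z ^ (t + jf g).val) * g) * g⁻¹ := by rw [hconj]
        _ = g⁻¹ * (x * z ^ (t + jf g).val) := by group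
    apply le_antisymm
    · rintro _ ⟨w, hw, rfl⟩
      show ρ (x * z ^ (t + jf g).val) (ρ g w) = ρ g w
      rw [← rho_mul, hconj, rho_mul]
      exact congrArg (ρ g) hw
    · intro w hw
      refine ⟨ρ g⁻¹ w, ?_, ?_⟩
      · show ρ (x * z ^ t.val) (ρ g⁻¹ w) = ρ g⁻¹ w
        rw [← rho_mul, hconj', rho_mul]
        exact congrArg (ρ g⁻¹) hw
      · show ρ g (ρ g⁻¹ w) = w
        rw [← rho_mul, mul_inv_cancel, map_one]; rfl
  let e : Fin p ≃ ZMod p := (Fintype.equivFinOfCardEq (ZMod.card p)).symm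
  refine ⟨φ.ker, fun i => W' (e i), hidx, ?_, ?_, ?_, ?_, ?_⟩
  · rw [← hsup]; exact e.iSup_comp (g := W')
  · exact hind.comp e.injective
  · intro h hh i w hw
    have h1 := (hker h).1 hh
    show ρ (x * z ^ (e i).val) (ρ h w) = ρ h w
    have h2 : x * z ^ (e i).val * h = h * (x * z ^ (e i).val) := by
      rw [mul_assoc, ← hzpow, ← mul_assoc, ← h1, mul_assoc]
    rw [← rho_mul, h2, rho_mul]
    exact congrArg (ρ h) hw
  · intro i
    refine ⟨x * z ^ (e i).val, ?_, hb1 _, fun w hw => hw⟩
    rw [hker]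
    rw [mul_assoc, ← hzpow, ← mul_assoc]
  · intro g hg
    have hj : jf g ≠ 0 := fun h => hg ((hφ g).2 h)
    let τ : Equiv.Perm (ZMod p) := Equiv.addRight (jf g)
    have hτ : ∀ s, τ s = s + jf g := fun s => rfl
    have hτpow : ∀ n : ℕ, ∀ s : ZMod p, (τ ^ n) s = s + n • jf g := by
      intro n
      induction n with
      | zero => intro s; simp
      | succ n ih =>
        intro s
        rw [pow_succ, Equiv.Perm.mul_apply, hτ, ih, succ_nsmul]
        abel
    have hτord : orderOf τ = p := by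
      apply orderOf_eq_prime
      · ext s
        rw [hτpow, nsmul_eq_mul, ZMod.natCast_self, zero_mul, add_zero]
        rfl
      · intro h
        have := congrArg (fun f : Equiv.Perm (ZMod p) => f 0) h
        simp only [hτ, zero_add, Equiv.Perm.coe_one, id_eq] at this
        exact hj this
    refine ⟨e.symm.permCongrHom τ, ?_, ?_⟩
    · rw [MulEquiv.orderOf_eq, hτord]
    · intro i
      rw [hmap]
      congr 1
      show e i + jf g = e (e.symm (τ (e.symm.symm i)))
      simp [hτ]

end Cfsg.Agent.Lib.helper24.Imprim
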