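import Mathlib

set_option autoImplicit false

namespace Cfsg.Agent.Lib.helper24.PiSimple

open scoped commutatorElement

universe u v

section
variable {ι : Type u} [Fintype ι] [DecidableEq ι] {T : Type v} [Group T]

theorem center_triv [IsSimpleGroup T] (hT : ¬ IsMulCommutative T) (x : T)
    (hx : ∀ y : T, y * x = x * y) : x = 1 := by
  have hxc : x ∈ Subgroup.center T := Subgroup.mem_center_iff.mpr hx
  rcases (inferInstance : (Subgroup.center T).Normal).eq_bot_or_eq_top with h | h
  · rw [h] at hxc; exact Subgroup.mem_bot.mp hxc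
  · exfalso; apply hT
    refine ⟨⟨fun a b => ?_⟩⟩
    have hb : b ∈ Subgroup.center T := by rw [h]; exact Subgroup.mem_top b
    exact (Subgroup.mem_center_iff.mp hb a)

theorem perfect [IsSimpleGroup T] (hT : ¬ IsMulCommutative T) (U : Subgroup T)
    (hU : ∀ a b : T, ⁅a, b⁆ ∈ U) : U = ⊤ := by
  have hc : commutator T ≤ U := by
    rw [commutator_def, Subgroup.commutator_le]
    intro a _ b _; exact hU a b
  have hn : (commutator T).Normal := by rw [commutator_def]; infer_instance
  rcases hn.eq_bot_or_eq_top with h | h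
  · exfalso; apply hT
    refine ⟨⟨fun a b => ?_⟩⟩
    have h1 : ⁅a, b⁆ ∈ commutator T := by
      rw [commutator_def]
      exact Subgroup.commutator_mem_commutator (Subgroup.mem_top a) (Subgroup.mem_top b)
    rw [h, Subgroup.mem_bot] at h1
    exact commutatorElement_eq_one_iff_mul_comm.mp h1
  · rw [h] at hc; exact top_le_iff.mp hc

theorem single_conj (g : ι → T) (i : ι) (t : T) :
    g * Pi.mulSingle i t * g⁻¹ = Pi.mulSingle i (g i * t * (g i)⁻¹) := by
  funext k
  by_cases hk : k = i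
  · subst hk; simp
  · simp [Pi.mulSingle_eq_of_ne hk]

theorem single_range_normal (i : ι) :
    ((MonoidHom.mulSingle (fun _ : ι => T) i).range).Normal := by
  constructor
  rintro _ ⟨t, rfl⟩ g
  exact ⟨g i * t * (g i)⁻¹, (single_conj g i t).symm⟩

theorem single_le_of_normal [IsSimpleGroup T] (hT : ¬ IsMulCommutative T)
    (L : Subgroup (ι → T)) (hL : L.Normal) (x : ι → T) (hx : x ∈ L) (j : ι) (hxj : x j ≠ 1)
    (t : T) : Pi.mulSingle j t ∈ L := by
  have hs : ∃ s : T, ⁅x j, s⁆ ≠ 1 := by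
    by_contra hcon
    push Not at hcon
    apply hxj
    apply center_triv hT
    intro y
    exact (commutatorElement_eq_one_iff_mul_comm.mp (hcon y)).symm
  obtain ⟨s, hs⟩ := hs
  let U : Subgroup T :=
    { carrier := {t | Pi.mulSingle j t ∈ L}
      mul_mem' := by
        intro a b ha hb
        show Pi.mulSingle j (a * b) ∈ L
        rw [Pi.mulSingle_mul]; exact L.mul_mem ha hb
      one_mem' := by
        show Pi.mulSingle j (1 : T) ∈ L
        rw [Pi.mulSingle_one]; exact L.one_mem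
      inv_mem' := by
        intro a ha
        show Pi.mulSingle j a⁻¹ ∈ L
        rw [Pi.mulSingle_inv]; exact L.inv_mem ha }
  have hUn : U.Normal := by
    constructor
    intro a ha g
    show Pi.mulSingle j (g * a * g⁻¹) ∈ L
    have e : Pi.mulSingle j (g * a * g⁻¹) =
        (Pi.mulSingle j g : ι → T) * Pi.mulSingle j a * (Pi.mulSingle j g)⁻¹ := by
      rw [← Pi.mulSingle_inv, ← Pi.mulSingle_mul, ← Pi.mulSingle_mul]
    rw [e]; exact hL.conj_mem _ ha _
  have hmem : ⁅x j, s⁆ ∈ U := by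
    show Pi.mulSingle j ⁅x j, s⁆ ∈ L
    have e : Pi.mulSingle j ⁅x j, s⁆ = ⁅x, (Pi.mulSingle j s : ι → T)⁆ := by
      funext k
      by_cases hk : k = j
      · subst hk; simp [commutatorElement_def]
      · simp [commutatorElement_def, Pi.mulSingle_eq_of_ne hk]
    rw [e, commutatorElement_def]
    have e2 : x * (Pi.mulSingle j s : ι → T) * x⁻¹ * (Pi.mulSingle j s : ι → T)⁻¹ =
        x * ((Pi.mulSingle j s : ι → T) * x⁻¹ * (Pi.mulSingle j s : ι → T)⁻¹) := by group
    rw [e2]; exact L.mul_mem hx (hL.conj_mem _ (L.inv_mem hx) _)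
  rcases hUn.eq_bot_or_eq_top with h | h
  · rw [h, Subgroup.mem_bot] at hmem; exact absurd hmem hs
  · have : t ∈ U := by rw [h]; exact Subgroup.mem_top t
    exact this

theorem exists_single_image [IsSimpleGroup T] (hT : ¬ IsMulCommutative T)
    (γ : (ι → T) ≃* (ι → T)) (i : ι) :
    ∃ j : ι, (∀ t : T, ∃ t' : T, γ (Pi.mulSingle i t) = Pi.mulSingle j t') ∧
      (∀ t' : T, ∃ t : T, γ (Pi.mulSingle i t) = Pi.mulSingle j t') := by
  have hnt : Nontrivial T := IsSimpleGroup.toNontrivial
  obtain ⟨t₀, ht₀⟩ := exists_ne (1 : T)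
  let L : Subgroup (ι → T) :=
    ((MonoidHom.mulSingle (fun _ : ι => T) i).range).map γ.toMonoidHom
  have hLn : L.Normal := (single_range_normal i).map γ.toMonoidHom γ.surjective
  have hLmem : ∀ t, γ (Pi.mulSingle i t) ∈ L := fun t => ⟨_, ⟨t, rfl⟩, rfl⟩
  have hLel : ∀ y ∈ L, ∃ t, γ (Pi.mulSingle i t) = y := by
    rintro _ ⟨_, ⟨t, rfl⟩, rfl⟩
    exact ⟨t, rfl⟩
  have hx0 : γ (Pi.mulSingle i t₀) ≠ 1 := by
    intro h
    have h1 : Pi.mulSingle i t₀ = (1 : ι → T) := γ.injective (by rw [h, map_one])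
    have := congrFun h1 i
    simp at this; exact ht₀ this
  obtain ⟨j, hj⟩ : ∃ j, γ (Pi.mulSingle i t₀) j ≠ 1 := by
    by_contra hcon; push Not at hcon
    exact hx0 (funext hcon)
  have hTj : ∀ t', Pi.mulSingle j t' ∈ L := fun t' =>
    single_le_of_normal hT L hLn _ (hLmem t₀) j hj t'
  let L' : Subgroup (ι → T) :=
    ((MonoidHom.mulSingle (fun _ : ι => T) j).range).map γ.symm.toMonoidHom
  have hL'n : L'.Normal := (single_range_normal j).map γ.symm.toMonoidHom γ.symm.surjective
  have hL'le : ∀ y ∈ L', ∃ t, y = Pi.mulSingle i t := by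
    rintro _ ⟨_, ⟨t', rfl⟩, rfl⟩
    obtain ⟨t, h2⟩ := hLel _ (hTj t')
    refine ⟨t, ?_⟩
    show γ.symm (Pi.mulSingle j t') = Pi.mulSingle i t
    rw [← h2]; exact γ.symm_apply_apply _
  have hy0 : γ.symm (Pi.mulSingle j t₀) ∈ L' := ⟨_, ⟨t₀, rfl⟩, rfl⟩
  obtain ⟨u, hu⟩ := hL'le _ hy0
  have hu1 : u ≠ 1 := by
    rintro rfl
    rw [Pi.mulSingle_one] at hu
    have h1 : Pi.mulSingle j t₀ = (1 : ι → T) := γ.symm.injective (by rw [hu, map_one])
    have := congrFun h1 j
    simp at this; exact ht₀ this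
  have hTi : ∀ t, Pi.mulSingle i t ∈ L' := fun t =>
    single_le_of_normal hT L' hL'n _ hy0 i (by rw [hu]; simpa using hu1) t
  refine ⟨j, fun t => ?_, fun t' => ?_⟩
  · obtain ⟨_, ⟨t', rfl⟩, h2⟩ := hTi t
    refine ⟨t', ?_⟩
    have h3 : γ.symm (Pi.mulSingle j t') = Pi.mulSingle i t := h2
    rw [← h3]; exact γ.apply_symm_apply _
  · exact hLel _ (hTj t')

theorem aut_structure [IsSimpleGroup T] (hT : ¬ IsMulCommutative T)
    (γ : (ι → T) ≃* (ι → T)) :
    ∃ (σ : ι → ι) (φ : ι → T → T), Function.Bijective σ ∧ (∀ i, Function.Bijective (φ i)) ∧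
      (∀ i, φ i 1 = 1) ∧ (∀ i t, γ (Pi.mulSingle i t) = Pi.mulSingle (σ i) (φ i t)) ∧
      ∀ (x : ι → T) (i : ι), γ x (σ i) = φ i (x i) := by
  choose σ h1 h2 using exists_single_image hT γ
  choose φ hφ using h1
  have hφinj : ∀ i, Function.Injective (φ i) := by
    intro i t t' htt
    have h3 : γ (Pi.mulSingle i t) = γ (Pi.mulSingle i t') := by rw [hφ, hφ, htt]
    have h4 := congrFun (γ.injective h3) i
    simpa using h4
  have hφsurj : ∀ i, Function.Surjective (φ i) := by
    intro i t'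
    obtain ⟨t, ht⟩ := h2 i t'
    refine ⟨t, ?_⟩
    rw [hφ] at ht
    have h3 := congrFun ht (σ i)
    simpa using h3
  have hφ1 : ∀ i, φ i 1 = 1 := by
    intro i
    have h3 := hφ i 1
    rw [Pi.mulSingle_one, map_one] at h3
    have h4 := congrFun h3 (σ i)
    simpa using h4.symm
  have hσinj : Function.Injective σ := by
    intro i i' hii
    by_contra hne
    apply hT
    refine ⟨⟨fun a b => ?_⟩⟩
    obtain ⟨t, rfl⟩ := hφsurj i a
    obtain ⟨t', rfl⟩ := hφsurj i' b
    have hc : (Pi.mulSingle i t : ι → T) * Pi.mulSingle i' t' =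
        Pi.mulSingle i' t' * Pi.mulSingle i t :=
      (Pi.mulSingle_commute (f := fun _ : ι => T) hne t t').eq
    have h3 := congrArg γ hc
    rw [map_mul, map_mul, hφ, hφ, ← hii] at h3
    have h4 := congrFun h3 (σ i)
    simpa using h4
  have hσ : Function.Bijective σ := ⟨hσinj, Finite.surjective_of_injective hσinj⟩
  refine ⟨σ, φ, hσ, fun i => ⟨hφinj i, hφsurj i⟩, hφ1, hφ, ?_⟩
  intro x i
  have hx : x = Pi.mulSingle i (x i) * Function.update x i 1 := by
    funext k
    by_cases hk : k = i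
    · subst hk; simp
    · simp [Pi.mulSingle_eq_of_ne hk, Function.update_of_ne hk]
  have h3 : γ (Function.update x i 1) (σ i) = 1 := by
    apply center_triv hT
    intro y
    obtain ⟨t, rfl⟩ := hφsurj i y
    have hc : (Pi.mulSingle i t : ι → T) * Function.update x i 1 =
        Function.update x i 1 * Pi.mulSingle i t := by
      funext k
      by_cases hk : k = i
      · subst hk; simp
      · simp [Pi.mulSingle_eq_of_ne hk]
    have h4 := congrArg γ hc
    rw [map_mul, map_mul, hφ] at h4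
    have h5 := congrFun h4 (σ i)
    simpa using h5
  conv_lhs => rw [hx]
  rw [map_mul, hφ]
  simp [h3]

end

section scott
variable {ι : Type u} [Fintype ι] [DecidableEq ι] {T : Type v} [Group T]

/-- the `j`-coordinate is determined by the `i`-coordinate on `S`. -/
def rel (S : Subgroup (ι → T)) (i j : ι) : Prop := ∀ s ∈ S, s i = 1 → s j = 1

theorem rel_refl (S : Subgroup (ι → T)) (i : ι) : rel S i i := fun _ _ h => h

theorem rel_trans (S : Subgroup (ι → T)) {i j k : ι} (h1 : rel S i j) (h2 : rel S j k) :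
    rel S i k := fun s hs h => h2 s hs (h1 s hs h)

def slice (S : Subgroup (ι → T)) (i j : ι) : Subgroup T where
  carrier := {t | ∃ s ∈ S, s i = 1 ∧ s j = t}
  mul_mem' := by
    rintro a b ⟨s, hs, h1, rfl⟩ ⟨s', hs', h1', rfl⟩
    exact ⟨s * s', S.mul_mem hs hs', by simp [h1, h1'], rfl⟩
  one_mem' := ⟨1, S.one_mem, rfl, rfl⟩
  inv_mem' := by
    rintro a ⟨s, hs, h1, rfl⟩
    exact ⟨s⁻¹, S.inv_mem hs, by simp [h1], rfl⟩

theorem slice_normal (S : Subgroup (ι → T)) (hsurj : ∀ (i : ι) (t : T), ∃ s ∈ S, s i = t)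
    (i j : ι) : (slice S i j).Normal := by
  constructor
  rintro a ⟨s, hs, h1, rfl⟩ g
  obtain ⟨z, hz, rfl⟩ := hsurj j g
  exact ⟨z * s * z⁻¹, S.mul_mem (S.mul_mem hz hs) (S.inv_mem hz), by simp [h1], rfl⟩

theorem slice_eq_bot_iff (S : Subgroup (ι → T)) (i j : ι) : slice S i j = ⊥ ↔ rel S i j := by
  constructor
  · intro h s hs hsi
    have h1 : s j ∈ slice S i j := ⟨s, hs, hsi, rfl⟩
    rw [h, Subgroup.mem_bot] at h1; exact h1
  · intro h
    rw [eq_bot_iff]
    rintro t ⟨s, hs, hsi, rfl⟩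
    rw [Subgroup.mem_bot]; exact h s hs hsi

theorem rel_symm [IsSimpleGroup T] (S : Subgroup (ι → T))
    (hsurj : ∀ (i : ι) (t : T), ∃ s ∈ S, s i = t) {i j : ι} (h : rel S i j) : rel S j i := by
  have hnt : Nontrivial T := IsSimpleGroup.toNontrivial
  rcases (slice_normal S hsurj j i).eq_bot_or_eq_top with h0 | h0
  · exact (slice_eq_bot_iff S j i).mp h0
  · exfalso
    obtain ⟨u, hu⟩ := exists_ne (1 : T)
    obtain ⟨z, hz, hzj⟩ := hsurj j u
    have h1 : z i ∈ slice S j i := by rw [h0]; exact Subgroup.mem_top _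
    obtain ⟨s, hs, hsj, hsi⟩ := h1
    have hw : (s⁻¹ * z) j = 1 :=
      h (s⁻¹ * z) (S.mul_mem (S.inv_mem hs) hz) (by simp [hsi])
    apply hu
    rw [← hzj]
    simpa [hsj] using hw

theorem nonrel_full [IsSimpleGroup T] (S : Subgroup (ι → T))
    (hsurj : ∀ (i : ι) (t : T), ∃ s ∈ S, s i = t) {i j : ι} (h : ¬ rel S i j) (b : T) :
    ∃ y ∈ S, y i = 1 ∧ y j = b := by
  rcases (slice_normal S hsurj i j).eq_bot_or_eq_top with h0 | h0
  · exact absurd ((slice_eq_bot_iff S i j).mp h0) h
  · have h1 : b ∈ slice S i j := by rw [h0]; exact Subgroup.mem_top b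
    exact h1

theorem exists_diag [IsSimpleGroup T] (hT : ¬ IsMulCommutative T) (S : Subgroup (ι → T))
    (hsurj : ∀ (i : ι) (t : T), ∃ s ∈ S, s i = t) (i : ι) (J : Finset ι)
    (hJ : ∀ j ∈ J, ¬ rel S i j) :
    ∀ a : T, ∃ x ∈ S, x i = a ∧ ∀ j ∈ J, x j = 1 := by
  induction J using Finset.induction_on with
  | empty =>
    intro a
    obtain ⟨s, hs, h⟩ := hsurj i a
    exact ⟨s, hs, h, by simp⟩
  | insert j₀ J hj₀ ih =>
    have ih' := ih (fun j hj => hJ j (Finset.mem_insert_of_mem hj))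
    have hnr : ¬ rel S j₀ i := fun h =>
      hJ j₀ (Finset.mem_insert_self _ _) (rel_symm S hsurj h)
    let U : Subgroup T :=
      { carrier := {a | ∃ x ∈ S, x i = a ∧ ∀ j ∈ insert j₀ J, x j = 1}
        mul_mem' := by
          rintro a b ⟨x, hx, rfl, h1⟩ ⟨y, hy, rfl, h2⟩
          exact ⟨x * y, S.mul_mem hx hy, rfl, fun j hj => by simp [h1 j hj, h2 j hj]⟩
        one_mem' := ⟨1, S.one_mem, rfl, fun _ _ => rfl⟩
        inv_mem' := by
          rintro a ⟨x, hx, rfl, h1⟩
          exact ⟨x⁻¹, S.inv_mem hx, rfl, fun j hj => by simp [h1 j hj]⟩ }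
    have hU : U = ⊤ := by
      apply perfect hT
      intro a b
      obtain ⟨x, hx, hxi, hxJ⟩ := ih' a
      obtain ⟨y, hy, hyj, hyi⟩ := nonrel_full S hsurj hnr b
      refine ⟨⁅x, y⁆, ?_, ?_, ?_⟩
      · rw [commutatorElement_def]
        exact S.mul_mem (S.mul_mem (S.mul_mem hx hy) (S.inv_mem hx)) (S.inv_mem hy)
      · simp [commutatorElement_def, hxi, hyi]
      · intro j hj
        rcases Finset.mem_insert.mp hj with rfl | hj
        · simp [commutatorElement_def, hyj]
        · simp [commutatorElement_def, hxJ j hj]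
    intro a
    have h1 : a ∈ U := by rw [hU]; exact Subgroup.mem_top a
    exact h1

theorem mem_of_diag [IsSimpleGroup T] (hT : ¬ IsMulCommutative T) (S : Subgroup (ι → T))
    (hsurj : ∀ (i : ι) (t : T), ∃ s ∈ S, s i = t) (c : ι → ι) (θ : ι → T ≃* T)
    (hc : ∀ i j, c i = c j ↔ rel S i j) (hcc : ∀ i, rel S i (c i))
    (hθ : ∀ s ∈ S, ∀ i, s i = θ i (s (c i))) :
    ∀ x : ι → T, (∀ i, x i = θ i (x (c i))) → x ∈ S := by
  classical
  have hcci : ∀ i, c (c i) = c i := fun i => ((hc i (c i)).mpr (hcc i)).symm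
  have key : ∀ n : ℕ, ∀ x : ι → T, (Finset.univ.filter (fun i => x i ≠ 1)).card = n →
      (∀ i, x i = θ i (x (c i))) → x ∈ S := by
    intro n
    induction n using Nat.strong_induction_on with
    | _ n ih =>
      intro x hn hx
      by_cases h1 : x = 1
      · rw [h1]; exact S.one_mem
      · obtain ⟨i, hi⟩ : ∃ i, x i ≠ 1 := by
          by_contra hcon; push Not at hcon; exact h1 (funext hcon)
        have hxr : x (c i) ≠ 1 := by
          intro h; apply hi; rw [hx i, h, map_one]
        obtain ⟨d, hd, hdr, hdJ⟩ := exists_diag hT S hsurj (c i)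
          (Finset.univ.filter (fun j => ¬ rel S (c i) j))
          (fun j hj => (Finset.mem_filter.mp hj).2) (x (c i))
        have hdθ := hθ d hd
        have hyθ : ∀ k, (d⁻¹ * x) k = θ k ((d⁻¹ * x) (c k)) := by
          intro k
          simp only [Pi.mul_apply, Pi.inv_apply, map_mul, map_inv]
          rw [← hdθ k, ← hx k]
        have hy1 : ∀ k, rel S (c i) k → (d⁻¹ * x) k = 1 := by
          intro k hk
          have hck : c k = c i := by
            have h2 : c (c i) = c k := (hc (c i) k).mpr hk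
            rw [← h2, hcci]
          simp only [Pi.mul_apply, Pi.inv_apply]
          rw [hdθ k, hx k, hck, hdr]
          simp
        have hsub : (Finset.univ.filter (fun k => (d⁻¹ * x) k ≠ 1)) ⊂
            (Finset.univ.filter (fun k => x k ≠ 1)) := by
          rw [Finset.ssubset_iff_of_subset]
          · refine ⟨c i, by simp [hxr], ?_⟩
            simp only [Finset.mem_filter, Finset.mem_univ, true_and, not_not]
            exact hy1 (c i) (rel_refl S (c i))
          · intro k hk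
            simp only [Finset.mem_filter, Finset.mem_univ, true_and] at hk ⊢
            by_cases hrk : rel S (c i) k
            · exact absurd (hy1 k hrk) hk
            · have h2 : d k = 1 := hdJ k (by simp [hrk])
              have h3 : (d⁻¹ * x) k = x k := by simp [h2]
              rwa [h3] at hk
        have hlt := Finset.card_lt_card hsub
        rw [hn] at hlt
        have hyS := ih _ hlt (d⁻¹ * x) rfl hyθ
        have h4 : x = d * (d⁻¹ * x) := by simp
        rw [h4]; exact S.mul_mem hd hyS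
  intro x hx
  exact key _ x rfl hx

theorem exists_theta (S : Subgroup (ι → T)) (hsurj : ∀ (i : ι) (t : T), ∃ s ∈ S, s i = t)
    (r i : ι) (h1 : rel S r i) (h2 : rel S i r) :
    ∃ θ : T ≃* T, ∀ s ∈ S, s i = θ (s r) := by
  classical
  choose f hfS hfr using hsurj r
  have key : ∀ s ∈ S, (f (s r)) i = s i := by
    intro s hs
    have h3 : ((f (s r))⁻¹ * s) i = 1 :=
      h1 _ (S.mul_mem (S.inv_mem (hfS _)) hs) (by simp [hfr])
    have h4 : (f (s r) i)⁻¹ * s i = 1 := by simpa using h3
    exact inv_mul_eq_one.mp h4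
  let g : T →* T := MonoidHom.mk' (fun t => f t i) (by
    intro a b
    have h3 := key (f a * f b) (S.mul_mem (hfS a) (hfS b))
    simp only [Pi.mul_apply, hfr] at h3
    exact h3)
  have hg : ∀ s ∈ S, g (s r) = s i := key
  have hinj : Function.Injective g := by
    rw [injective_iff_map_eq_one]
    intro t ht
    have h3 : f t r = 1 := h2 _ (hfS t) ht
    rw [hfr] at h3; exact h3
  have hsur : Function.Surjective g := by
    intro u
    obtain ⟨s, hs, hsi⟩ := hsurj i u
    exact ⟨s r, by rw [hg s hs, hsi]⟩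
  exact ⟨MulEquiv.ofBijective g ⟨hinj, hsur⟩, fun s hs => (hg s hs).symm⟩

end scott

end Cfsg.Agent.Lib.helper24.PiSimple
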