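import Mathlib
import Cfsg.Agent.Lib.helper24.PiSimple
import Cfsg.Agent.S0722

set_option autoImplicit false
set_option maxHeartbeats 1600000

namespace Cfsg.Agent.Lib.helper24.OnanScott

open Cfsg.Agent.Lib.helper24.PiSimple

universe u

theorem onan_scott {α : Type u} [Finite α] (H : Subgroup (Equiv.Perm α))
    [MulAction.IsPreprimitive H α] (N : Subgroup H) [N.Normal] (hN : N ≠ ⊥)
    (hmin : ∀ M : Subgroup H, M.Normal → M ≤ N → M = ⊥ ∨ M = N)
    (hnab : ¬ IsMulCommutative N) (a : α)
    (T : Type) [Group T] [IsSimpleGroup T] (m : ℕ) (hm : 0 < m) (e₀ : N ≃* (Fin m → T)) :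
    ¬ IsMulCommutative T ∧ ∃ e : N ≃* (Fin m → T),
      ((∃ K : Fin m → Subgroup T, (∀ i, K i ≠ ⊤) ∧
          ∀ n : N, (n : H) ∈ MulAction.stabilizer H a ↔ ∀ i, e n i ∈ K i) ∨
        (∃ (k : ℕ) (c : Fin m → Fin m), 2 ≤ k ∧
          (∀ j : Fin m, Nat.card {i : Fin m // c i = j} = k ∨
            Nat.card {i : Fin m // c i = j} = 0) ∧
          ∀ n : N, (n : H) ∈ MulAction.stabilizer H a ↔
            ∀ i j : Fin m, c i = c j → e n i = e n j)) := by
  classical
  have hT : ¬ IsMulCommutative T := by
    intro hTc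
    apply hnab
    refine ⟨⟨fun x y => ?_⟩⟩
    apply e₀.injective
    rw [map_mul, map_mul]
    funext i
    exact hTc.is_comm.comm _ _
  refine ⟨hT, ?_⟩
  have hnt : Nontrivial T := IsSimpleGroup.toNontrivial
  have hne : Nonempty (Fin m) := ⟨⟨0, hm⟩⟩
  obtain ⟨t₀, ht₀⟩ := exists_ne (1 : T)
  -- N is transitive
  have hNt : MulAction.IsPretransitive N α := by
    apply MulAction.IsQuasiPreprimitive.isPretransitive_of_normal (G := H)
    intro hfix
    apply hN
    rw [eq_bot_iff]
    intro n hn
    rw [Subgroup.mem_bot]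
    apply Subtype.ext
    apply Equiv.ext
    intro x
    have hx : x ∈ MulAction.fixedPoints N α := by rw [hfix]; exact Set.mem_univ x
    exact hx ⟨n, hn⟩
  have hNa : ∀ n : N, n ∈ (MulAction.stabilizer H a).subgroupOf N ↔
      (n : H) ∈ MulAction.stabilizer H a := fun n => Subgroup.mem_subgroupOf
  let S : Subgroup (Fin m → T) := ((MulAction.stabilizer H a).subgroupOf N).map e₀.toMonoidHom
  have hS : ∀ n : N, e₀ n ∈ S ↔ (n : H) ∈ MulAction.stabilizer H a := by
    intro n
    rw [← hNa]
    constructor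
    · rintro ⟨n', hn', h⟩
      have h1 : n' = n := e₀.injective h
      rw [← h1]; exact hn'
    · intro h; exact ⟨n, h, rfl⟩
  let γ : H → ((Fin m → T) ≃* (Fin m → T)) := fun h =>
    e₀.symm.trans ((MulAut.conjNormal h : N ≃* N).trans e₀)
  have hγ : ∀ (h : H) (n : N), γ h (e₀ n) = e₀ (MulAut.conjNormal h n) := by
    intro h n; simp [γ]
  have hγ' : ∀ (h : H) (x : Fin m → T), γ h x = e₀ (MulAut.conjNormal h (e₀.symm x)) := by
    intro h x; simp [γ]
  have hγmul : ∀ (h h' : H) (x : Fin m → T), γ (h * h') x = γ h (γ h' x) := by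
    intro h h' x
    rw [hγ', hγ', hγ', map_mul]
    simp
  have hγone : ∀ x : Fin m → T, γ 1 x = x := by
    intro x
    rw [hγ', map_one]
    simp
  have hγS : ∀ h ∈ MulAction.stabilizer H a, ∀ x ∈ S, γ h x ∈ S := by
    intro h hh x hx
    obtain ⟨n, rfl⟩ := e₀.surjective x
    rw [hγ, hS, MulAut.conjNormal_apply]
    exact Subgroup.mul_mem _ (Subgroup.mul_mem _ hh ((hS n).mp hx)) (Subgroup.inv_mem _ hh)
  have hγN : ∀ (n : N) (x : Fin m → T), γ (n : H) x = e₀ n * x * (e₀ n)⁻¹ := by
    intro n x
    obtain ⟨n', rfl⟩ := e₀.surjective x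
    rw [hγ, ← map_inv, ← map_mul, ← map_mul]
    refine congrArg e₀ (Subtype.ext ?_)
    rw [MulAut.conjNormal_apply]; simp
  have hA := fun h : H => aut_structure hT (γ h)
  choose σ φ hσ hφ hφ1 hφs hform using hA
  have hσN : ∀ (n : N) (i : Fin m), σ (n : H) i = i := by
    intro n i
    by_contra hne'
    have h1 := hφs (n : H) i t₀
    rw [hγN, single_conj] at h1
    have h2 := congrFun h1 i
    rw [Pi.mulSingle_eq_same, Pi.mulSingle_eq_of_ne (fun h => hne' h.symm)] at h2
    apply ht₀
    simpa using h2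
  have single_inj : ∀ (j j' : Fin m) (u u' : T), u ≠ 1 →
      Pi.mulSingle j u = (Pi.mulSingle j' u' : Fin m → T) → j = j' := by
    intro j j' u u' hu h
    by_contra hne'
    have h1 := congrFun h j
    rw [Pi.mulSingle_eq_same, Pi.mulSingle_eq_of_ne hne'] at h1
    exact hu h1
  have hφne : ∀ (h : H) (i : Fin m) (t : T), t ≠ 1 → φ h i t ≠ 1 := by
    intro h i t ht hcon
    apply ht
    apply (hφ h i).1
    rw [hcon, hφ1]
  have hσmul : ∀ (h h' : H) (i : Fin m), σ (h * h') i = σ h (σ h' i) := by
    intro h h' i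
    have h1 := hφs (h * h') i t₀
    rw [hγmul, hφs, hφs] at h1
    exact (single_inj _ _ _ _ (hφne _ _ _ (hφne _ _ _ ht₀)) h1).symm
  -- transitivity of H on coordinates
  have htransH : ∀ i j : Fin m, ∃ h : H, σ h i = j := by
    intro i j
    by_contra hcon
    push Not at hcon
    let W : Set H := {w | ∃ t : T, w = ((e₀.symm (Pi.mulSingle i t) : N) : H)}
    have hWN : W ⊆ (N : Set H) := by
      rintro _ ⟨t, rfl⟩; exact (e₀.symm _).2
    have hcl : Subgroup.normalClosure W = N := by
      rcases hmin _ Subgroup.normalClosure_normal (Subgroup.normalClosure_le_normal hWN) with h | h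
      · exfalso
        have hw : ((e₀.symm (Pi.mulSingle i t₀) : N) : H) ∈ Subgroup.normalClosure W :=
          Subgroup.subset_normalClosure ⟨t₀, rfl⟩
        rw [h, Subgroup.mem_bot] at hw
        have h1 : e₀.symm (Pi.mulSingle i t₀) = 1 := Subtype.ext hw
        have h2 : (Pi.mulSingle i t₀ : Fin m → T) = 1 := by
          have h3 := congrArg e₀ h1
          simpa using h3
        have h4 := congrFun h2 i
        simp at h4; exact ht₀ h4
      · exact h
    let VN : Subgroup N :=
      { carrier := {n | e₀ n j = 1}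
        mul_mem' := by
          intro x y hx hy
          show e₀ (x * y) j = 1
          rw [map_mul, Pi.mul_apply, show e₀ x j = 1 from hx, show e₀ y j = 1 from hy, mul_one]
        one_mem' := by show e₀ 1 j = 1; rw [map_one]; rfl
        inv_mem' := by
          intro x hx
          show e₀ x⁻¹ j = 1
          rw [map_inv, Pi.inv_apply, show e₀ x j = 1 from hx, inv_one] }
    have hV : ∀ n : N, (n : H) ∈ VN.map N.subtype ↔ e₀ n j = 1 := by
      intro n
      constructor
      · rintro ⟨n', hn', h⟩
        have h1 : n' = n := Subtype.ext h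
        subst h1
        exact hn'
      · intro h; exact ⟨n, h, rfl⟩
    have hle : Subgroup.normalClosure W ≤ VN.map N.subtype := by
      show Subgroup.closure (Group.conjugatesOfSet W) ≤ _
      rw [Subgroup.closure_le]
      intro y hy
      obtain ⟨w, ⟨t, rfl⟩, hcj⟩ := Group.mem_conjugatesOfSet_iff.mp hy
      obtain ⟨g, rfl⟩ := isConj_iff.mp hcj
      have e1 : g * ((e₀.symm (Pi.mulSingle i t) : N) : H) * g⁻¹ =
          ((MulAut.conjNormal g (e₀.symm (Pi.mulSingle i t)) : N) : H) :=
        (MulAut.conjNormal_apply g _).symm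
      rw [SetLike.mem_coe, e1, hV, ← hγ', hφs, Pi.mulSingle_eq_of_ne (Ne.symm (hcon g))]
    rw [hcl] at hle
    have h5 := (hV (e₀.symm (Pi.mulSingle j t₀))).mp (hle (e₀.symm (Pi.mulSingle j t₀)).2)
    simp at h5
    exact ht₀ h5
  have htrans : ∀ i j : Fin m, ∃ h ∈ MulAction.stabilizer H a, σ h i = j := by
    intro i j
    obtain ⟨h, hh⟩ := htransH i j
    obtain ⟨n, hn⟩ := MulAction.exists_smul_eq N a (h • a)
    refine ⟨(n : H)⁻¹ * h, ?_, ?_⟩
    · rw [MulAction.mem_stabilizer_iff, mul_smul, ← hn]
      exact inv_smul_smul (n : H) a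
    · have h1 : σ ((n : H) * ((n : H)⁻¹ * h)) i = j := by
        rw [mul_inv_cancel_left]; exact hh
      rw [hσmul, hσN] at h1
      exact h1
  let R : Fin m → Subgroup T := fun i => S.map (Pi.evalMonoidHom (fun _ : Fin m => T) i)
  have hR : ∀ (i : Fin m) (t : T), t ∈ R i ↔ ∃ s ∈ S, s i = t := fun i t => Iff.rfl
  have hRmap : ∀ h ∈ MulAction.stabilizer H a, ∀ (i : Fin m) (t : T), t ∈ R i →
      φ h i t ∈ R (σ h i) := by
    intro h hh i t ht
    obtain ⟨s, hs, rfl⟩ := (hR i t).mp ht
    exact (hR _ _).mpr ⟨γ h s, hγS h hh s hs, hform h s i⟩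
  by_cases hall : ∀ i, R i = ⊤
  · -- diagonal case
    have hsurj : ∀ (i : Fin m) (t : T), ∃ s ∈ S, s i = t := by
      intro i t
      have h1 : t ∈ R i := by rw [hall i]; exact Subgroup.mem_top t
      exact (hR i t).mp h1
    let c : Fin m → Fin m := fun i => Classical.epsilon (fun j => rel S i j)
    have hcc : ∀ i, rel S i (c i) := fun i =>
      Classical.epsilon_spec (p := fun j => rel S i j) ⟨i, rel_refl S i⟩
    have hc : ∀ i j, c i = c j ↔ rel S i j := by
      intro i j
      constructor
      · intro h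
        have h1 : rel S i (c j) := h ▸ hcc i
        exact rel_trans S h1 (rel_symm S hsurj (hcc j))
      · intro h
        have h1 : (fun k => rel S i k) = (fun k => rel S j k) := by
          funext k
          apply propext
          constructor
          · intro hik; exact rel_trans S (rel_symm S hsurj h) hik
          · intro hjk; exact rel_trans S h hjk
        show Classical.epsilon (fun k => rel S i k) = Classical.epsilon (fun k => rel S j k)
        rw [h1]
    have hθex : ∀ i, ∃ θ : T ≃* T, ∀ s ∈ S, s i = θ (s (c i)) := fun i =>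
      exists_theta S hsurj (c i) i (rel_symm S hsurj (hcc i)) (hcc i)
    choose θ hθ using hθex
    have hθ' : ∀ s ∈ S, ∀ i, s i = θ i (s (c i)) := fun s hs i => hθ i s hs
    have hSchar : ∀ x : Fin m → T, x ∈ S ↔ ∀ i, x i = θ i (x (c i)) := by
      intro x
      exact ⟨fun hx i => hθ i x hx, mem_of_diag hT S hsurj c θ hc hcc hθ' x⟩
    have hcci : ∀ i, c (c i) = c i := fun i => ((hc i (c i)).mpr (hcc i)).symm
    have hθid : ∀ i t, θ (c i) t = t := by
      intro i t
      obtain ⟨s, hs, rfl⟩ := hsurj (c i) t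
      have h1 := hθ (c i) s hs
      rw [hcci] at h1
      exact h1.symm
    have hrelσ : ∀ h ∈ MulAction.stabilizer H a, ∀ i j, rel S i j →
        rel S (σ h i) (σ h j) := by
      intro h hh i j hij s hs hsi
      have hx : γ h⁻¹ s ∈ S := hγS h⁻¹ (Subgroup.inv_mem _ hh) s hs
      have hs' : γ h (γ h⁻¹ s) = s := by
        rw [← hγmul, mul_inv_cancel, hγone]
      have h1 : φ h i ((γ h⁻¹ s) i) = 1 := by
        rw [← hform, hs']; exact hsi
      have h2 : (γ h⁻¹ s) i = 1 := by
        apply (hφ h i).1
        rw [h1, hφ1]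
      have h3 := hij _ hx h2
      have h4 : γ h (γ h⁻¹ s) (σ h j) = 1 := by rw [hform, h3, hφ1]
      rw [hs'] at h4
      exact h4
    have hblock : ∀ i₁ i₂ : Fin m, Nat.card {i : Fin m // c i = c i₁} ≤
        Nat.card {i : Fin m // c i = c i₂} := by
      intro i₁ i₂
      obtain ⟨h, hh, hσh⟩ := htrans i₁ i₂
      apply Nat.card_le_card_of_injective (fun i : {i : Fin m // c i = c i₁} =>
        (⟨σ h i.1, by
          have h1 : rel S i₁ i.1 := (hc i₁ i.1).mp i.2.symm
          have h2 := hrelσ h hh i₁ i.1 h1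
          rw [hσh] at h2
          exact ((hc i₂ (σ h i.1)).mpr h2).symm⟩ : {i : Fin m // c i = c i₂}))
      intro x y hxy
      apply Subtype.ext
      apply (hσ h).1
      exact congrArg Subtype.val hxy
    let i₁ : Fin m := ⟨0, hm⟩
    let e : N ≃* (Fin m → T) := e₀.trans (MulEquiv.piCongrRight (fun i => (θ i).symm))
    have he : ∀ (n : N) (i : Fin m), e n i = (θ i).symm (e₀ n i) := by
      intro n i; rfl
    have hfinal : ∀ n : N, (n : H) ∈ MulAction.stabilizer H a ↔
        ∀ i j : Fin m, c i = c j → e n i = e n j := by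
      intro n
      rw [← hS, hSchar]
      constructor
      · intro hx i j hij
        rw [he, he, hx i, hx j, hij]
        simp
      · intro hx i
        have h1 := hx i (c i) (hcci i).symm
        rw [he, he] at h1
        have h2 : (θ (c i)).symm (e₀ n (c i)) = e₀ n (c i) := by
          rw [MulEquiv.symm_apply_eq, hθid]
        rw [h2] at h1
        rw [← h1]; simp
    refine ⟨e, Or.inr ⟨Nat.card {i : Fin m // c i = c i₁}, c, ?_, ?_, hfinal⟩⟩
    · by_contra hk
      have hk1 : Nat.card {i : Fin m // c i = c i₁} ≤ 1 := by omega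
      have hcinj : ∀ i j, c i = c j → i = j := by
        intro i j hij
        have h1 : Nat.card {x : Fin m // c x = c i} ≤ 1 := (hblock i i₁).trans hk1
        have h2 : Subsingleton {x : Fin m // c x = c i} :=
          Finite.card_le_one_iff_subsingleton.mp h1
        have h3 := h2.elim ⟨i, rfl⟩ ⟨j, hij.symm⟩
        exact congrArg Subtype.val h3
      have hall' : ∀ n : N, (n : H) ∈ MulAction.stabilizer H a := by
        intro n
        rw [hfinal]
        intro i j hij
        rw [hcinj i j hij]
      apply hN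
      rw [eq_bot_iff]
      intro n hn
      rw [Subgroup.mem_bot]
      apply Subtype.ext
      apply Equiv.ext
      intro x
      obtain ⟨n', hn'⟩ := MulAction.exists_smul_eq N a x
      have h1 : n' • a = a := MulAction.mem_stabilizer_iff.mp (hall' n')
      have hxa : x = a := by rw [← hn', h1]
      have h2 : (⟨n, hn⟩ : N) • a = a := MulAction.mem_stabilizer_iff.mp (hall' ⟨n, hn⟩)
      rw [hxa]
      exact h2
    · intro j
      by_cases hj : ∃ i, c i = j
      · left
        obtain ⟨i₂, rfl⟩ := hj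
        exact le_antisymm (hblock i₂ i₁) (hblock i₁ i₂)
      · right
        have hE : IsEmpty {i : Fin m // c i = j} := ⟨fun x => hj ⟨x.1, x.2⟩⟩
        exact Nat.card_of_isEmpty
  · -- product case
    push Not at hall
    obtain ⟨i₀, hi₀⟩ := hall
    have hRne : ∀ j, R j ≠ ⊤ := by
      intro j hj
      obtain ⟨h, hh, hσj⟩ := htrans j i₀
      apply hi₀
      rw [eq_top_iff]
      intro t _
      obtain ⟨u, rfl⟩ := (hφ h j).2 t
      rw [← hσj]
      exact hRmap h hh j u (by rw [hj]; exact Subgroup.mem_top u)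
    let XN : Subgroup N :=
      { carrier := {n | ∀ i, e₀ n i ∈ R i}
        mul_mem' := by
          intro x y hx hy i
          rw [map_mul]; exact (R i).mul_mem (hx i) (hy i)
        one_mem' := by
          intro i
          rw [map_one]; exact (R i).one_mem
        inv_mem' := by
          intro x hx i
          rw [map_inv]; exact (R i).inv_mem (hx i) }
    have hXle : XN.map N.subtype ≤ N := by
      rintro _ ⟨n, -, rfl⟩; exact n.2
    have hXmem : ∀ n : N, (n : H) ∈ XN.map N.subtype ↔ ∀ i, e₀ n i ∈ R i := by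
      intro n
      constructor
      · rintro ⟨n', hn', h⟩
        have h1 : n' = n := Subtype.ext h
        subst h1; exact hn'
      · intro h; exact ⟨n, h, rfl⟩
    have hKX : MulAction.stabilizer H a ⊓ N ≤ XN.map N.subtype := by
      rintro g ⟨hg1, hg2⟩
      have h1 : ((⟨g, hg2⟩ : N) : H) ∈ XN.map N.subtype := by
        rw [hXmem]
        intro i
        exact (hR i _).mpr ⟨e₀ ⟨g, hg2⟩, (hS _).mpr hg1, rfl⟩
      exact h1
    have hconj : ∀ h ∈ MulAction.stabilizer H a, ∀ x ∈ XN.map N.subtype,
        h * x * h⁻¹ ∈ XN.map N.subtype := by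
      intro h hh x hx
      have hxN : x ∈ N := hXle hx
      have h1 : h * x * h⁻¹ = ((MulAut.conjNormal h (⟨x, hxN⟩ : N) : N) : H) :=
        (MulAut.conjNormal_apply h (⟨x, hxN⟩ : N)).symm
      rw [h1, hXmem]
      intro j
      obtain ⟨i, rfl⟩ := (hσ h).2 j
      rw [← hγ, hform]
      exact hRmap h hh i _ ((hXmem ⟨x, hxN⟩).mp hx i)
    have hinv : MulAction.stabilizer H a ≤ Subgroup.normalizer ((XN.map N.subtype : Subgroup H) : Set H) := by
      intro h hh
      rw [Subgroup.mem_normalizer_iff]
      intro x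
      constructor
      · exact hconj h hh x
      · intro hx
        have h1 := hconj h⁻¹ (Subgroup.inv_mem _ hh) _ hx
        have h2 : h⁻¹ * (h * x * h⁻¹) * h⁻¹⁻¹ = x := by group
        rwa [h2] at h1
    have hXneN : XN.map N.subtype ≠ N := by
      intro h
      apply hRne i₀
      rw [eq_top_iff]
      intro t _
      have h1 : ((e₀.symm (Pi.mulSingle i₀ t) : N) : H) ∈ XN.map N.subtype := by
        rw [h]; exact (e₀.symm _).2
      have h2 := (hXmem _).mp h1 i₀
      simpa using h2
    have hXeq : XN.map N.subtype = MulAction.stabilizer H a ⊓ N := by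
      rcases Cfsg.Agent.S0722.result H N hN hmin a _ hXle hKX hinv with h | h
      · exact h
      · exact absurd h hXneN
    refine ⟨e₀, Or.inl ⟨R, hRne, fun n => ?_⟩⟩
    rw [← hXmem, hXeq]
    constructor
    · intro h; exact ⟨h, n.2⟩
    · intro h; exact h.1

end Cfsg.Agent.Lib.helper24.OnanScott
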