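import Cfsg.Agent.Lib.helper24.CharBrauer5
import Cfsg.Agent.Lib.helper24.CharClifford
import Cfsg.Agent.Lib.helper24.CharProj2
import Cfsg.Agent.Lib.helper24.CharComplete

/-! Dade's detection of extendible characters through `p`-elementary subgroups. -/

namespace Cfsg.Agent.Lib.helper24

open Cfsg
open scoped ComplexConjugate

universe u

set_option autoImplicit false

section WeightedFixed

theorem sigma_fin_ext {α : Type*} (F : α → ℕ) {x y : Σ a, Fin (F a)} (h1 : x.1 = y.1)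
    (h2 : (x.2 : ℕ) = y.2) : x = y := by
  obtain ⟨a, i⟩ := x
  obtain ⟨b, j⟩ := y
  dsimp at h1 h2
  subst h1
  congr 1
  exact Fin.ext h2

/-- The action on the weighted set. -/
def wfAction {Q : Type*} [Group Q] {α : Type*} [MulAction Q α] (F : α → ℕ)
    (hF : ∀ (g : Q) (a : α), F (g • a) = F a) : MulAction Q (Σ a, Fin (F a)) where
  smul g x := ⟨g • x.1, Fin.cast (hF g x.1).symm x.2⟩
  one_smul x := sigma_fin_ext F (one_smul _ _) rfl
  mul_smul g h x := sigma_fin_ext F (mul_smul _ _ _) rfl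

/-- Weighted fixed point lemma: a `p`-group acting on a finite set with an invariant weight
whose total is prime to `p` fixes a point of weight prime to `p`. -/
theorem exists_fixed_weight {Q : Type*} [Group Q] [Finite Q] {α : Type*} [Fintype α]
    [MulAction Q α] (p : ℕ) [Fact p.Prime] (hQ : IsPGroup p Q) (F : α → ℕ)
    (hF : ∀ (g : Q) (a : α), F (g • a) = F a) (hsum : ¬ p ∣ ∑ a, F a) :
    ∃ a, (∀ g : Q, g • a = a) ∧ ¬ p ∣ F a := by
  classical
  by_contra hcon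
  push Not at hcon
  letI := wfAction F hF
  have h1 := hQ.card_modEq_card_fixedPoints (Σ a, Fin (F a))
  have h2 : Nat.card (Σ a, Fin (F a)) = ∑ a, F a := by
    rw [Nat.card_eq_fintype_card, Fintype.card_sigma]; simp
  have h3 : p ∣ Nat.card (MulAction.fixedPoints Q (Σ a, Fin (F a))) := by
    have hset : (MulAction.fixedPoints Q (Σ a, Fin (F a)))
        = {x | x.1 ∈ MulAction.fixedPoints Q α} := by
      ext x
      constructor
      · intro hx g
        have := hx g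
        exact congrArg Sigma.fst this
      · intro hx g
        exact sigma_fin_ext F (hx g) rfl
    rw [hset]
    have hc : Nat.card {x : Σ a, Fin (F a) | x.1 ∈ MulAction.fixedPoints Q α}
        = ∑ a ∈ Finset.univ.filter (fun a : α => a ∈ MulAction.fixedPoints Q α), F a := by
      rw [Nat.card_eq_fintype_card]
      rw [show Fintype.card {x : Σ a, Fin (F a) | x.1 ∈ MulAction.fixedPoints Q α}
        = (Finset.univ.filter (fun x : Σ a, Fin (F a) => x.1 ∈ MulAction.fixedPoints Q α)).card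
        from Fintype.card_subtype _]
      have hf : (Finset.univ.filter (fun x : Σ a, Fin (F a) => x.1 ∈ MulAction.fixedPoints Q α))
          = (Finset.univ.filter (fun a : α => a ∈ MulAction.fixedPoints Q α)).sigma
            (fun a => (Finset.univ : Finset (Fin (F a)))) := by
        ext x
        simp
      rw [hf, Finset.card_sigma]
      simp
    rw [hc]
    apply Finset.dvd_sum
    intro a ha
    rw [Finset.mem_filter] at ha
    exact hcon a (fun g => ha.2 g)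
  rw [h2] at h1
  exact hsum ((Nat.modEq_zero_iff_dvd.mp (h1.trans (Nat.modEq_zero_iff_dvd.mpr h3))))

end WeightedFixed

section Detect

variable {G : Type u} [Group G] [Fintype G]

/-- Cardinality bookkeeping for `E ⊔ N`. -/
theorem card_sup_mul_card_inf (E N : Subgroup G) [hN : N.Normal] :
    Nat.card ↥(E ⊔ N) * Nat.card ↥(E ⊓ N) = Nat.card E * Nat.card N := by
  have h1 : Nat.card N * N.relIndex (E ⊔ N) = Nat.card ↥(E ⊔ N) := by
    have := Subgroup.relIndex_mul_relIndex (⊥ : Subgroup G) N (E ⊔ N) bot_le le_sup_right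
    rwa [Subgroup.relIndex_bot_left, Subgroup.relIndex_bot_left] at this
  have h2 : Nat.card ↥(E ⊓ N) * N.relIndex E = Nat.card E := by
    have := Subgroup.relIndex_mul_relIndex (⊥ : Subgroup G) (E ⊓ N) E bot_le inf_le_left
    rwa [Subgroup.relIndex_bot_left, Subgroup.relIndex_bot_left, Subgroup.inf_relIndex_left]
      at this
  rw [← h1, ← h2, Subgroup.relIndex_sup_right]
  ring

/-- The inner product formula: inducing from `E` and multiplying with the invariant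
character `ϑ` of the normal subgroup `N`. -/
theorem inner_indFun_mul_invariant (N : Subgroup G) [hN : N.Normal] [Fintype N] (ϑ : N → ℂ)
    (hinv : ∀ (g : G) (n : N), ϑ ⟨g * n * g⁻¹, hN.conj_mem (n : G) n.2 g⟩ = ϑ n)
    (E : Subgroup G) [Fintype ↥(E ⊓ N)] (ψ : E → ℂ) :
    classInner (fun n : N => indFun E ψ n * ϑ n) ϑ
      = ((E ⊔ N).index : ℂ) * classInner
          (fun x : ↥(E ⊓ N) => ψ ⟨x, x.2.1⟩ * ϑ ⟨x, x.2.2⟩) (fun x => ϑ ⟨x, x.2.2⟩) := by
  classical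
  -- the inner sums
  have hx : ∀ x : G, ∑ n : N, extendByZero E ψ (x⁻¹ * n * x) * ϑ n * conj (ϑ n)
      = ∑ d : ↥(E ⊓ N), ψ ⟨d, d.2.1⟩ * ϑ ⟨d, d.2.2⟩ * conj (ϑ ⟨d, d.2.2⟩) := by
    intro x
    -- reindex by conjugation
    let e : N ≃ N :=
      { toFun := fun n => ⟨x * n * x⁻¹, hN.conj_mem (n : G) n.2 x⟩
        invFun := fun n => ⟨x⁻¹ * n * x, by
          have := hN.conj_mem (n : G) n.2 x⁻¹
          simpa using this⟩
        left_inv := fun n => Subtype.ext (by simp [mul_assoc])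
        right_inv := fun n => Subtype.ext (by simp [mul_assoc]) }
    have h1 : ∑ n : N, extendByZero E ψ (x⁻¹ * n * x) * ϑ n * conj (ϑ n)
        = ∑ n : N, extendByZero E ψ (n : G) * ϑ n * conj (ϑ n) := by
      rw [← Equiv.sum_comp e]
      apply Finset.sum_congr rfl
      intro n _
      have h2 : ϑ (e n) = ϑ n := hinv x n
      have h3 : x⁻¹ * ((e n : N) : G) * x = n := by
        show x⁻¹ * (x * n * x⁻¹) * x = n
        simp [mul_assoc]
      rw [h2, h3]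
    rw [h1, ← sum_extendByZero N (fun n : N => extendByZero E ψ (n : G) * ϑ n * conj (ϑ n)),
      ← sum_extendByZero (E ⊓ N)
        (fun d : ↥(E ⊓ N) => ψ ⟨d, d.2.1⟩ * ϑ ⟨d, d.2.2⟩ * conj (ϑ ⟨d, d.2.2⟩))]
    apply Finset.sum_congr rfl
    intro g _
    by_cases hgN : g ∈ N
    · by_cases hgE : g ∈ E
      · rw [extendByZero_apply_mem N _ hgN, extendByZero_apply_mem (E ⊓ N) _ ⟨hgE, hgN⟩,
          extendByZero_apply_mem E _ hgE]
      · rw [extendByZero_apply_mem N _ hgN,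
          extendByZero_apply_not_mem (E ⊓ N) _ (fun h => hgE h.1),
          extendByZero_apply_not_mem E _ hgE]
        simp
    · rw [extendByZero_apply_not_mem N _ hgN,
        extendByZero_apply_not_mem (E ⊓ N) _ (fun h => hgN h.2)]
  have hsum : ∑ n : N, indFun E ψ n * ϑ n * conj (ϑ n)
      = (Nat.card E : ℂ)⁻¹ * ((Nat.card G : ℂ) *
        ∑ d : ↥(E ⊓ N), ψ ⟨d, d.2.1⟩ * ϑ ⟨d, d.2.2⟩ * conj (ϑ ⟨d, d.2.2⟩)) := by
    have h1 : ∀ n : N, indFun E ψ n * ϑ n * conj (ϑ n)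
        = (Nat.card E : ℂ)⁻¹ * ∑ x : G, extendByZero E ψ (x⁻¹ * n * x) * ϑ n * conj (ϑ n) := by
      intro n
      unfold indFun
      rw [mul_assoc, mul_assoc, Finset.sum_mul]
      congr 1
      apply Finset.sum_congr rfl
      intro x _
      ring
    rw [Finset.sum_congr rfl (fun n _ => h1 n), ← Finset.mul_sum, Finset.sum_comm]
    rw [Finset.sum_congr rfl (fun x _ => hx x)]
    rw [Finset.sum_const, Finset.card_univ, nsmul_eq_mul, ← Nat.card_eq_fintype_card]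
  unfold classInner
  rw [hsum]
  have hcard : (Nat.card G : ℂ) * (Nat.card ↥(E ⊓ N) : ℂ)
      = ((E ⊔ N).index : ℂ) * ((Nat.card E : ℂ) * (Nat.card N : ℂ)) := by
    have h1 := card_sup_mul_card_inf E N
    have h2 := (E ⊔ N).card_mul_index
    have : Nat.card G * Nat.card ↥(E ⊓ N) = (E ⊔ N).index * (Nat.card E * Nat.card N) := by
      rw [← h1, ← h2]; ring
    exact_mod_cast this
  have hE : (Nat.card E : ℂ) ≠ 0 := Nat.cast_ne_zero.mpr Nat.card_pos.ne'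
  have hN0 : (Nat.card N : ℂ) ≠ 0 := Nat.cast_ne_zero.mpr Nat.card_pos.ne'
  have hD : (Nat.card ↥(E ⊓ N) : ℂ) ≠ 0 := Nat.cast_ne_zero.mpr Nat.card_pos.ne'
  have hG : (Nat.card G : ℂ) = ((E ⊔ N).index : ℂ) * ((Nat.card E : ℂ) * (Nat.card N : ℂ))
      * (Nat.card ↥(E ⊓ N) : ℂ)⁻¹ := by
    rw [← hcard]; field_simp
  rw [hG]
  field_simp

/-- The instance-free inner product. -/
noncomputable def innerF {D : Type*} [Group D] (f g : D → ℂ) : ℂ :=
  (Nat.card D : ℂ)⁻¹ * ∑ᶠ x : D, f x * conj (g x)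

theorem innerF_eq {D : Type*} [Group D] [Fintype D] (f g : D → ℂ) :
    innerF f g = classInner f g := by
  unfold innerF classInner
  rw [finsum_eq_sum_of_fintype]

theorem inner_res_nat (N : Subgroup G) (ϑ : N → ℂ) (hϑ : IsCharacter N ϑ)
    (E : Subgroup G) [Fintype ↥(E ⊓ N)] (ψ : E → ℂ) (hψ : IsCharacter E ψ) :
    ∃ I : ℕ, classInner (fun x : ↥(E ⊓ N) => ψ ⟨x, x.2.1⟩ * ϑ ⟨x, x.2.2⟩)
      (fun x => ϑ ⟨x, x.2.2⟩) = I := by
  have h1 : IsCharacter ↥(E ⊓ N) (fun x : ↥(E ⊓ N) => ψ ⟨x, x.2.1⟩) :=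
    isCharacter_comp (Subgroup.inclusion inf_le_left) hψ
  have h2 : IsCharacter ↥(E ⊓ N) (fun x : ↥(E ⊓ N) => ϑ ⟨x, x.2.2⟩) :=
    isCharacter_comp (Subgroup.inclusion inf_le_right) hϑ
  exact isCharacter_inner_nat (isCharacter_mul h1 h2) h2

theorem list_sum_int_dvd (p : ℤ) (l : List ℂ)
    (h : ∀ c ∈ l, ∃ z : ℤ, c = ((p * z : ℤ) : ℂ)) :
    ∃ w : ℤ, l.sum = ((p * w : ℤ) : ℂ) := by
  induction l with
  | nil => exact ⟨0, by simp⟩
  | cons a l ih =>
    obtain ⟨z, hz⟩ := h a List.mem_cons_self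
    obtain ⟨w, hw⟩ := ih (fun c hc => h c (List.mem_cons_of_mem _ hc))
    exact ⟨z + w, by rw [List.sum_cons, hz, hw]; push_cast; ring⟩

/-- Phase 1: some `p`-elementary subgroup `E` covering `G/N` carries a character `ψ` with
`(ψ ϑ, ϑ)` over `E ⊓ N` prime to `p`. -/
theorem exists_elementary_detect (p : ℕ) (hp : p.Prime) (N : Subgroup G) [hN : N.Normal]
    (hind : ∃ k : ℕ, N.index = p ^ k) (ϑ : N → ℂ) (hϑ : IsIrrCharacter N ϑ)
    (hinv : ∀ (g : G) (n : N), ϑ ⟨g * n * g⁻¹, hN.conj_mem (n : G) n.2 g⟩ = ϑ n) :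
    ∃ (E : Subgroup G) (ψ : E → ℂ) (I : ℕ), IsElementary p E ∧ IsCharacter E ψ ∧ E ⊔ N = ⊤ ∧
      ¬ p ∣ I ∧ innerF (fun x : ↥(E ⊓ N) => ψ ⟨x, x.2.1⟩ * ϑ ⟨x, x.2.2⟩)
        (fun x => ϑ ⟨x, x.2.2⟩) = I := by
  classical
  haveI : Fintype N := Fintype.ofFinite _
  obtain ⟨k, hk⟩ := hind
  obtain ⟨m, l, hm, hl, heq⟩ := brauer_p_list (G := G) p hp
  by_contra hcon
  push Not at hcon
  let M : (G → ℂ) →ₗ[ℂ] (N → ℂ) :=
    { toFun := fun f n => f n * ϑ n
      map_add' := fun f g => by funext n; simp [add_mul]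
      map_smul' := fun c f => by
        funext n
        simp only [Pi.smul_apply, smul_eq_mul, RingHom.id_apply]
        ring }
  let Λ : (G → ℂ) →ₗ[ℂ] ℂ := (classInnerL ϑ).comp M
  have hΛ : ∀ f, Λ f = classInner (fun n : N => f n * ϑ n) ϑ := fun f => rfl
  have h1 : Λ (fun _ : G => (m : ℂ)) = m := by
    rw [hΛ]
    have h0 : (fun n : N => (m : ℂ) * ϑ n) = (m : ℂ) • ϑ := rfl
    rw [h0, classInner_smul_left, irr_inner_self ⟨ϑ, hϑ⟩, mul_one]
  rw [heq, map_list_sum, List.map_map] at h1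
  have h2 : ∀ c ∈ l.map (Λ ∘ fun t => (t.2.2 : ℂ) • indFun t.1 t.2.1),
      ∃ z : ℤ, c = (((p : ℤ) * z : ℤ) : ℂ) := by
    intro c hc
    rw [List.mem_map] at hc
    obtain ⟨t, ht, rfl⟩ := hc
    obtain ⟨hE, hψ⟩ := hl t ht
    haveI : Fintype ↥(t.1 ⊓ N) := Fintype.ofFinite _
    obtain ⟨I, hI⟩ := inner_res_nat N ϑ (isCharacter_of_isIrrCharacter hϑ) t.1 t.2.1 hψ
    have h3 : (Λ ∘ fun t : ((E : Subgroup G) × ((E → ℂ) × ℤ)) =>
        (t.2.2 : ℂ) • indFun t.1 t.2.1) t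
        = (t.2.2 : ℂ) * (((t.1 ⊔ N).index : ℂ) * I) := by
      show Λ ((t.2.2 : ℂ) • indFun t.1 t.2.1) = _
      rw [map_smul, hΛ, inner_indFun_mul_invariant N ϑ hinv t.1 t.2.1, hI, smul_eq_mul]
    rw [h3]
    by_cases htop : t.1 ⊔ N = ⊤
    · have hpI : p ∣ I := by
        by_contra hpI
        exact hcon t.1 t.2.1 I hE hψ htop hpI (by rw [innerF_eq]; exact hI)
      obtain ⟨j, rfl⟩ := hpI
      exact ⟨t.2.2 * ((t.1 ⊔ N).index) * j, by push_cast; ring⟩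
    · have hpi : p ∣ (t.1 ⊔ N).index := by
        have hd : (t.1 ⊔ N).index ∣ p ^ k := hk ▸ Subgroup.index_dvd_of_le le_sup_right
        obtain ⟨j, hj, hje⟩ := (Nat.dvd_prime_pow hp).mp hd
        rcases Nat.eq_zero_or_pos j with rfl | hjpos
        · exact absurd (Subgroup.index_eq_one.mp (by simpa using hje)) htop
        · rw [hje]; exact dvd_pow_self p hjpos.ne'
      obtain ⟨j, hj⟩ := hpi
      exact ⟨t.2.2 * j * I, by rw [hj]; push_cast; ring⟩
  obtain ⟨w, hw⟩ := list_sum_int_dvd (p : ℤ) _ h2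
  rw [hw] at h1
  have h4 : (p : ℤ) * w = m := by exact_mod_cast h1
  exact hm ⟨w, h4.symm⟩

/-- Conjugation by an element of `E` on `E ⊓ N`. -/
def conjInfEquiv (E N : Subgroup G) [hN : N.Normal] (g : ↥E) : ↥(E ⊓ N) ≃* ↥(E ⊓ N) where
  toFun x := ⟨(g : G) * (x : G) * (g : G)⁻¹,
    ⟨E.mul_mem (E.mul_mem g.2 x.2.1) (E.inv_mem g.2), hN.conj_mem (x : G) x.2.2 g⟩⟩
  invFun x := ⟨(g : G)⁻¹ * (x : G) * (g : G),
    ⟨E.mul_mem (E.mul_mem (E.inv_mem g.2) x.2.1) g.2, by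
      have := hN.conj_mem (x : G) x.2.2 (g : G)⁻¹
      simpa using this⟩⟩
  left_inv x := Subtype.ext (by simp [mul_assoc])
  right_inv x := Subtype.ext (by simp [mul_assoc])
  map_mul' x y := Subtype.ext (by simp [mul_assoc])

theorem conjInfEquiv_coe (E N : Subgroup G) [hN : N.Normal] (g : ↥E) (x : ↥(E ⊓ N)) :
    ((conjInfEquiv E N g x : ↥(E ⊓ N)) : G) = (g : G) * (x : G) * (g : G)⁻¹ := rfl

/-- The action of `E` on the irreducible characters of `E ⊓ N`. -/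
noncomputable def irrInfAction (E N : Subgroup G) [hN : N.Normal] :
    MulAction ↥E (IrrCharacter ↥(E ⊓ N)) where
  smul g φ := ⟨φ.1 ∘ (conjInfEquiv E N g⁻¹),
    isIrrCharacter_comp_equiv (conjInfEquiv E N g⁻¹) φ.2⟩
  one_smul φ := Subtype.ext (funext fun x => congrArg φ.1
    (Subtype.ext (by simp [conjInfEquiv_coe])))
  mul_smul g h φ := Subtype.ext (funext fun x => congrArg φ.1
    (Subtype.ext (by simp [conjInfEquiv_coe, mul_assoc])))

/-- Phase 2: pass to an `E`-invariant irreducible constituent. -/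
theorem exists_invariant_constituent (p : ℕ) (hp : p.Prime) (N : Subgroup G) [hN : N.Normal]
    (hind : ∃ k : ℕ, N.index = p ^ k) (ϑ : N → ℂ) (hϑ : IsCharacter N ϑ)
    (hinv : ∀ (g : G) (n : N), ϑ ⟨g * n * g⁻¹, hN.conj_mem (n : G) n.2 g⟩ = ϑ n)
    (E : Subgroup G) (ψ : E → ℂ) (hψ : IsCharacter E ψ) (I : ℕ) (hI : ¬ p ∣ I)
    (hinner : innerF (fun x : ↥(E ⊓ N) => ψ ⟨x, x.2.1⟩ * ϑ ⟨x, x.2.2⟩)
      (fun x => ϑ ⟨x, x.2.2⟩) = I) :
    ∃ φ : ↥(E ⊓ N) → ℂ, IsIrrCharacter ↥(E ⊓ N) φ ∧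
      (∀ (g : G) (hg : g ∈ E) (x : ↥(E ⊓ N)), φ ⟨g * x * g⁻¹,
        ⟨(E.mul_mem (E.mul_mem hg x.2.1) (E.inv_mem hg)), hN.conj_mem (x : G) x.2.2 g⟩⟩ = φ x) ∧
      ∃ m : ℕ, ¬ p ∣ m ∧ innerF (fun x : ↥(E ⊓ N) => ϑ ⟨x, x.2.2⟩) φ = m := by
  classical
  haveI : Fact p.Prime := ⟨hp⟩
  haveI : Fintype ↥(E ⊓ N) := Fintype.ofFinite _
  haveI : Fintype (IrrCharacter ↥(E ⊓ N)) := Fintype.ofFinite _
  set ϑD : ↥(E ⊓ N) → ℂ := fun x => ϑ ⟨x, x.2.2⟩ with hϑD
  set ψD : ↥(E ⊓ N) → ℂ := fun x => ψ ⟨x, x.2.1⟩ with hψD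
  have hϑDc : IsCharacter ↥(E ⊓ N) ϑD := isCharacter_comp (Subgroup.inclusion inf_le_right) hϑ
  have hψDc : IsCharacter ↥(E ⊓ N) ψD := isCharacter_comp (Subgroup.inclusion inf_le_left) hψ
  have hprod : IsCharacter ↥(E ⊓ N) (ψD * ϑD) := isCharacter_mul hψDc hϑDc
  choose A hA using fun φ : IrrCharacter ↥(E ⊓ N) => isCharacter_inner_irr_nat hϑDc φ
  choose C hC using fun φ : IrrCharacter ↥(E ⊓ N) => isCharacter_inner_irr_nat hprod φ
  have hexp : ϑD = ∑ φ : IrrCharacter ↥(E ⊓ N), classInner ϑD φ.1 • φ.1 :=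
    classFunction_expansion (isCharacter_conj_class hϑDc)
  have hsum : (I : ℂ) = ∑ φ : IrrCharacter ↥(E ⊓ N), ((A φ * C φ : ℕ) : ℂ) := by
    rw [← hinner, innerF_eq]
    have h0 : classInner (ψD * ϑD) ϑD
        = classInner (ψD * ϑD) (∑ φ : IrrCharacter ↥(E ⊓ N), classInner ϑD φ.1 • φ.1) :=
      congrArg _ hexp
    have h1 : classInner (fun x : ↥(E ⊓ N) => ψ ⟨x, x.2.1⟩ * ϑ ⟨x, x.2.2⟩)
        (fun x => ϑ ⟨x, x.2.2⟩) = classInner (ψD * ϑD) ϑD := rfl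
    rw [h1, h0, classInner_sum_right]
    apply Finset.sum_congr rfl
    intro φ _
    rw [classInner_smul_right, hA φ, hC φ]
    simp
  have hsumN : I = ∑ φ : IrrCharacter ↥(E ⊓ N), A φ * C φ := by exact_mod_cast hsum
  letI := irrInfAction E N
  have hsmul : ∀ (g : ↥E) (φ : IrrCharacter ↥(E ⊓ N)),
      (g • φ).1 = φ.1 ∘ (conjInfEquiv E N g⁻¹) := fun g φ => rfl
  have hϑinv : ∀ g : ↥E, ϑD ∘ (conjInfEquiv E N g) = ϑD := fun g =>
    funext fun x => hinv g ⟨x, x.2.2⟩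
  have hψinv : ∀ g : ↥E, ψD ∘ (conjInfEquiv E N g) = ψD := fun g =>
    funext fun x => by
      have h := isCharacter_conj_class hψ ⟨x, x.2.1⟩ g
      exact h
  have hAinv : ∀ (g : ↥E) (φ : IrrCharacter ↥(E ⊓ N)), A (g • φ) = A φ := by
    intro g φ
    have h1 : classInner ϑD (g • φ).1 = classInner ϑD φ.1 := by
      rw [hsmul]
      conv_lhs => rw [← hϑinv g⁻¹]
      exact classInner_comp_equiv (conjInfEquiv E N g⁻¹) ϑD φ.1
    rw [hA, hA] at h1
    exact_mod_cast h1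
  have hCinv : ∀ (g : ↥E) (φ : IrrCharacter ↥(E ⊓ N)), C (g • φ) = C φ := by
    intro g φ
    have h1 : classInner (ψD * ϑD) (g • φ).1 = classInner (ψD * ϑD) φ.1 := by
      rw [hsmul]
      have h2 : (ψD * ϑD) = (ψD * ϑD) ∘ (conjInfEquiv E N g⁻¹) := by
        funext x
        show ψD x * ϑD x = (ψD ∘ (conjInfEquiv E N g⁻¹)) x * (ϑD ∘ (conjInfEquiv E N g⁻¹)) x
        rw [hϑinv, hψinv]
      conv_lhs => rw [h2]
      exact classInner_comp_equiv (conjInfEquiv E N g⁻¹) (ψD * ϑD) φ.1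
    rw [hC, hC] at h1
    exact_mod_cast h1
  obtain Q : Sylow p ↥E := default
  obtain ⟨φ, hφfix, hφp⟩ := exists_fixed_weight (Q := ↥(Q : Subgroup ↥E)) p Q.isPGroup'
    (fun φ : IrrCharacter ↥(E ⊓ N) => A φ * C φ)
    (fun q φ => by
      show A ((q : ↥E) • φ) * C ((q : ↥E) • φ) = A φ * C φ
      rw [hAinv, hCinv])
    (by rw [← hsumN]; exact hI)
  have hpA : ¬ p ∣ A φ := fun h => hφp (h.mul_right _)
  have hQS : (Q : Subgroup ↥E) ≤ MulAction.stabilizer ↥E φ := fun q hq => hφfix ⟨q, hq⟩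
  have hDS : N.subgroupOf E ≤ MulAction.stabilizer ↥E φ := by
    intro d hd
    rw [MulAction.mem_stabilizer_iff]
    apply Subtype.ext
    rw [hsmul]
    funext x
    have hdN : (d : G) ∈ N := Subgroup.mem_subgroupOf.mp hd
    have h := isCharacter_conj_class (isCharacter_of_isIrrCharacter φ.2) x
      ⟨(d : G)⁻¹, ⟨E.inv_mem d.2, N.inv_mem hdN⟩⟩
    rw [← h]
    exact congrArg φ.1 (Subtype.ext (by simp [conjInfEquiv_coe]))
  have hSidx : (MulAction.stabilizer ↥E φ).index = 1 := by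
    have h1 : (MulAction.stabilizer ↥E φ).index ∣ (Q : Subgroup ↥E).index :=
      Subgroup.index_dvd_of_le hQS
    have h2 : (MulAction.stabilizer ↥E φ).index ∣ (N.subgroupOf E).index :=
      Subgroup.index_dvd_of_le hDS
    have h3 : (N.subgroupOf E).index ∣ N.index := Subgroup.relIndex_dvd_index_of_normal N E
    have h4 : ¬ p ∣ (Q : Subgroup ↥E).index := Q.not_dvd_index
    obtain ⟨k, hk⟩ := hind
    have h5 : (MulAction.stabilizer ↥E φ).index ∣ p ^ k := hk ▸ h2.trans h3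
    obtain ⟨j, hj, hje⟩ := (Nat.dvd_prime_pow hp).mp h5
    rcases Nat.eq_zero_or_pos j with rfl | hjpos
    · simpa using hje
    · exact absurd ((hje ▸ dvd_pow_self p hjpos.ne').trans h1) h4
  have hStop : MulAction.stabilizer ↥E φ = ⊤ := Subgroup.index_eq_one.mp hSidx
  refine ⟨φ.1, φ.2, ?_, A φ, hpA, ?_⟩
  · intro g hg x
    have hmem : (⟨g, hg⟩ : ↥E)⁻¹ ∈ MulAction.stabilizer ↥E φ := by rw [hStop]; trivial
    have h1 := congrArg (fun φ' : IrrCharacter ↥(E ⊓ N) => φ'.1 x)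
      (MulAction.mem_stabilizer_iff.mp hmem)
    have h2 : ((⟨g, hg⟩ : ↥E)⁻¹ • φ).1 x = φ.1 x := h1
    rw [← h2, hsmul]
    exact congrArg φ.1 (Subtype.ext (by simp [conjInfEquiv_coe]))
  · rw [innerF_eq]; exact hA φ

/-- Dade's detection of invariant characters through `p`-elementary subgroups (S0896). -/
theorem dade_detect {G : Type u} [Group G] [Fintype G] (p : ℕ) (hp : p.Prime) (N : Subgroup G) [hN : N.Normal] (hind : ∃ k : ℕ, N.index = p ^ k) (ϑ : N → ℂ) (hϑ : IsIrrCharacter N ϑ) (hinv : ∀ (g : G) (n : N), ϑ ⟨g * n * g⁻¹, hN.conj_mem (n : G) n.2 g⟩ = ϑ n) : ∃ (E : Subgroup G) (φ : ↥(E ⊓ N) → ℂ), IsElementary p E ∧ E ⊔ N = ⊤ ∧ IsIrrCharacter ↥(E ⊓ N) φ ∧ (∀ (g : G) (hg : g ∈ E) (x : ↥(E ⊓ N)), φ ⟨g * x * g⁻¹, ⟨(E.mul_mem (E.mul_mem hg x.2.1) (E.inv_mem hg)), hN.conj_mem (x : G) x.2.2 g⟩⟩ = φ x) ∧ ∃ m : ℕ, ¬ p ∣ m ∧ (Nat.card ↥(E ⊓ N) : ℂ)⁻¹ * ∑ᶠ x : ↥(E ⊓ N), ϑ ⟨(x : G), x.2.2⟩ * conj (φ x) = (m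 : ℂ) := by
  obtain ⟨E, ψ, I, hE, hψ, htop, hI, hinner⟩ := exists_elementary_detect p hp N hind ϑ hϑ hinv
  obtain ⟨φ, hφ, hφinv, m, hm, hmeq⟩ := exists_invariant_constituent p hp N hind ϑ
    (isCharacter_of_isIrrCharacter hϑ) hinv E ψ hψ I hI hinner
  exact ⟨E, φ, hE, htop, hφ, hφinv, m, hm, hmeq⟩

end Detect

end Cfsg.Agent.Lib.helper24
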