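import Mathlib
import Cfsg.Agent.Lib.helper24.CharMGroup
import Cfsg.Agent.Lib.helper24.CharChief
import Cfsg.Agent.Lib.helper24.CharKer
import Cfsg.Agent.Lib.helper24.CharDet
import Cfsg.Agent.Lib.helper23.GaloisChar
import Cfsg.Agent.Lib.helper23.GalConj

set_option autoImplicit false
open Cfsg
open scoped ComplexConjugate
universe u

namespace Cfsg.Agent.Lib.helper24
namespace PGal

variable {X : Type u} [Group X]

/-- Galois conjugate of a function by the power map. -/
def galConj (θ : X → ℂ) (k : ℕ) : X → ℂ := fun g => θ (g ^ k)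

/-- The set of Galois conjugates by powers prime to `p`. -/
def galOrb (p : ℕ) (θ : X → ℂ) : Set (X → ℂ) := {φ | ∃ k : ℕ, k.Coprime p ∧ φ = galConj θ k}

theorem galConj_isIrr [Finite X] {p n : ℕ} (hX : Nat.card X = p ^ n) {θ : X → ℂ}
    (hθ : IsIrrCharacter X θ) {k : ℕ} (hk : k.Coprime p) : IsIrrCharacter X (galConj θ k) :=
  helper23.isIrrCharacter_pow_coprime hθ k (by rw [hX]; exact Nat.Coprime.pow_right n hk)

theorem galOrb_finite [Finite X] {p n : ℕ} (hX : Nat.card X = p ^ n) {θ : X → ℂ}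
    (hθ : IsIrrCharacter X θ) : (galOrb p θ).Finite := by
  have hfin : {φ : X → ℂ | IsIrrCharacter X φ}.Finite := by
    exact Set.finite_coe_iff.mp (irrFinite : Finite (IrrCharacter X))
  refine hfin.subset ?_
  rintro φ ⟨k, hk, rfl⟩
  exact galConj_isIrr hX hθ hk

theorem exists_pow_back [Finite X] {p n : ℕ} (hX : Nat.card X = p ^ n) {k : ℕ}
    (hk : k.Coprime p) (g : X) : ∃ j : ℕ, (g ^ k) ^ j = g := by
  have h1 : orderOf g ∣ p ^ n := hX ▸ orderOf_dvd_natCard g
  exact exists_pow_eq_self_of_coprime (Nat.Coprime.coprime_dvd_right h1 (Nat.Coprime.pow_right n hk))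

theorem irrKer_galConj [Finite X] {p n : ℕ} (hX : Nat.card X = p ^ n) (θ θ' : IrrCharacter X)
    {k : ℕ} (hk : k.Coprime p) (h : θ'.1 = galConj θ.1 k) : irrKer θ' = irrKer θ := by
  ext g
  rw [mem_irrKer, mem_irrKer, h]
  simp only [galConj, one_pow]
  rw [← mem_irrKer, ← mem_irrKer]
  constructor
  · intro hg
    obtain ⟨j, hj⟩ := exists_pow_back hX hk g
    rw [← hj]; exact pow_mem hg j
  · intro hg; exact pow_mem hg k

theorem indFun_galConj [Fintype X] {p n : ℕ} (hX : Nat.card X = p ^ n) (M : Subgroup X)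
    (ψ : M → ℂ) {k : ℕ} (hk : k.Coprime p) :
    indFun M (galConj ψ k) = galConj (indFun M ψ) k := by
  funext g
  simp only [indFun, galConj]
  congr 1
  refine Finset.sum_congr rfl (fun x _ => ?_)
  have e : x⁻¹ * g ^ k * x = (x⁻¹ * g * x) ^ k := by
    have := conj_pow (a := x⁻¹) (b := g) (i := k)
    simpa using this.symm
  rw [e]
  by_cases hy : x⁻¹ * g * x ∈ M
  · rw [extendByZero_apply_mem M _ hy, extendByZero_apply_mem M _ (pow_mem hy k)]
    rfl
  · have h2 : (x⁻¹ * g * x) ^ k ∉ M := fun h => hy (by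
      obtain ⟨j, hj⟩ := exists_pow_back hX hk (x⁻¹ * g * x)
      rw [← hj]; exact pow_mem h j)
    rw [extendByZero_apply_not_mem M _ hy, extendByZero_apply_not_mem M _ h2]

theorem mem_irrKer_conj [Finite X] (M : Subgroup X) [hM : M.Normal] (ψ ψ' : IrrCharacter M) (y : X)
    (h : ψ'.1 = conjFun M ψ.1 y) (m : M) :
    m ∈ irrKer ψ' ↔ (⟨y * m * y⁻¹, hM.conj_mem m m.2 y⟩ : M) ∈ irrKer ψ := by
  rw [mem_irrKer, mem_irrKer, h, conjFun_apply, conjFun_apply]
  have : (⟨y * ((1 : M) : X) * y⁻¹, hM.conj_mem _ (1 : M).2 y⟩ : M) = 1 := by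
    apply Subtype.ext; simp
  rw [this]




theorem irr_of_indFun_irr [Fintype X] (M : Subgroup X) [hM : M.Normal] (ψ : M → ℂ)
    (hψ : IsCharacter M ψ) (h : IsIrrCharacter X (indFun M ψ)) : IsIrrCharacter M ψ := by
  classical
  haveI : Fintype M := Fintype.ofFinite _
  have h1 : ψ 1 ≠ 0 := by
    intro h0
    have := irr_one_ne_zero (⟨_, h⟩ : IrrCharacter X)
    apply this
    show indFun M ψ 1 = 0
    rw [indFun_one, h0, mul_zero]
  obtain ⟨n, hn0, hn⟩ := isCharacter_inner_self_pos hψ h1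
  apply isIrrCharacter_of_inner_self_eq_one hψ
  have hone : classInner (indFun M ψ) (indFun M ψ) = 1 := by
    have := irr_orthonormal (⟨_, h⟩ : IrrCharacter X) ⟨_, h⟩
    simpa using this
  rw [classInner_indFun_normal] at hone
  have hterm : ∀ g : X, ∃ c : ℕ, classInner ψ (conjFun M ψ g) = c := fun g =>
    isCharacter_inner_nat hψ (isCharacter_comp (MulAut.conjNormal g : M ≃* M).toMonoidHom hψ)
  choose c hc using hterm
  have hcM : ∀ g : X, g ∈ M → c g = n := by
    intro g hg
    have := hc g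
    rw [conjFun_of_mem M (isCharacter_conj_class hψ) hg, hn] at this
    exact_mod_cast this.symm
  have hM0 : (Nat.card M : ℂ) ≠ 0 := by
    exact_mod_cast (Nat.card_pos (α := M)).ne'
  have hsum : (∑ g : X, (c g : ℂ)) = Nat.card M := by
    have e : ∑ g : X, classInner ψ (conjFun M ψ g) = ∑ g : X, (c g : ℂ) :=
      Finset.sum_congr rfl (fun g _ => hc g)
    rw [e] at hone
    field_simp at hone
    exact hone
  have hsumN : ∑ g : X, c g = Nat.card M := by exact_mod_cast hsum
  have hge : Nat.card M * n ≤ ∑ g : X, c g := by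
    calc Nat.card M * n = ∑ g ∈ Finset.univ.filter (fun g : X => g ∈ M), n := by
          rw [Finset.sum_const, smul_eq_mul, Nat.card_eq_fintype_card, Fintype.card_subtype]
      _ = ∑ g ∈ Finset.univ.filter (fun g : X => g ∈ M), c g :=
          Finset.sum_congr rfl (fun g hg => (hcM g (Finset.mem_filter.mp hg).2).symm)
      _ ≤ ∑ g : X, c g := Finset.sum_le_sum_of_subset (Finset.filter_subset _ _)
  have hle : n ≤ 1 := by
    have := Nat.card_pos (α := M)
    nlinarith
  have : n = 1 := by omega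
  rw [hn, this]; simp

/-- Elements whose conjugates all lie in the kernel of `ψ` lie in the kernel of the induced character. -/
theorem mem_irrKer_ind [Fintype X] (M : Subgroup X) [hM : M.Normal] (ψ : IrrCharacter M)
    (θ : IrrCharacter X) (h : θ.1 = indFun M ψ.1) (m : M)
    (hm : ∀ x : X, (⟨x * m * x⁻¹, hM.conj_mem m m.2 x⟩ : M) ∈ irrKer ψ) :
    (m : X) ∈ irrKer θ := by
  rw [mem_irrKer, h]
  have e1 : indFun M ψ.1 (1 : X) = indFun M ψ.1 ((1 : M) : X) := rfl
  rw [e1, indFun_apply_normal, indFun_apply_normal]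
  congr 1
  refine Finset.sum_congr rfl (fun x _ => ?_)
  rw [conjFun_apply, conjFun_apply]
  have h2 := (mem_irrKer ψ _).mp (hm x)
  rw [h2]
  exact congrArg ψ.1 (Subtype.ext (by simp))




theorem index_irrKer_ind_le [Fintype X] (M : Subgroup X) [hM : M.Normal] (ψ : IrrCharacter M)
    (θ : IrrCharacter X) (h : θ.1 = indFun M ψ.1) :
    (irrKer θ).index ≤ (irrKer ψ).index ^ M.index * M.index := by
  classical
  haveI : Fintype (X ⧸ M) := Fintype.ofFinite _
  let f : X ⧸ M → Subgroup M := fun q =>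
    (irrKer ψ).comap (MulAut.conjNormal (Quotient.out q) : M ≃* M).toMonoidHom
  have hfidx : ∀ q, (f q).index = (irrKer ψ).index := fun q =>
    Subgroup.index_comap_of_surjective _ (MulEquiv.surjective _)
  have hfn : ∀ q, (f q).Normal := fun q => Subgroup.Normal.comap (irrKer_normal ψ) _
  let C : Subgroup M := ⨅ q, f q
  have hCidx : C.index ≤ (irrKer ψ).index ^ M.index := by
    calc C.index ≤ ∏ q, (f q).index := Subgroup.index_iInf_le f
      _ = ∏ q : X ⧸ M, (irrKer ψ).index := Finset.prod_congr rfl (fun q _ => hfidx q)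
      _ = (irrKer ψ).index ^ M.index := by
          rw [Finset.prod_const, Finset.card_univ, ← Nat.card_eq_fintype_card]; rfl
  have hCle : C.map M.subtype ≤ irrKer θ := by
    rintro _ ⟨m, hm, rfl⟩
    apply mem_irrKer_ind M ψ θ h m
    intro x
    have hn : (Quotient.out (x : X ⧸ M))⁻¹ * x ∈ M :=
      QuotientGroup.eq.mp (Quotient.out_eq' (x : X ⧸ M))
    have hmq : m ∈ f (x : X ⧸ M) := (Subgroup.mem_iInf.mp hm) _
    have hmq' : (⟨_, hn⟩ : M) * m * (⟨_, hn⟩ : M)⁻¹ ∈ f (x : X ⧸ M) :=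
      (hfn _).conj_mem m hmq _
    have h3 : (MulAut.conjNormal (Quotient.out (x : X ⧸ M)) : M ≃* M)
        ((⟨_, hn⟩ : M) * m * (⟨_, hn⟩ : M)⁻¹) ∈ irrKer ψ := hmq'
    convert h3 using 1
    apply Subtype.ext
    simp only [MulAut.conjNormal_apply, Subgroup.coe_mul, Subgroup.coe_inv]
    group
  calc (irrKer θ).index ≤ (C.map M.subtype).index := Subgroup.index_antitone hCle
    _ = C.index * M.index := Subgroup.index_map_subtype C
    _ ≤ _ := Nat.mul_le_mul_right _ hCidx

theorem index_irrKer_ind_le' [Fintype X] {p : ℕ} (hp : p.Prime) (M : Subgroup X) [hM : M.Normal]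
    (hMp : M.index = p) (ψ : IrrCharacter M)
    (θ : IrrCharacter X) (h : θ.1 = indFun M ψ.1) (y : X) (hy : y ∉ M)
    (hyK : ∀ m : M, m ∈ irrKer ψ → (⟨y * m * y⁻¹, hM.conj_mem m m.2 y⟩ : M) ∈ irrKer ψ) :
    (irrKer θ).index ≤ (irrKer ψ).index * M.index := by
  classical
  set K'' : Subgroup X := (irrKer ψ).map M.subtype with hK''
  have hMN : M ≤ Subgroup.normalizer (K'' : Set X) := by
    intro n hn
    apply Subgroup.mem_normalizer_fintype
    rintro _ ⟨m, hm, rfl⟩
    exact ⟨(⟨n, hn⟩ : M) * m * (⟨n, hn⟩ : M)⁻¹, (irrKer_normal ψ).conj_mem m hm _, rfl⟩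
  have hyN : y ∈ Subgroup.normalizer (K'' : Set X) := by
    apply Subgroup.mem_normalizer_fintype
    rintro _ ⟨m, hm, rfl⟩
    exact ⟨_, hyK m hm, rfl⟩
  have hN : Subgroup.normalizer (K'' : Set X) = ⊤ := by
    have h1 := Subgroup.relIndex_mul_index hMN
    rw [hMp] at h1
    have hdvd : (Subgroup.normalizer (K'' : Set X)).index ∣ p := Dvd.intro_left _ h1
    rcases (Nat.dvd_prime hp).mp hdvd with h2 | h2
    · exact Subgroup.index_eq_one.mp h2
    · exfalso
      rw [h2] at h1
      have h3 : M.relIndex (Subgroup.normalizer (K'' : Set X)) = 1 := by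
        have := hp.pos; nlinarith
      exact hy (Subgroup.relIndex_eq_one.mp h3 hyN)
  have hKle : K'' ≤ irrKer θ := by
    rintro _ ⟨m, hm, rfl⟩
    apply mem_irrKer_ind M ψ θ h m
    intro x
    have hx : x ∈ Subgroup.normalizer (K'' : Set X) := hN ▸ Subgroup.mem_top x
    have h4 := (Subgroup.mem_normalizer_iff.mp hx (m : X)).mp ⟨m, hm, rfl⟩
    obtain ⟨m', hm', e⟩ := h4
    have h5 : (⟨x * m * x⁻¹, hM.conj_mem m m.2 x⟩ : M) = m' := Subtype.ext e.symm
    rw [h5]; exact hm'
  calc (irrKer θ).index ≤ K''.index := Subgroup.index_antitone hKle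
    _ = (irrKer ψ).index * M.index := Subgroup.index_map_subtype _

theorem conj_of_ind_eq [Fintype X] (M : Subgroup X) [hM : M.Normal] (φ₁ φ₂ : M → ℂ)
    (h₁ : IsIrrCharacter M φ₁) (h₂ : IsIrrCharacter M φ₂) (hirr : IsIrrCharacter X (indFun M φ₁))
    (heq : indFun M φ₁ = indFun M φ₂) : ∃ y : X, φ₁ = conjFun M φ₂ y := by
  haveI : Fintype M := Fintype.ofFinite _
  have hcl := isClassFunction_irr (⟨_, hirr⟩ : IrrCharacter X)
  have hone : classInner (indFun M φ₁) (indFun M φ₁) = 1 := by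
    have := irr_orthonormal (⟨_, hirr⟩ : IrrCharacter X) ⟨_, hirr⟩
    simpa using this
  have c₁ : classInner (fun n : M => indFun M φ₁ n) φ₁ ≠ 0 := by
    have := frobenius_reciprocity M φ₁ hcl
    rw [hone] at this
    rw [classInner_conj_symm, ← this]; simp
  have c₂ : classInner (fun n : M => indFun M φ₁ n) φ₂ ≠ 0 := by
    have := frobenius_reciprocity M φ₂ hcl
    rw [← heq, hone] at this
    rw [classInner_conj_symm, ← this]; simp
  exact clifford_conj M (indFun M φ₁) hirr φ₁ φ₂ h₁ h₂ c₁ c₂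

theorem conj_orbit_ncard_le [Fintype X] (M : Subgroup X) [hM : M.Normal] (φ : M → ℂ)
    (hφ : IsIrrCharacter M φ) :
    {φ' : M → ℂ | ∃ y : X, φ' = conjFun M φ y}.ncard ≤ M.index := by
  classical
  have hsub : {φ' : M → ℂ | ∃ y : X, φ' = conjFun M φ y} ⊆
      (fun q : X ⧸ M => conjFun M φ (Quotient.out q)) '' Set.univ := by
    rintro _ ⟨y, rfl⟩
    refine ⟨(y : X ⧸ M), Set.mem_univ _, ?_⟩
    have hn : (Quotient.out (y : X ⧸ M))⁻¹ * y ∈ M :=
      QuotientGroup.eq.mp (Quotient.out_eq' (y : X ⧸ M))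
    have e : y = Quotient.out (y : X ⧸ M) * ((Quotient.out (y : X ⧸ M))⁻¹ * y) := by group
    show conjFun M φ (Quotient.out (y : X ⧸ M)) = conjFun M φ y
    conv_rhs => rw [e, conjFun_mul]
    rw [conjFun_of_mem M (isClassFunction_irr ⟨_, conjFun_isIrr M hφ _⟩) hn]
  calc _ ≤ ((fun q : X ⧸ M => conjFun M φ (Quotient.out q)) '' Set.univ).ncard :=
        Set.ncard_le_ncard hsub (Set.toFinite _)
    _ ≤ (Set.univ : Set (X ⧸ M)).ncard := Set.ncard_image_le (Set.toFinite _)
    _ = M.index := by rw [Set.ncard_univ]; rfl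




theorem galOrb_ncard_le [Fintype X] {p n : ℕ} (hX : Nat.card X = p ^ n) (M : Subgroup X)
    [hM : M.Normal] {n' : ℕ} (hMc : Nat.card M = p ^ n')
    (ψ : M → ℂ) (hψ : IsIrrCharacter M ψ) (hθ : IsIrrCharacter X (indFun M ψ)) :
    (galOrb p ψ).ncard ≤ M.index * (galOrb p (indFun M ψ)).ncard := by
  classical
  have hS := galOrb_finite hMc hψ
  have hT := galOrb_finite hX hθ
  have hmaps : ∀ φ ∈ galOrb p ψ, indFun M φ ∈ galOrb p (indFun M ψ) := by
    rintro _ ⟨k, hk, rfl⟩
    exact ⟨k, hk, indFun_galConj hX M ψ hk⟩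
  have key := Finset.card_le_mul_card_image (f := indFun M) hS.toFinset M.index ?_
  · calc (galOrb p ψ).ncard = hS.toFinset.card := Set.ncard_eq_toFinset_card _ hS
      _ ≤ M.index * (hS.toFinset.image (indFun M)).card := key
      _ ≤ M.index * (galOrb p (indFun M ψ)).ncard := by
          apply Nat.mul_le_mul_left
          rw [Set.ncard_eq_toFinset_card _ hT]
          apply Finset.card_le_card
          intro a ha
          obtain ⟨φ, hφ, rfl⟩ := Finset.mem_image.mp ha
          exact hT.mem_toFinset.mpr (hmaps φ (hS.mem_toFinset.mp hφ))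
  · intro a ha
    obtain ⟨φ₀, hφ₀, rfl⟩ := Finset.mem_image.mp ha
    have hφ₀' := hS.mem_toFinset.mp hφ₀
    obtain ⟨k₀, hk₀, rfl⟩ := hφ₀'
    have hirr₀ : IsIrrCharacter M (galConj ψ k₀) := galConj_isIrr hMc hψ hk₀
    have hind₀ : IsIrrCharacter X (indFun M (galConj ψ k₀)) := by
      rw [indFun_galConj hX M ψ hk₀]; exact galConj_isIrr hX hθ hk₀
    calc (hS.toFinset.filter (fun x => indFun M x = indFun M (galConj ψ k₀))).card
        = ((hS.toFinset.filter (fun x => indFun M x = indFun M (galConj ψ k₀)) : Finset _) :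
            Set (M → ℂ)).ncard := (Set.ncard_coe_finset _).symm
      _ ≤ {φ' : M → ℂ | ∃ y : X, φ' = conjFun M (galConj ψ k₀) y}.ncard := by
          apply Set.ncard_le_ncard _ ((Set.finite_range (fun y : X =>
            conjFun M (galConj ψ k₀) y)).subset (by rintro _ ⟨y, rfl⟩; exact ⟨y, rfl⟩))
          intro φ hφ
          rw [Finset.mem_coe, Finset.mem_filter] at hφ
          obtain ⟨k, hk, rfl⟩ := hS.mem_toFinset.mp hφ.1
          have hirr : IsIrrCharacter M (galConj ψ k) := galConj_isIrr hMc hψ hk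
          have hind : IsIrrCharacter X (indFun M (galConj ψ k)) := by rw [hφ.2]; exact hind₀
          exact conj_of_ind_eq M _ _ hirr hirr₀ hind hφ.2
      _ ≤ M.index := conj_orbit_ncard_le M _ hirr₀

theorem linear_case [Finite X] {p : ℕ} (hp : p.Prime) {n : ℕ} (hX : Nat.card X = p ^ n)
    (θ : IrrCharacter X) (a t : ℕ) (ha : (irrKer θ).index = p ^ a) (h1 : θ.1 1 = 1)
    (hN : (galOrb p θ.1).ncard ≤ (p - 1) * p ^ t) : a ≤ t + 1 := by
  classical
  rcases Nat.eq_zero_or_pos a with rfl | hapos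
  · omega
  obtain ⟨lam, hlam⟩ := exists_hom_of_linear (isCharacter_of_isIrrCharacter θ.2) h1
  have hker : irrKer θ = lam.ker := by
    ext g
    rw [mem_irrKer, MonoidHom.mem_ker, hlam, hlam, map_one]
    constructor
    · intro h; exact Units.ext (by simpa using h)
    · intro h; rw [h]
  have hrange : Nat.card lam.range = p ^ a := by
    rw [← Subgroup.index_ker, ← hker, ha]
  haveI : Finite lam.range := Finite.of_surjective lam.rangeRestrict lam.rangeRestrict_surjective
  haveI : IsCyclic lam.range := subgroup_units_cyclic lam.range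
  obtain ⟨⟨ζ, ⟨x, hx⟩⟩, hgen⟩ := IsCyclic.exists_generator (α := lam.range)
  have hord : orderOf (lam x) = p ^ a := by
    have h2 := orderOf_eq_card_of_forall_mem_zpowers hgen
    rw [← hrange, ← h2]
    subst hx
    exact (Subgroup.orderOf_mk _ _).symm
  let A : Finset ℕ := (Finset.range (p ^ a)).filter (fun k => (p ^ a).Coprime k)
  have hAcard : A.card = p ^ (a - 1) * (p - 1) := by
    rw [← Nat.totient_prime_pow hp hapos, Nat.totient_eq_card_coprime]
  have hT := galOrb_finite hX θ.2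
  have hle : A.card ≤ (galOrb p θ.1).ncard := by
    rw [← Set.ncard_coe_finset A]
    apply Set.ncard_le_ncard_of_injOn (fun k => galConj θ.1 k) _ _ hT
    · intro k hk
      have hk' := Finset.mem_filter.mp (Finset.mem_coe.mp hk)
      exact ⟨k, ((Nat.coprime_pow_left_iff hapos p k).mp hk'.2).symm, rfl⟩
    · intro k hk k' hk' hkk
      have hk1 := Finset.mem_filter.mp (Finset.mem_coe.mp hk)
      have hk1' := Finset.mem_filter.mp (Finset.mem_coe.mp hk')
      have e := congrFun hkk x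
      simp only [galConj] at e
      rw [hlam, hlam, map_pow, map_pow] at e
      have e' : lam x ^ k = lam x ^ k' := Units.ext (by simpa using e)
      have hinj := pow_injOn_Iio_orderOf (x := lam x)
      exact hinj (by rw [hord]; exact Finset.mem_range.mp hk1.1)
        (by rw [hord]; exact Finset.mem_range.mp hk1'.1) e'
  have h3 : p ^ (a - 1) * (p - 1) ≤ (p - 1) * p ^ t := hAcard ▸ hle.trans hN
  have hp1 : 0 < p - 1 := by have := hp.two_le; omega
  have h4 : p ^ (a - 1) ≤ p ^ t := by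
    rw [mul_comm] at h3; exact Nat.le_of_mul_le_mul_left h3 hp1
  have h5 : a - 1 ≤ t := (Nat.pow_le_pow_iff_right hp.one_lt).mp h4
  omega




theorem pgal_main (p : ℕ) (hp : p.Prime) : ∀ (n : ℕ) (X : Type u) [Group X] [Finite X],
    Nat.card X = p ^ n → ∀ (θ : IrrCharacter X) (a f t : ℕ), (irrKer θ).index = p ^ a →
      charDegree θ.1 = f → (galOrb p θ.1).ncard ≤ (p - 1) * p ^ t →
      (p - 1) * a ≤ (f - 1) + (p - 1) * (t + 1) * f := by
  intro n
  induction n using Nat.strong_induction_on with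
  | _ n ih =>
  intro X _ _ hX θ a f t ha hf hN
  classical
  haveI : Fintype X := Fintype.ofFinite X
  have hfc : (f : ℂ) = θ.1 1 := by rw [← hf]; exact charDegree_cast θ
  by_cases hf1 : f = 1
  · have h1 : θ.1 1 = 1 := by rw [← hfc, hf1]; simp
    have h2 := linear_case hp hX θ a t ha h1 hN
    subst hf1
    have h3 : (p - 1) * a ≤ (p - 1) * (t + 1) := Nat.mul_le_mul_left _ h2
    simpa using h3
  · haveI : Fact p.Prime := ⟨hp⟩
    have hpg : IsPGroup p X := IsPGroup.of_card hX
    haveI : Group.IsNilpotent X := hpg.isNilpotent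
    obtain ⟨J, lam, hJ⟩ := nilpotent_monomial (Nat.card X) X rfl θ.1 θ.2
    have hJtop : J ≠ ⊤ := by
      rintro rfl
      apply hf1
      have h1 : θ.1 1 = 1 := by
        rw [hJ, indFun_one]; simp
      rw [← hfc] at h1
      exact_mod_cast h1
    obtain ⟨j, hjle, hj⟩ := (Nat.dvd_prime_pow hp).mp (hX ▸ Subgroup.card_subgroup_dvd_card J)
    have hjn : j < n := by
      rcases Nat.lt_or_ge j n with h | h
      · exact h
      · exfalso
        have h1 : j = n := le_antisymm hjle h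
        apply hJtop
        apply Subgroup.eq_top_of_card_eq
        rw [hj, hX, h1]
    obtain ⟨M, hMcard, hJM⟩ := Sylow.exists_subgroup_card_pow_prime_le (G := X) p (n := j)
      (m := n - 1) (by rw [hX]; exact pow_dvd_pow p (Nat.sub_le n 1)) J hj (by omega)
    have hMidx : M.index = p := by
      have h1 := Subgroup.card_mul_index M
      rw [hMcard, hX] at h1
      have h2 : p ^ n = p ^ (n - 1) * p := by rw [← pow_succ]; congr 1; omega
      rw [h2] at h1
      exact Nat.eq_of_mul_eq_mul_left (pow_pos hp.pos _) h1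
    haveI hMn : M.Normal := by
      apply Subgroup.normal_of_index_eq_minFac_card
      rw [hMidx, hX, Nat.pow_minFac (by omega : n ≠ 0), hp.minFac_eq]
    haveI : Fintype M := Fintype.ofFinite M
    set lamf : J → ℂ := fun h => (lam h : ℂ) with hlamf
    set ψ : M → ℂ := indFun (J.subgroupOf M)
      (fun x => lamf ⟨(x : M), Subgroup.mem_subgroupOf.mp x.2⟩) with hψdef
    have hind : indFun M ψ = θ.1 := by rw [hJ]; exact indFun_trans J M hJM lamf
    have hψchar : IsCharacter M ψ := by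
      apply isCharacter_indFun
      let fJ : J.subgroupOf M →* J := MonoidHom.codRestrict
        (M.subtype.comp (J.subgroupOf M).subtype) J (fun x => Subgroup.mem_subgroupOf.mp x.2)
      exact isCharacter_comp fJ (isCharacter_of_hom_linear lam).1
    have hψirr : IsIrrCharacter M ψ := irr_of_indFun_irr M ψ hψchar (hind ▸ θ.2)
    set ψI : IrrCharacter M := ⟨ψ, hψirr⟩ with hψI
    obtain ⟨a₁, -, ha₁⟩ := (Nat.dvd_prime_pow hp).mp
      (hMcard ▸ Subgroup.index_dvd_card (irrKer ψI))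
    set f' := charDegree ψ with hf'
    have hf'pos : 0 < f' := charDegree_pos ψI
    have hff' : f = p * f' := by
      have h1 : θ.1 1 = (p : ℂ) * ψ 1 := by rw [← hind, indFun_one, hMidx]
      have h2 : (f' : ℂ) = ψ 1 := charDegree_cast ψI
      rw [← hfc, ← h2] at h1
      exact_mod_cast h1
    have hNle : (galOrb p ψ).ncard ≤ p * (galOrb p θ.1).ncard := by
      have h1 := galOrb_ncard_le hX M hMcard ψ hψirr (hind ▸ θ.2)
      rw [hMidx, hind] at h1; exact h1
    have hp2 := hp.two_le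
    by_cases hc : (galOrb p ψ).ncard ≤ (p - 1) * p ^ t
    · have hIH := ih (n - 1) (by omega) M hMcard ψI a₁ f' t ha₁ rfl hc
      have hidx := index_irrKer_ind_le M ψI θ hind.symm
      rw [ha, ha₁, hMidx, ← pow_mul, ← pow_succ] at hidx
      have hale : a ≤ a₁ * p + 1 := (Nat.pow_le_pow_iff_right hp.one_lt).mp hidx
      subst hff'
      obtain ⟨P, rfl⟩ : ∃ P, p = P + 1 := ⟨p - 1, by omega⟩
      obtain ⟨F, hF⟩ : ∃ F, f' = F + 1 := ⟨f' - 1, by omega⟩
      rw [hF] at hIH ⊢
      simp only [Nat.add_sub_cancel] at hIH ⊢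
      have e : (P + 1) * (F + 1) - 1 = (P + 1) * F + P := by
        have : (P + 1) * (F + 1) = (P + 1) * F + P + 1 := by ring
        omega
      rw [e]
      nlinarith [Nat.mul_le_mul_left P hale, Nat.mul_le_mul_left (P + 1) hIH]
    · push Not at hc
      have hS := galOrb_finite hMcard hψirr
      have hT := galOrb_finite hX θ.2
      have hlt : (galOrb p θ.1).ncard < (galOrb p ψ).ncard := lt_of_le_of_lt hN hc
      have hmaps : Set.MapsTo (indFun M) (galOrb p ψ) (galOrb p θ.1) := by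
        rintro _ ⟨k, hk, rfl⟩
        exact ⟨k, hk, by rw [indFun_galConj hX M ψ hk, hind]⟩
      obtain ⟨ψ₁, hψ₁, ψ₂, hψ₂, hne, heq⟩ :=
        Set.exists_ne_map_eq_of_ncard_lt_of_maps_to hlt hmaps hT
      obtain ⟨k₁, hk₁, rfl⟩ := hψ₁
      obtain ⟨k₂, hk₂, rfl⟩ := hψ₂
      have hirr₁ := galConj_isIrr hMcard hψirr hk₁
      have hirr₂ := galConj_isIrr hMcard hψirr hk₂
      have hind₁ : IsIrrCharacter X (indFun M (galConj ψ k₁)) := by
        rw [indFun_galConj hX M ψ hk₁, hind]; exact galConj_isIrr hX θ.2 hk₁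
      obtain ⟨y, hy⟩ := conj_of_ind_eq M _ _ hirr₁ hirr₂ hind₁ heq
      have hyM : y ∉ M := by
        intro hyM
        apply hne
        rw [hy, conjFun_of_mem M (isClassFunction_irr ⟨_, hirr₂⟩) hyM]
      have hk1 : irrKer (⟨_, hirr₁⟩ : IrrCharacter M) = irrKer ψI :=
        irrKer_galConj hMcard ψI ⟨_, hirr₁⟩ hk₁ rfl
      have hk2 : irrKer (⟨_, hirr₂⟩ : IrrCharacter M) = irrKer ψI :=
        irrKer_galConj hMcard ψI ⟨_, hirr₂⟩ hk₂ rfl
      have hyK : ∀ m : M, m ∈ irrKer ψI →
          (⟨y * m * y⁻¹, hMn.conj_mem m m.2 y⟩ : M) ∈ irrKer ψI := by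
        intro m hm
        rw [← hk1] at hm
        have h1 := (mem_irrKer_conj M ⟨_, hirr₂⟩ ⟨_, hirr₁⟩ y hy m).mp hm
        rw [hk2] at h1; exact h1
      have hidx := index_irrKer_ind_le' hp M hMidx ψI θ hind.symm y hyM hyK
      rw [ha, ha₁, hMidx, ← pow_succ] at hidx
      have hale : a ≤ a₁ + 1 := (Nat.pow_le_pow_iff_right hp.one_lt).mp hidx
      have hc' : (galOrb p ψ).ncard ≤ (p - 1) * p ^ (t + 1) := by
        calc _ ≤ p * (galOrb p θ.1).ncard := hNle
          _ ≤ p * ((p - 1) * p ^ t) := Nat.mul_le_mul_left _ hN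
          _ = (p - 1) * p ^ (t + 1) := by ring
      have hIH := ih (n - 1) (by omega) M hMcard ψI a₁ f' (t + 1) ha₁ rfl hc'
      subst hff'
      obtain ⟨P, rfl⟩ : ∃ P, p = P + 1 := ⟨p - 1, by omega⟩
      obtain ⟨F, hF⟩ : ∃ F, f' = F + 1 := ⟨f' - 1, by omega⟩
      rw [hF] at hIH ⊢
      simp only [Nat.add_sub_cancel] at hIH ⊢
      have e : (P + 1) * (F + 1) - 1 = (P + 1) * F + P := by
        have : (P + 1) * (F + 1) = (P + 1) * F + P + 1 := by ring
        omega
      rw [e]
      have hP : 1 ≤ P := by omega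
      have hQ : 1 ≤ P * ((t + 1) * (F + 1)) := Nat.mul_pos hP (Nat.mul_pos (by omega) (by omega))
      nlinarith [Nat.mul_le_mul_left P hale, Nat.mul_le_mul_left P hQ]

theorem galOrb_ncard_le_finrank {P : Type u} [Group P] [Finite P] {p a : ℕ}
    (hP : Nat.card P = p ^ a) (χ : IrrCharacter P)
    (hfin : 0 < Module.finrank ℚ (IntermediateField.adjoin ℚ (Set.range (χ : P → ℂ)))) :
    (galOrb p χ.1).ncard ≤
      Module.finrank ℚ (IntermediateField.adjoin ℚ (Set.range (χ : P → ℂ))) := by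
  classical
  set K := IntermediateField.adjoin ℚ (Set.range (χ : P → ℂ)) with hK
  haveI : FiniteDimensional ℚ K := Module.finite_of_finrank_pos hfin
  obtain ⟨n, ρ, hρirr, hρ⟩ := χ.2
  have hKle : K ≤ algebraicClosure ℚ ℂ := by
    rw [hK, IntermediateField.adjoin_le_iff]
    rintro _ ⟨g, rfl⟩
    rw [← hρ]
    exact helper23.char_mem_algClosure ρ g
  let Φ : (K →ₐ[ℚ] ℂ) → (P → ℂ) := fun τ g =>
    τ ⟨χ.1 g, IntermediateField.subset_adjoin ℚ _ ⟨g, rfl⟩⟩
  have hsub : galOrb p χ.1 ⊆ Φ '' Set.univ := by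
    rintro _ ⟨k, hk, rfl⟩
    have hkc : k.Coprime (Nat.card P) := by rw [hP]; exact Nat.Coprime.pow_right a hk
    obtain ⟨σ, hσ⟩ := helper23.exists_algHom_root_of_unity_pow (Nat.card P)
      Nat.card_pos.ne' k hkc
    refine ⟨σ.comp (IntermediateField.inclusion hKle), Set.mem_univ _, ?_⟩
    funext g
    have h1 := helper23.algHom_char σ k hσ ρ g
    show σ (IntermediateField.inclusion hKle ⟨χ.1 g, _⟩) = galConj χ.1 k g
    simp only [galConj, ← hρ]
    rw [← h1]
    congr 1
  calc (galOrb p χ.1).ncard ≤ (Φ '' Set.univ).ncard := Set.ncard_le_ncard hsub (Set.toFinite _)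
    _ ≤ (Set.univ : Set (K →ₐ[ℚ] ℂ)).ncard := Set.ncard_image_le (Set.toFinite _)
    _ = Fintype.card (K →ₐ[ℚ] ℂ) := by rw [Set.ncard_univ, Nat.card_eq_fintype_card]
    _ = Module.finrank ℚ K := AlgHom.card ℚ K ℂ

theorem faithful_pgroup_order_bound {P : Type u} [Group P] [Finite P] (p a : ℕ) (hp : p.Prime)
    (ha : 0 < a) (hP : Nat.card P = p ^ a) (χ : IrrCharacter P)
    (hfaith : ∀ g : P, (χ : P → ℂ) g = (χ : P → ℂ) 1 → g = 1) (f t : ℕ)
    (hf : charDegree (χ : P → ℂ) = f)
    (hfield : Module.finrank ℚ (IntermediateField.adjoin ℚ (Set.range (χ : P → ℂ))) =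
      (p - 1) * p ^ t) : (p - 1) * a ≤ (f - 1) + (p - 1) * (t + 1) * f := by
  have hker : irrKer χ = ⊥ := by
    rw [eq_bot_iff]; intro g hg
    exact Subgroup.mem_bot.mpr (hfaith g ((mem_irrKer χ g).mp hg))
  have hidx : (irrKer χ).index = p ^ a := by rw [hker, Subgroup.index_bot, hP]
  have hpos : 0 < (p - 1) * p ^ t :=
    Nat.mul_pos (by have := hp.two_le; omega) (pow_pos hp.pos t)
  have hN := galOrb_ncard_le_finrank (p := p) hP χ (hfield ▸ hpos)
  rw [hfield] at hN
  exact pgal_main p hp a P hP χ a f t hidx hf hN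


end PGal
end Cfsg.Agent.Lib.helper24
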