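import Cfsg.Agent.Lib.helper24.CharBrauer6
import Cfsg.Agent.Lib.helper24.CharEquiv

/-! Brauer's splitting field theorem, part 1: representations over a subfield `K` of `ℂ`,
trace additivity for sub/quotient, and existence of intertwiners. -/

set_option autoImplicit false

namespace Cfsg.Agent.Lib.helper24.Split

open Cfsg
open scoped ComplexConjugate

universe u

/-- Trace additivity along an invariant submodule. -/
theorem trace_sub_add_quot {K : Type*} [Field K] {V : Type*} [AddCommGroup V] [Module K V]
    [Module.Finite K V] (f : V →ₗ[K] V) (W : Submodule K V) (hW : W ≤ W.comap f) :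
    LinearMap.trace K V f = LinearMap.trace K W (f.restrict hW)
      + LinearMap.trace K (V ⧸ W) (W.mapQ W f hW) := by
  obtain ⟨C, hC⟩ := Submodule.exists_isCompl W
  have hid : W.projection C hC + C.projection W hC.symm = LinearMap.id :=
    Submodule.projection_add_projection_eq_id hC
  have h1 : LinearMap.trace K V f
      = LinearMap.trace K V (W.projection C hC ∘ₗ f)
        + LinearMap.trace K V (C.projection W hC.symm ∘ₗ f) := by
    rw [← map_add, ← LinearMap.add_comp, hid, LinearMap.id_comp]
  have h2 : LinearMap.trace K V (W.projection C hC ∘ₗ f)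
      = LinearMap.trace K W (f.restrict hW) := by
    unfold Submodule.projection
    rw [LinearMap.comp_assoc, LinearMap.trace_comp_comm']
    congr 1
    ext w
    simp only [LinearMap.coe_comp, Submodule.coe_subtype, Function.comp_apply,
      LinearMap.coe_restrict_apply]
    have hfw : f w ∈ W := hW w.2
    have := Submodule.projectionOnto_apply_left hC ⟨f w, hfw⟩
    rw [this]
  set e : (V ⧸ W) ≃ₗ[K] C := Submodule.quotientEquivOfIsCompl W C hC with he
  have h3 : LinearMap.trace K V (C.projection W hC.symm ∘ₗ f)
      = LinearMap.trace K (V ⧸ W) (W.mapQ W f hW) := by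
    unfold Submodule.projection
    rw [LinearMap.comp_assoc, LinearMap.trace_comp_comm', ← LinearMap.trace_conj' _ e]
    congr 1
  rw [h1, h2, h3]


/-- If the trace pairing of two representations is nonzero, there is a nonzero
intertwiner between them. -/
theorem exists_intertwiner {K : Type*} [Field K] {G : Type*} [Group G] [Fintype G]
    {X Y : Type*} [AddCommGroup X] [Module K X] [Module.Finite K X]
    [AddCommGroup Y] [Module K Y] [Module.Finite K Y]
    (ρX : Representation K G X) (ρY : Representation K G Y)
    (h : ∑ g : G, LinearMap.trace K Y (ρY g) * LinearMap.trace K X (ρX g⁻¹) ≠ 0) :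
    ∃ F : X →ₗ[K] Y, F ≠ 0 ∧ ∀ g, F ∘ₗ ρX g = ρY g ∘ₗ F := by
  by_contra hne
  push Not at hne
  have hΦ : ∀ f : X →ₗ[K] Y, ∑ g : G, ρY g ∘ₗ f ∘ₗ ρX g⁻¹ = 0 := by
    intro f
    by_contra hf
    obtain ⟨a, ha⟩ := hne _ hf
    apply ha
    ext x
    simp only [LinearMap.comp_apply, LinearMap.sum_apply, map_sum]
    refine (Fintype.sum_equiv (Equiv.mulLeft a) _ _ ?_).symm
    intro g
    simp only [Equiv.coe_mulLeft]
    rw [map_mul ρY a g, Module.End.mul_apply]
    congr 2
    rw [← Module.End.mul_apply, ← map_mul]
    congr 2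
    group
  set bX := Module.finBasis K X with hbX
  set bY := Module.finBasis K Y with hbY
  have key : ∀ (j : Fin (Module.finrank K Y)) (k : Fin (Module.finrank K X)),
      ∑ g : G, bY.repr (ρY g (bY j)) j * bX.repr (ρX g⁻¹ (bX k)) k = 0 := by
    intro j k
    have h1 := hΦ ((bX.coord k).smulRight (bY j))
    have h2 := congrArg (fun F : X →ₗ[K] Y => bY.repr (F (bX k)) j) h1
    simp only [LinearMap.sum_apply, LinearMap.comp_apply, LinearMap.smulRight_apply, map_sum,
      map_smul, Finsupp.coe_finset_sum, Finset.sum_apply, Finsupp.smul_apply, smul_eq_mul,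
      Module.Basis.coord_apply, LinearMap.zero_apply, map_zero, Finsupp.coe_zero,
      Pi.zero_apply] at h2
    rw [← h2]
    refine Finset.sum_congr rfl fun g _ => ?_
    rw [mul_comm]
  apply h
  have htY : ∀ g : G, LinearMap.trace K Y (ρY g) = ∑ j, bY.repr (ρY g (bY j)) j := by
    intro g
    rw [LinearMap.trace_eq_matrix_trace K bY, Matrix.trace]
    refine Finset.sum_congr rfl fun j _ => ?_
    rw [Matrix.diag_apply, LinearMap.toMatrix_apply]
  have htX : ∀ g : G, LinearMap.trace K X (ρX g) = ∑ k, bX.repr (ρX g (bX k)) k := by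
    intro g
    rw [LinearMap.trace_eq_matrix_trace K bX, Matrix.trace]
    refine Finset.sum_congr rfl fun j _ => ?_
    rw [Matrix.diag_apply, LinearMap.toMatrix_apply]
  calc ∑ g : G, LinearMap.trace K Y (ρY g) * LinearMap.trace K X (ρX g⁻¹)
      = ∑ g : G, ∑ j, ∑ k, bY.repr (ρY g (bY j)) j * bX.repr (ρX g⁻¹ (bX k)) k := by
        refine Finset.sum_congr rfl fun g _ => ?_
        rw [htY, htX, Finset.sum_mul_sum]
    _ = ∑ j, ∑ k, ∑ g : G, bY.repr (ρY g (bY j)) j * bX.repr (ρX g⁻¹ (bX k)) k := by
        rw [Finset.sum_comm]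
        refine Finset.sum_congr rfl fun j _ => ?_
        rw [Finset.sum_comm]
    _ = 0 := by
        refine Finset.sum_eq_zero fun j _ => Finset.sum_eq_zero fun k _ => key j k

/-- `χ` is afforded by a representation over `K`. -/
def KReal (K : Type) [Field K] [Algebra K ℂ] (G : Type u) [Group G] (χ : G → ℂ) : Prop :=
  ∃ (V : Type u) (_ : AddCommGroup V) (_ : Module K V) (_ : Module.Finite K V)
    (ρ : Representation K G V), ∀ g, χ g = algebraMap K ℂ (LinearMap.trace K V (ρ g))

variable {K : Type} [Field K] [Algebra K ℂ] {G : Type u} [Group G]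

theorem kreal_zero : KReal K G 0 := by
  refine ⟨PUnit.{u+1}, inferInstance, inferInstance, inferInstance, 1, fun g => ?_⟩
  rw [Subsingleton.elim ((1 : Representation K G PUnit.{u+1}) g) 0, map_zero, map_zero]
  rfl

theorem kreal_add {α β : G → ℂ} (hα : KReal K G α) (hβ : KReal K G β) :
    KReal K G (α + β) := by
  obtain ⟨V, _, _, _, ρ, h1⟩ := hα
  obtain ⟨W, _, _, _, σ, h2⟩ := hβ
  refine ⟨V × W, inferInstance, inferInstance, inferInstance,
    { toFun := fun g => (ρ g).prodMap (σ g)
      map_one' := by rw [map_one, map_one]; exact LinearMap.prodMap_one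
      map_mul' := fun g h => by rw [map_mul, map_mul]; exact (LinearMap.prodMap_mul _ _ _ _).symm },
    fun g => ?_⟩
  simp only [MonoidHom.coe_mk, OneHom.coe_mk, Pi.add_apply]
  rw [LinearMap.trace_prodMap', map_add, h1, h2]

theorem kreal_nsmul {α : G → ℂ} (hα : KReal K G α) (n : ℕ) : KReal K G ((n : ℂ) • α) := by
  induction n with
  | zero => simpa using (kreal_zero (K := K) (G := G))
  | succ n ih =>
    have : ((n + 1 : ℕ) : ℂ) • α = (n : ℂ) • α + α := by
      push_cast; rw [add_smul, one_smul]
    rw [this]
    exact kreal_add ih hα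

/-- A `K`-realizable function is the character of a complex matrix representation with
entries in the image of `K`. -/
theorem kreal_matrix {χ : G → ℂ} (h : KReal K G χ) :
    ∃ (n : ℕ) (σ : Representation ℂ G (Fin n → ℂ)), σ.character = χ ∧
      ∀ g i j, LinearMap.toMatrix' (σ g) i j ∈ Set.range (algebraMap K ℂ) := by
  obtain ⟨V, _, _, _, ρ, h1⟩ := h
  set b := Module.finBasis K V with hb
  refine ⟨Module.finrank K V,
    { toFun := fun g => Matrix.toLin' ((LinearMap.toMatrix b b (ρ g)).map (algebraMap K ℂ))
      map_one' := by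
        rw [map_one, Module.End.one_eq_id, LinearMap.toMatrix_id,
          Matrix.map_one _ (map_zero _) (map_one _), Matrix.toLin'_one]; rfl
      map_mul' := fun g h => by
        rw [map_mul, LinearMap.toMatrix_mul, Matrix.map_mul, Matrix.toLin'_mul]; rfl },
    ?_, ?_⟩
  · funext g
    unfold Representation.character
    simp only [MonoidHom.coe_mk, OneHom.coe_mk]
    rw [Matrix.trace_toLin'_eq, h1, LinearMap.trace_eq_matrix_trace K b,
      AddMonoidHom.map_trace (algebraMap K ℂ)]
  · intro g i j
    simp only [MonoidHom.coe_mk, OneHom.coe_mk]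
    rw [LinearMap.toMatrix'_toLin', Matrix.map_apply]
    exact ⟨_, rfl⟩

theorem isCharacter_of_kreal {χ : G → ℂ} (h : KReal K G χ) : IsCharacter G χ := by
  obtain ⟨n, σ, h1, -⟩ := kreal_matrix h
  exact ⟨n, σ, h1⟩


/-- Key lemma: if `β = α + χ` with `α`, `β` afforded by `K`-representations and `χ` a
character, then `χ` is afforded by a `K`-representation. -/
theorem kreal_diff_aux [Fintype G] (χ : G → ℂ) (hχ : IsCharacter G χ) :
    ∀ (d : ℕ) (X : Type u) [AddCommGroup X] [Module K X] [Module.Finite K X]
      (ρX : Representation K G X) (Y : Type u) [AddCommGroup Y] [Module K Y] [Module.Finite K Y]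
      (ρY : Representation K G Y), Module.finrank K X ≤ d →
      (∀ g, algebraMap K ℂ (LinearMap.trace K Y (ρY g))
        = algebraMap K ℂ (LinearMap.trace K X (ρX g)) + χ g) → KReal K G χ := by
  intro d
  induction d with
  | zero =>
    intro X _ _ _ ρX Y _ _ _ ρY hd hdiff
    have hX : Subsingleton X := by
      have : Module.finrank K X = 0 := Nat.le_zero.mp hd
      exact Module.finrank_zero_iff.mp this
    refine ⟨Y, inferInstance, inferInstance, inferInstance, ρY, fun g => ?_⟩
    rw [hdiff g, Subsingleton.elim (ρX g) 0, map_zero, map_zero, zero_add]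
  | succ d ih =>
    intro X _ _ _ ρX Y _ _ _ ρY hd hdiff
    by_cases hX0 : Module.finrank K X = 0
    · have hX : Subsingleton X := Module.finrank_zero_iff.mp hX0
      refine ⟨Y, inferInstance, inferInstance, inferInstance, ρY, fun g => ?_⟩
      rw [hdiff g, Subsingleton.elim (ρX g) 0, map_zero, map_zero, zero_add]
    set α : G → ℂ := fun g => algebraMap K ℂ (LinearMap.trace K X (ρX g)) with hα
    set β : G → ℂ := fun g => algebraMap K ℂ (LinearMap.trace K Y (ρY g)) with hβ
    have hαK : KReal K G α :=
      ⟨X, inferInstance, inferInstance, inferInstance, ρX, fun g => rfl⟩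
    have hβK : KReal K G β :=
      ⟨Y, inferInstance, inferInstance, inferInstance, ρY, fun g => rfl⟩
    have hαc := isCharacter_of_kreal hαK
    have hβc := isCharacter_of_kreal hβK
    have hβeq : β = α + χ := funext hdiff
    have hα1 : α 1 ≠ 0 := by
      simp only [hα, map_one]
      rw [LinearMap.trace_one, map_natCast]
      exact_mod_cast hX0
    obtain ⟨n1, hn1, hn1'⟩ := helper24.isCharacter_inner_self_pos hαc hα1
    obtain ⟨n2, hn2⟩ := helper24.isCharacter_inner_nat hχ hαc
    have hinner : classInner β α ≠ 0 := by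
      rw [hβeq, helper24.classInner_add_left, hn1', hn2]
      exact_mod_cast (by omega : n1 + n2 ≠ 0)
    have hsum : ∑ g : G, LinearMap.trace K Y (ρY g) * LinearMap.trace K X (ρX g⁻¹) ≠ 0 := by
      intro h0
      apply hinner
      have h1 := congrArg (algebraMap K ℂ) h0
      rw [map_sum, map_zero] at h1
      have h2 : ∑ g : G, β g * conj (α g) = 0 := by
        rw [← h1]
        refine Finset.sum_congr rfl fun g _ => ?_
        rw [map_mul, ← helper24.isCharacter_inv hαc g]
      rw [helper24.sum_mul_conj_eq_classInner] at h2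
      rcases mul_eq_zero.mp h2 with h3 | h3
      · exfalso; exact (Nat.cast_ne_zero.mpr Nat.card_pos.ne') h3
      · exact h3
    obtain ⟨F, hF0, hF⟩ := exists_intertwiner ρX ρY hsum
    have hker : ∀ g, LinearMap.ker F ≤ (LinearMap.ker F).comap (ρX g) := by
      intro g x hx
      rw [Submodule.mem_comap, LinearMap.mem_ker]
      have := congrArg (fun T : X →ₗ[K] Y => T x) (hF g)
      simp only [LinearMap.comp_apply] at this
      rw [this, LinearMap.mem_ker.mp hx, map_zero]
    have hrange : ∀ g, LinearMap.range F ≤ (LinearMap.range F).comap (ρY g) := by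
      rintro g _ ⟨x, rfl⟩
      rw [Submodule.mem_comap]
      exact ⟨ρX g x, congrArg (fun T : X →ₗ[K] Y => T x) (hF g)⟩
    have hlt : Module.finrank K (LinearMap.ker F) < Module.finrank K X := by
      apply Submodule.finrank_lt
      intro htop
      exact hF0 (LinearMap.ker_eq_top.mp htop)
    refine ih (LinearMap.ker F) (ρX.subrepresentation _ hker) (Y ⧸ LinearMap.range F)
      (ρY.quotient _ hrange) (by omega) ?_
    intro g
    have hA := trace_sub_add_quot (ρX g) (LinearMap.ker F) (hker g)
    have hB := trace_sub_add_quot (ρY g) (LinearMap.range F) (hrange g)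
    have hC : LinearMap.trace K (X ⧸ LinearMap.ker F)
          ((LinearMap.ker F).mapQ _ (ρX g) (hker g))
        = LinearMap.trace K (LinearMap.range F) ((ρY g).restrict (hrange g)) := by
      rw [← LinearMap.trace_conj' _ F.quotKerEquivRange]
      congr 1
      ext y
      obtain ⟨q, rfl⟩ := F.quotKerEquivRange.surjective y
      obtain ⟨x, rfl⟩ := Submodule.Quotient.mk_surjective _ q
      rw [LinearEquiv.conj_apply]
      simp only [LinearMap.comp_apply, LinearEquiv.coe_coe, LinearEquiv.symm_apply_apply,
        Submodule.mapQ_apply, LinearMap.quotKerEquivRange_apply_mk,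
        LinearMap.coe_restrict_apply]
      exact congrArg (fun T : X →ₗ[K] Y => T x) (hF g)
    have hd' := hdiff g
    rw [hA, hB, hC, map_add, map_add] at hd'
    simp only [Representation.subrepresentation_apply, Representation.quotient_apply]
    linear_combination hd'

theorem kreal_diff [Fintype G] {α β χ : G → ℂ} (hχ : IsCharacter G χ) (hα : KReal K G α)
    (hβ : KReal K G β) (h : β = α + χ) : KReal K G χ := by
  obtain ⟨X, _, _, _, ρX, hX⟩ := hα
  obtain ⟨Y, _, _, _, ρY, hY⟩ := hβ
  refine kreal_diff_aux χ hχ (Module.finrank K X) X ρX Y ρY le_rfl fun g => ?_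
  rw [← hX, ← hY, h]
  rfl

end Cfsg.Agent.Lib.helper24.Split
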