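import Cfsg.Agent.Lib.helper24.Split1

/-! Brauer's splitting field theorem, part 2: monomial characters are afforded over any
field containing the values of the linear character; the main theorem. -/

set_option autoImplicit false

namespace Cfsg.Agent.Lib.helper24.Split

open Cfsg
open scoped ComplexConjugate

universe u

variable {K : Type} [Field K] [Algebra K ℂ] {G : Type u} [Group G]

/-- The range of an equivariant idempotent affords the function `g ↦ tr (ρ g ∘ P)`. -/
theorem kreal_range {V : Type u} [AddCommGroup V] [Module K V] [Module.Finite K V]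
    (ρ : Representation K G V) (P : V →ₗ[K] V) (hP : P ∘ₗ P = P)
    (hc : ∀ g, P ∘ₗ ρ g = ρ g ∘ₗ P) :
    KReal K G (fun g => algebraMap K ℂ (LinearMap.trace K V (ρ g ∘ₗ P))) := by
  have hW : ∀ g, LinearMap.range P ≤ (LinearMap.range P).comap (ρ g) := by
    rintro g _ ⟨v, rfl⟩
    rw [Submodule.mem_comap]
    exact ⟨ρ g v, congrArg (fun T : V →ₗ[K] V => T v) (hc g)⟩
  refine ⟨LinearMap.range P, inferInstance, inferInstance, inferInstance,
    ρ.subrepresentation _ hW, fun g => ?_⟩
  have hf : ∀ x, (ρ g ∘ₗ P) x ∈ LinearMap.range P := fun x => hW g ⟨x, rfl⟩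
  show algebraMap K ℂ (LinearMap.trace K V (ρ g ∘ₗ P)) = _
  rw [← LinearMap.trace_restrict_eq_of_forall_mem (LinearMap.range P) (ρ g ∘ₗ P) hf]
  congr 2
  ext w
  obtain ⟨v, hv⟩ := w.2
  simp only [Representation.subrepresentation_apply, LinearMap.coe_restrict_apply,
    LinearMap.comp_apply]
  rw [← hv]
  have := congrArg (fun T : V →ₗ[K] V => T v) hP
  simp only [LinearMap.comp_apply] at this
  rw [this]

/-- The left regular representation on functions. -/
noncomputable def lreg (K : Type) [Field K] (G : Type u) [Group G] :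
    Representation K G (G → K) where
  toFun g := LinearMap.funLeft K K (fun x => g⁻¹ * x)
  map_one' := by
    refine LinearMap.ext fun f => funext fun x => ?_
    simp [LinearMap.funLeft_apply]
  map_mul' g h := by
    refine LinearMap.ext fun f => funext fun x => ?_
    simp [LinearMap.funLeft_apply, mul_assoc]

theorem lreg_apply (g : G) (f : G → K) (x : G) : lreg K G g f x = f (g⁻¹ * x) := rfl

/-- The twisted averaging operator over a subgroup. -/
noncomputable def avgOp (E : Subgroup G) [Fintype E] (μ : E → K) : (G → K) →ₗ[K] (G → K) where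
  toFun f x := (Nat.card E : K)⁻¹ * ∑ e : E, μ e * f (x * (e : G))
  map_add' f f' := by
    funext x
    simp only [Pi.add_apply, mul_add, Finset.sum_add_distrib]
  map_smul' c f := by
    funext x
    simp only [Pi.smul_apply, smul_eq_mul, RingHom.id_apply]
    rw [Finset.mul_sum, Finset.mul_sum, Finset.mul_sum]
    exact Finset.sum_congr rfl fun e _ => by ring

theorem avgOp_apply (E : Subgroup G) [Fintype E] (μ : E → K) (f : G → K) (x : G) :
    avgOp E μ f x = (Nat.card E : K)⁻¹ * ∑ e : E, μ e * f (x * (e : G)) := rfl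

/-- Monomial characters are afforded over `K` when the linear character has values in `K`. -/
theorem kreal_ind [Fintype G] (E : Subgroup G) (lam : E →* ℂˣ)
    (hlam : ∀ e : E, ((lam e : ℂˣ) : ℂ) ∈ Set.range (algebraMap K ℂ)) :
    KReal K G (indFun E (fun e => ((lam e : ℂˣ) : ℂ))) := by
  haveI : Fintype E := Fintype.ofFinite E
  choose μ hμ using hlam
  have hinj : Function.Injective (algebraMap K ℂ) := (algebraMap K ℂ).injective
  have hμmul : ∀ a b : E, μ (a * b) = μ a * μ b := by
    intro a b
    apply hinj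
    rw [map_mul, hμ, hμ, hμ, map_mul, Units.val_mul]
  have hcard : (Nat.card E : K) ≠ 0 := by
    intro h0
    have := congrArg (algebraMap K ℂ) h0
    rw [map_natCast, map_zero] at this
    exact (Nat.cast_ne_zero.mpr Nat.card_pos.ne') this
  have hP : avgOp E μ ∘ₗ avgOp E μ = avgOp E μ := by
    refine LinearMap.ext fun f => funext fun x => ?_
    rw [LinearMap.comp_apply, avgOp_apply]
    have hin : ∀ e : E, μ e * avgOp E μ f (x * (e : G))
        = (Nat.card E : K)⁻¹ * ∑ e' : E, μ e' * f (x * (e' : G)) := by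
      intro e
      rw [avgOp_apply, mul_left_comm, Finset.mul_sum]
      congr 1
      refine Fintype.sum_equiv (Equiv.mulLeft e) _ _ ?_
      intro e'
      simp only [Equiv.coe_mulLeft, Subgroup.coe_mul]
      rw [hμmul, mul_assoc, mul_assoc]
    rw [Finset.sum_congr rfl fun e _ => hin e, Finset.sum_const, Finset.card_univ,
      nsmul_eq_mul, ← Nat.card_eq_fintype_card, avgOp_apply, ← mul_assoc, ← mul_assoc,
      inv_mul_cancel₀ hcard, one_mul]
  have hc : ∀ g, avgOp E μ ∘ₗ lreg K G g = lreg K G g ∘ₗ avgOp E μ := by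
    intro g
    refine LinearMap.ext fun f => funext fun x => ?_
    rw [LinearMap.comp_apply, LinearMap.comp_apply, avgOp_apply, lreg_apply, avgOp_apply]
    congr 1
    refine Finset.sum_congr rfl fun e _ => ?_
    rw [lreg_apply, mul_assoc]
  have hk := kreal_range (lreg K G) (avgOp E μ) hP hc
  have heq : indFun E (fun e => ((lam e : ℂˣ) : ℂ)) = fun g =>
      algebraMap K ℂ (LinearMap.trace K (G → K) (lreg K G g ∘ₗ avgOp E μ)) := by
    classical
    funext g
    rw [LinearMap.trace_eq_matrix_trace K (Pi.basisFun K G), Matrix.trace]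
    simp only [Matrix.diag_apply, LinearMap.toMatrix_apply, Pi.basisFun_repr,
      Pi.basisFun_apply, LinearMap.comp_apply, lreg_apply, avgOp_apply]
    unfold indFun
    rw [← Finset.mul_sum, map_mul, map_inv₀, map_natCast, map_sum]
    congr 1
    refine Finset.sum_congr rfl fun x _ => ?_
    by_cases hx : x⁻¹ * g * x ∈ E
    · rw [helper24.extendByZero_apply_mem E _ hx]
      rw [Finset.sum_eq_single (⟨x⁻¹ * g * x, hx⟩ : E)]
      · rw [Pi.single_apply, if_pos (by group), mul_one, hμ]
      · intro e _ he
        rw [Pi.single_apply, if_neg, mul_zero]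
        intro h1
        apply he
        apply Subtype.ext
        show (e : G) = x⁻¹ * g * x
        have : (e : G) = x⁻¹ * g * (g⁻¹ * x * (e : G)) := by group
        rw [this, h1]
      · intro h; exact absurd (Finset.mem_univ _) h
    · rw [helper24.extendByZero_apply_not_mem E _ hx]
      rw [Finset.sum_eq_zero, map_zero]
      intro e _
      rw [Pi.single_apply, if_neg, mul_zero]
      intro h1
      apply hx
      have : x⁻¹ * g * x = (e : G) := by
        have : (e : G) = x⁻¹ * g * (g⁻¹ * x * (e : G)) := by group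
        rw [this, h1]
      rw [this]
      exact e.2
  rw [heq]
  exact hk


/-- General splitting statement: if `K` contains the roots of unity of order dividing the
exponent, every complex representation is equivalent to one with matrix entries in `K`. -/
theorem realizable_over [Fintype G]
    (hK : ∀ z : ℂ, z ^ Monoid.exponent G = 1 → z ∈ Set.range (algebraMap K ℂ))
    (n : ℕ) (ρ : Representation ℂ G (Fin n → ℂ)) :
    ∃ σ : Representation ℂ G (Fin n → ℂ), Nonempty (ρ.Equiv σ) ∧
      ∀ g i j, LinearMap.toMatrix' (σ g) i j ∈ Set.range (algebraMap K ℂ) := by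
  have hχ : IsCharacter G ρ.character := ⟨n, ρ, rfl⟩
  obtain ⟨l, -, hl⟩ := helper24.brauer_induction ρ.character hχ
  have hsplit : ∀ l : List ((E : Subgroup G) × ((E →* ℂˣ) × ℤ)),
      ∃ α β : G → ℂ, KReal K G α ∧ KReal K G β ∧
        β = α + (l.map fun t => (t.2.2 : ℂ) • indFun t.1 (fun e => (t.2.1 e : ℂ))).sum := by
    intro l
    induction l with
    | nil => exact ⟨0, 0, kreal_zero, kreal_zero, by simp⟩
    | cons t l ih =>
      obtain ⟨α, β, hα, hβ, h⟩ := ih
      have hind : KReal K G (indFun t.1 (fun e => (t.2.1 e : ℂ))) := by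
        apply kreal_ind
        intro e
        apply hK
        rw [← Units.val_pow_eq_pow_val, ← map_pow]
        have : e ^ Monoid.exponent G = 1 := by
          apply Subtype.ext
          rw [Subgroup.coe_pow, Monoid.pow_exponent_eq_one]; rfl
        rw [this, map_one, Units.val_one]
      rcases le_or_gt 0 t.2.2 with hpos | hneg
      · refine ⟨α, β + ((t.2.2.toNat : ℕ) : ℂ) • indFun t.1 (fun e => (t.2.1 e : ℂ)), hα,
          kreal_add hβ (kreal_nsmul hind _), ?_⟩
        rw [List.map_cons, List.sum_cons, h]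
        have : ((t.2.2.toNat : ℕ) : ℂ) = (t.2.2 : ℂ) := by
          have := Int.toNat_of_nonneg hpos
          exact_mod_cast congrArg (fun z : ℤ => (z : ℂ)) this
        rw [this]; abel
      · refine ⟨α + (((-t.2.2).toNat : ℕ) : ℂ) • indFun t.1 (fun e => (t.2.1 e : ℂ)), β,
          kreal_add hα (kreal_nsmul hind _), hβ, ?_⟩
        rw [List.map_cons, List.sum_cons, h]
        have : (((-t.2.2).toNat : ℕ) : ℂ) = -(t.2.2 : ℂ) := by
          have := Int.toNat_of_nonneg (by omega : 0 ≤ -t.2.2)
          exact_mod_cast congrArg (fun z : ℤ => (z : ℂ)) this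
        rw [this, neg_smul]; abel
  obtain ⟨α, β, hα, hβ, h⟩ := hsplit l
  rw [← hl] at h
  have hKχ := kreal_diff hχ hα hβ h
  obtain ⟨n', σ, hσ, hent⟩ := kreal_matrix hKχ
  have hn : n' = n := by
    have h1 := congrFun hσ 1
    simp only [Representation.character, map_one, LinearMap.trace_one,
      Module.finrank_fin_fun] at h1
    exact_mod_cast h1
  subst hn
  exact ⟨σ, helper24.equiv_of_character_eq ρ σ hσ.symm, hent⟩

/-- Brauer's splitting field theorem. -/
theorem splitting {G : Type u} [Group G] [Finite G] (n : ℕ)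
    (ρ : Representation ℂ G (Fin n → ℂ)) :
    ∃ σ : Representation ℂ G (Fin n → ℂ), Nonempty (ρ.Equiv σ) ∧ ∀ g : G, ∀ i j : Fin n,
      LinearMap.toMatrix' (σ g) i j ∈ Algebra.adjoin ℚ
        ({Complex.exp (2 * Real.pi * Complex.I / (Monoid.exponent G : ℂ))} : Set ℂ) := by
  haveI : Fintype G := Fintype.ofFinite G
  have hm0 : Monoid.exponent G ≠ 0 := Monoid.exponent_ne_zero_of_finite
  set ζ : ℂ := Complex.exp (2 * Real.pi * Complex.I / (Monoid.exponent G : ℂ)) with hζ
  have hprim : IsPrimitiveRoot ζ (Monoid.exponent G) :=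
    Complex.isPrimitiveRoot_exp (Monoid.exponent G) hm0
  have hint : IsIntegral ℚ ζ := by
    apply IsIntegral.of_pow (Nat.pos_of_ne_zero hm0)
    rw [hprim.pow_eq_one]; exact isIntegral_one
  have hK : ∀ z : ℂ, z ^ Monoid.exponent G = 1 →
      z ∈ Set.range (algebraMap (↥(IntermediateField.adjoin ℚ {ζ})) ℂ) := by
    intro z hz
    haveI : NeZero (Monoid.exponent G) := ⟨hm0⟩
    obtain ⟨i, -, rfl⟩ := hprim.eq_pow_of_pow_eq_one hz
    exact ⟨⟨ζ ^ i, pow_mem (IntermediateField.mem_adjoin_simple_self ℚ ζ) i⟩, rfl⟩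
  obtain ⟨σ, hσ, hent⟩ := realizable_over (K := ↥(IntermediateField.adjoin ℚ {ζ})) hK n ρ
  refine ⟨σ, hσ, fun g i j => ?_⟩
  obtain ⟨x, hx⟩ := hent g i j
  rw [← hx, ← IntermediateField.adjoin_simple_toSubalgebra_of_isAlgebraic hint.isAlgebraic]
  exact x.2

end Cfsg.Agent.Lib.helper24.Split
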