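import Mathlib
import Cfsg.Prelude
import Cfsg.Agent.Lib.helper3.Subnormal
import Cfsg.Agent.Lib.helper14.Subnormal

set_option autoImplicit false
set_option maxHeartbeats 1000000

namespace Cfsg.Agent.Lib.helper24.SubnPair

open Cfsg
open scoped commutatorElement

universe u

variable {G : Type u} [Group G]

/-- conjugate of a subgroup -/
def cj (g : G) (H : Subgroup G) : Subgroup G := H.map (MulAut.conj g).toMonoidHom

theorem mem_cj {g : G} {H : Subgroup G} {x : G} : x ∈ cj g H ↔ ∃ h ∈ H, g * h * g⁻¹ = x := by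
  unfold cj
  rw [Subgroup.mem_map]
  rfl

theorem cj_mem {g : G} {H : Subgroup G} {h : G} (hh : h ∈ H) : g * h * g⁻¹ ∈ cj g H :=
  mem_cj.mpr ⟨h, hh, rfl⟩

theorem cj_of_normalizer {g : G} {H : Subgroup G} (hg : g ∈ Subgroup.normalizer (H : Set G)) :
    cj g H = H := by
  ext x
  rw [mem_cj]
  constructor
  · rintro ⟨h, hh, rfl⟩
    exact (Subgroup.mem_normalizer_iff.mp hg h).mp hh
  · intro hx
    refine ⟨g⁻¹ * x * g, ?_, by group⟩
    have h1 := (Subgroup.mem_normalizer_iff.mp hg (g⁻¹ * x * g))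
    apply h1.mpr
    have e : g * (g⁻¹ * x * g) * g⁻¹ = x := by group
    rw [e]; exact hx

theorem normalizer_of_cj {g : G} {H : Subgroup G} (h : cj g H = H) :
    g ∈ Subgroup.normalizer (H : Set G) := by
  rw [Subgroup.mem_normalizer_iff]
  intro x
  constructor
  · intro hx
    rw [← h]; exact cj_mem hx
  · intro hx
    rw [← h, mem_cj] at hx
    obtain ⟨y, hy, hxy⟩ := hx
    have e : y = x := by
      have h2 : g⁻¹ * (g * y * g⁻¹) * g = g⁻¹ * (g * x * g⁻¹) * g := by rw [hxy]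
      simpa [mul_assoc] using h2
    rw [← e]; exact hy

theorem cj_commutator (g : G) (A B : Subgroup G) : cj g ⁅A, B⁆ = ⁅cj g A, cj g B⁆ := by
  unfold cj
  exact Subgroup.map_commutator A B _

theorem card_cj [Finite G] (g : G) (H : Subgroup G) : Nat.card (cj g H) = Nat.card H := by
  unfold cj
  exact Subgroup.card_map_of_injective (MulAut.conj g).injective

theorem cj_mono (g : G) {H K : Subgroup G} (h : H ≤ K) : cj g H ≤ cj g K := Subgroup.map_mono h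

theorem cj_cj (g h : G) (H : Subgroup G) : cj g (cj h H) = cj (g * h) H := by
  ext x
  simp only [mem_cj]
  constructor
  · rintro ⟨_, ⟨y, hy, rfl⟩, rfl⟩
    exact ⟨y, hy, by group⟩
  · rintro ⟨y, hy, rfl⟩
    exact ⟨h * y * h⁻¹, ⟨y, hy, rfl⟩, by group⟩

theorem cj_one (H : Subgroup G) : cj 1 H = H := by
  ext x
  simp [mem_cj]

theorem cj_bot (g : G) : cj g (⊥ : Subgroup G) = ⊥ := by
  unfold cj; exact Subgroup.map_bot _

theorem cj_inf (g : G) (H K : Subgroup G) : cj g (H ⊓ K) = cj g H ⊓ cj g K := by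
  unfold cj
  exact Subgroup.map_inf H K _ (MulAut.conj g).injective

theorem cj_sup (g : G) (H K : Subgroup G) : cj g (H ⊔ K) = cj g H ⊔ cj g K := by
  unfold cj
  exact Subgroup.map_sup H K _

/-- `V` normalised by `X`: commutator inside `V`. -/
theorem comm_le {V X : Subgroup G} (hX : X ≤ Subgroup.normalizer (V : Set G)) : ⁅V, X⁆ ≤ V := by
  rw [Subgroup.commutator_le]
  intro v hv x hx
  have h1 : x * v⁻¹ * x⁻¹ ∈ V := (Subgroup.mem_normalizer_iff.mp (hX hx) v⁻¹).mp (V.inv_mem hv)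
  have e : ⁅v, x⁆ = v * (x * v⁻¹ * x⁻¹) := by rw [commutatorElement_def]; group
  rw [e]; exact V.mul_mem hv h1

theorem comm_normalized {V X : Subgroup G} (hX : X ≤ Subgroup.normalizer (V : Set G)) :
    X ≤ Subgroup.normalizer ((⁅V, X⁆ : Subgroup G) : Set G) := by
  intro x hx
  apply normalizer_of_cj
  rw [cj_commutator, cj_of_normalizer (hX hx), cj_of_normalizer (Subgroup.le_normalizer hx)]

/-- subnormality of `H` inside `K`. -/
def SN (H K : Subgroup G) : Prop := (H.subgroupOf K).IsSubnormal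

theorem SN.restrict {H K E : Subgroup G} (h : SN H E) (hKE : K ≤ E) : SN H K := by
  unfold SN at h ⊢
  have h1 := Subgroup.IsSubnormal.comap (Subgroup.inclusion hKE) h
  have e : (H.subgroupOf E).comap (Subgroup.inclusion hKE) = H.subgroupOf K := by
    ext x
    simp [Subgroup.mem_subgroupOf]
  rwa [e] at h1

theorem SN.conj {H E : Subgroup G} (h : SN H E) {g : G} (hg : g ∈ E) : SN (cj g H) E := by
  unfold SN at h ⊢
  have h1 := Subgroup.IsSubnormal.map (f := (MulAut.conj (⟨g, hg⟩ : E)).toMonoidHom)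
    (MulAut.conj (⟨g, hg⟩ : E)).surjective h
  have e : (H.subgroupOf E).map (MulAut.conj (⟨g, hg⟩ : E)).toMonoidHom = (cj g H).subgroupOf E := by
    ext x
    rw [Subgroup.mem_map, Subgroup.mem_subgroupOf, mem_cj]
    constructor
    · rintro ⟨y, hy, rfl⟩
      exact ⟨y, Subgroup.mem_subgroupOf.mp hy, rfl⟩
    · rintro ⟨y, hy, hyx⟩
      have hyE : y ∈ E := by
        have h2 : y = g⁻¹ * (x : G) * g := by rw [← hyx]; group
        rw [h2]; exact E.mul_mem (E.mul_mem (E.inv_mem hg) x.2) hg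
      exact ⟨⟨y, hyE⟩, Subgroup.mem_subgroupOf.mpr hy, Subtype.ext hyx⟩
  rwa [e] at h1

theorem SN.sup [Finite G] {H K E : Subgroup G} (h1 : SN H E) (h2 : SN K E) (hH : H ≤ E) (hK : K ≤ E) :
    SN (H ⊔ K) E := by
  unfold SN at h1 h2 ⊢
  have h3 := Cfsg.Agent.Lib.helper3.isSubnormal_sup h1 h2
  rwa [← Subgroup.subgroupOf_sup hH hK] at h3

theorem SN.of_normal {N K E : Subgroup G} (h : SN K E) (hNK : N ≤ K)
    (hn : K ≤ Subgroup.normalizer (N : Set G)) : SN N E := by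
  unfold SN at h ⊢
  have hle : N.subgroupOf E ≤ K.subgroupOf E := by
    intro x hx
    rw [Subgroup.mem_subgroupOf] at hx ⊢
    exact hNK hx
  refine Subgroup.IsSubnormal.step _ _ hle h ?_
  constructor
  intro x hx y
  rw [Subgroup.mem_subgroupOf, Subgroup.mem_subgroupOf] at hx ⊢
  exact (Subgroup.mem_normalizer_iff.mp (hn (Subgroup.mem_subgroupOf.mp y.2)) _).mp hx

theorem SN.refl (E : Subgroup G) : SN E E := by
  unfold SN; rw [Subgroup.subgroupOf_self]; exact Subgroup.IsSubnormal.top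

theorem SN.pgroup_bot {p : ℕ} [Fact p.Prime] [Finite G] {N E : Subgroup G} (h : SN N E) (hNE : N ≤ E)
    (hp : ∀ g ∈ N, ∃ k : ℕ, g ^ (p ^ k) = 1) (hOp : Cfsg.pCore p ↥E = ⊥) : N = ⊥ := by
  unfold SN at h
  have hpg : IsPGroup p (N.subgroupOf E) := by
    intro x
    obtain ⟨k, hk⟩ := hp _ (Subgroup.mem_subgroupOf.mp x.2)
    refine ⟨k, ?_⟩
    apply Subtype.ext
    apply Subtype.ext
    simpa using hk
  have h1 := Cfsg.Agent.Lib.helper14.subnormal_pgroup_le_pCore (p := p) _ h hpg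
  rw [hOp] at h1
  rw [eq_bot_iff]
  intro x hx
  have h2 : (⟨x, hNE hx⟩ : E) ∈ N.subgroupOf E := Subgroup.mem_subgroupOf.mpr hx
  have h3 := h1 h2
  rw [Subgroup.mem_bot] at h3 ⊢
  exact congrArg Subtype.val h3

theorem SN.pgroup_bot' {p : ℕ} [Fact p.Prime] [Finite G] {N E : Subgroup G} (h : SN N E) (hNE : N ≤ E)
    (hp : ∀ g ∈ N, g ^ p = 1) (hOp : Cfsg.pCore p ↥E = ⊥) : N = ⊥ :=
  SN.pgroup_bot h hNE (fun g hg => ⟨1, by rw [pow_one]; exact hp g hg⟩) hOp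

theorem normalizer_map_subtype {E : Subgroup G} {K' : Subgroup E} (hn : K'.Normal) :
    E ≤ Subgroup.normalizer ((K'.map E.subtype : Subgroup G) : Set G) := by
  intro e he
  rw [Subgroup.mem_normalizer_iff]
  intro x
  constructor
  · rintro ⟨y, hy, rfl⟩
    exact ⟨⟨e, he⟩ * y * ⟨e, he⟩⁻¹, hn.conj_mem y hy ⟨e, he⟩, rfl⟩
  · rintro ⟨y, hy, hyx⟩
    refine ⟨⟨e, he⟩⁻¹ * y * ⟨e, he⟩, ?_, ?_⟩
    · have := hn.conj_mem y hy ⟨e, he⟩⁻¹
      simpa using this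
    · have hyx' : (y : G) = e * x * e⁻¹ := hyx
      simp only [Subgroup.coe_subtype, Subgroup.coe_mul, Subgroup.coe_inv]
      rw [hyx']; group

theorem SN.exists_normal_lt {H E : Subgroup G} (h : SN H E) (hHE : H ≤ E) (hne : H ≠ E) :
    ∃ K : Subgroup G, H ≤ K ∧ K < E ∧ E ≤ Subgroup.normalizer (K : Set G) := by
  unfold SN at h
  rcases Subgroup.IsSubnormal.lt_normal h with h1 | ⟨K', hK'n, hHK', hK'lt⟩
  · exfalso
    apply hne
    apply le_antisymm hHE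
    intro x hx
    have : (⟨x, hx⟩ : E) ∈ H.subgroupOf E := by rw [h1]; trivial
    exact Subgroup.mem_subgroupOf.mp this
  · refine ⟨K'.map E.subtype, ?_, ?_, normalizer_map_subtype hK'n⟩
    · intro x hx
      exact ⟨⟨x, hHE hx⟩, hHK' (Subgroup.mem_subgroupOf.mpr hx), rfl⟩
    · constructor
      · rintro x ⟨y, hy, rfl⟩; exact y.2
      · intro hle
        apply hK'lt.ne
        rw [eq_top_iff]
        intro y _
        obtain ⟨z, hz, hzy⟩ := hle y.2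
        have : z = y := Subtype.ext hzy
        rw [← this]; exact hz

theorem pcore_bot_of_SN {p : ℕ} [Fact p.Prime] [Finite G] {E' E : Subgroup G} (h : SN E' E)
    (hE'E : E' ≤ E) (hOp : Cfsg.pCore p ↥E = ⊥) : Cfsg.pCore p ↥E' = ⊥ := by
  unfold Cfsg.pCore
  rw [sSup_eq_bot]
  rintro N ⟨hNn, hNp⟩
  have hle : N.map E'.subtype ≤ E' := by
    rintro x ⟨y, hy, rfl⟩; exact y.2
  have hM : N.map E'.subtype = ⊥ := by
    apply SN.pgroup_bot (p := p) (E := E) (SN.of_normal h hle (normalizer_map_subtype hNn))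
      (hle.trans hE'E) ?_ hOp
    rintro x ⟨y, hy, rfl⟩
    obtain ⟨k, hk⟩ := hNp ⟨y, hy⟩
    refine ⟨k, ?_⟩
    have := congrArg (fun z : N => ((z : E') : G)) hk
    simpa using this
  exact (Subgroup.map_eq_bot_iff_of_injective N E'.subtype_injective).mp hM

theorem card_lt [Finite G] {K E : Subgroup G} (h : K < E) : Nat.card K < Nat.card E := by
  by_contra hc
  exact h.ne (Subgroup.eq_of_le_of_card_ge h.le (not_lt.mp hc))

theorem normalizer_of_cj_le [Finite G] {g : G} {H : Subgroup G} (h : cj g H ≤ H) :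
    g ∈ Subgroup.normalizer (H : Set G) :=
  normalizer_of_cj (Subgroup.eq_of_le_of_card_ge h (card_cj g H).ge)

theorem cj_centralizer (g : G) (H : Subgroup G) :
    cj g (Subgroup.centralizer (H : Set G)) = Subgroup.centralizer ((cj g H : Subgroup G) : Set G) := by
  ext x
  rw [mem_cj]
  constructor
  · rintro ⟨y, hy, rfl⟩
    rw [Subgroup.mem_centralizer_iff]
    intro h hh
    obtain ⟨h', hh', rfl⟩ := mem_cj.mp hh
    have := Subgroup.mem_centralizer_iff.mp hy h' hh'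
    calc g * h' * g⁻¹ * (g * y * g⁻¹) = g * (h' * y) * g⁻¹ := by group
      _ = g * (y * h') * g⁻¹ := by rw [this]
      _ = g * y * g⁻¹ * (g * h' * g⁻¹) := by group
  · intro hx
    refine ⟨g⁻¹ * x * g, ?_, by group⟩
    rw [Subgroup.mem_centralizer_iff]
    intro h hh
    have := Subgroup.mem_centralizer_iff.mp hx (g * h * g⁻¹) (cj_mem hh)
    calc h * (g⁻¹ * x * g) = g⁻¹ * (g * h * g⁻¹ * x) * g := by group
      _ = g⁻¹ * (x * (g * h * g⁻¹)) * g := by rw [this]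
      _ = g⁻¹ * x * g * h := by group

theorem comm_mul (v a b : G) : ⁅v, a * b⁆ = ⁅v, a⁆ * (a * ⁅v, b⁆ * a⁻¹) := by
  simp only [commutatorElement_def]; group

theorem conj_eq_comm_mul (a w : G) : a * w * a⁻¹ = ⁅w, a⁆⁻¹ * w := by
  simp only [commutatorElement_def]; group

theorem comm_sup {V E₁ E₂ : Subgroup G} (h1 : E₁ ≤ Subgroup.normalizer (V : Set G))
    (h2 : E₂ ≤ Subgroup.normalizer (V : Set G)) :
    ⁅V, E₁ ⊔ E₂⁆ = ⁅V, E₁⁆ ⊔ ⁅V, E₂⁆ := by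
  apply le_antisymm
  · have hWV : ⁅V, E₁⁆ ⊔ ⁅V, E₂⁆ ≤ V := sup_le (comm_le h1) (comm_le h2)
    rw [Subgroup.commutator_le]
    have key : ∀ e ∈ E₁ ⊔ E₂, (∀ v ∈ V, ⁅v, e⁆ ∈ ⁅V, E₁⁆ ⊔ ⁅V, E₂⁆) ∧
        (∀ v ∈ V, ⁅v, e⁻¹⁆ ∈ ⁅V, E₁⁆ ⊔ ⁅V, E₂⁆) := by
      intro e he
      rw [Subgroup.sup_eq_closure] at he
      induction he using Subgroup.closure_induction with
      | mem x hx =>
        rcases hx with hx | hx
        · exact ⟨fun v hv => Subgroup.mem_sup_left (Subgroup.commutator_mem_commutator hv hx),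
            fun v hv => Subgroup.mem_sup_left
              (Subgroup.commutator_mem_commutator hv (E₁.inv_mem hx))⟩
        · exact ⟨fun v hv => Subgroup.mem_sup_right (Subgroup.commutator_mem_commutator hv hx),
            fun v hv => Subgroup.mem_sup_right
              (Subgroup.commutator_mem_commutator hv (E₂.inv_mem hx))⟩
      | one =>
        refine ⟨fun v hv => ?_, fun v hv => ?_⟩
        · rw [commutatorElement_one_right]; exact Subgroup.one_mem _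
        · rw [inv_one, commutatorElement_one_right]; exact Subgroup.one_mem _
      | mul x y hx hy ihx ihy =>
        have aux : ∀ a b : G, (∀ v ∈ V, ⁅v, a⁆ ∈ ⁅V, E₁⁆ ⊔ ⁅V, E₂⁆) →
            (∀ v ∈ V, ⁅v, b⁆ ∈ ⁅V, E₁⁆ ⊔ ⁅V, E₂⁆) → ∀ v ∈ V, ⁅v, a * b⁆ ∈ ⁅V, E₁⁆ ⊔ ⁅V, E₂⁆ := by
          intro a b ha hb v hv
          rw [comm_mul, conj_eq_comm_mul]
          exact Subgroup.mul_mem _ (ha v hv) (Subgroup.mul_mem _
            (Subgroup.inv_mem _ (ha _ (hWV (hb v hv)))) (hb v hv))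
        refine ⟨aux x y ihx.1 ihy.1, ?_⟩
        rw [mul_inv_rev]
        exact aux _ _ ihy.2 ihx.2
      | inv x hx ih =>
        refine ⟨ih.2, ?_⟩
        rw [inv_inv]; exact ih.1
    intro v hv e he
    exact (key e he).1 v hv
  · exact sup_le (Subgroup.commutator_mono le_rfl le_sup_left)
      (Subgroup.commutator_mono le_rfl le_sup_right)

theorem pow_p_eq_one {p : ℕ} {V E : Subgroup G} (hV : Cfsg.IsElementaryAbelian p V)
    (hf : E ⊓ Subgroup.centralizer (V : Set G) = ⊥) {g : G} (hg : g ∈ E)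
    (h : ∀ v ∈ V, ⁅v, g⁆ ∈ V ∧ ⁅v, g⁆ * g = g * ⁅v, g⁆) : g ^ p = 1 := by
  have h1 : g ^ p ∈ E ⊓ Subgroup.centralizer (V : Set G) := by
    refine ⟨E.pow_mem hg p, ?_⟩
    show g ^ p ∈ Subgroup.centralizer (V : Set G)
    rw [Subgroup.mem_centralizer_iff]
    intro v hv
    have e1 : v * g * v⁻¹ = ⁅v, g⁆ * g := by rw [commutatorElement_def]; group
    have hc : Commute ⁅v, g⁆ g := (h v hv).2
    have e2 : v * g ^ p * v⁻¹ = g ^ p := by
      rw [← conj_pow, e1, hc.mul_pow, hV.2 _ (h v hv).1, one_mul]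
    calc v * g ^ p = v * g ^ p * v⁻¹ * v := by group
      _ = g ^ p * v := by rw [e2]
  rw [hf] at h1
  exact Subgroup.mem_bot.mp h1

theorem cent_bot {p : ℕ} [Fact p.Prime] [Finite G] {V E F : Subgroup G}
    (hV : Cfsg.IsElementaryAbelian p V)
    (hEV : E ≤ Subgroup.normalizer (V : Set G))
    (hf : E ⊓ Subgroup.centralizer (V : Set G) = ⊥) (hOp : Cfsg.pCore p ↥E = ⊥)
    (hFE : F ≤ E) (hs : SN F E) :
    F ⊓ Subgroup.centralizer ((⁅V, F⁆ : Subgroup G) : Set G) = ⊥ := by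
  have hFV : F ≤ Subgroup.normalizer (V : Set G) := hFE.trans hEV
  apply SN.pgroup_bot' (p := p) (SN.of_normal hs inf_le_left ?_) (inf_le_left.trans hFE) ?_ hOp
  · intro x hx
    apply normalizer_of_cj
    rw [cj_inf, cj_of_normalizer (Subgroup.le_normalizer hx), cj_centralizer,
      cj_of_normalizer (comm_normalized hFV hx)]
  · intro g hg
    apply pow_p_eq_one hV hf (hFE hg.1)
    intro v hv
    have hc : ⁅v, g⁆ ∈ ⁅V, F⁆ := Subgroup.commutator_mem_commutator hv hg.1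
    exact ⟨comm_le hFV hc, Subgroup.mem_centralizer_iff.mp hg.2 _ hc⟩

theorem fix_bot {p : ℕ} [Fact p.Prime] [Finite G] {V E F : Subgroup G}
    (hV : Cfsg.IsElementaryAbelian p V)
    (hEV : E ≤ Subgroup.normalizer (V : Set G))
    (hf : E ⊓ Subgroup.centralizer (V : Set G) = ⊥) (hOp : Cfsg.pCore p ↥E = ⊥)
    (hFE : F ≤ E) (hs : SN F E)
    (hirr : ∀ U : Subgroup G, U ≤ ⁅V, F⁆ → F ≤ Subgroup.normalizer (U : Set G) →
      U = ⊥ ∨ U = ⁅V, F⁆)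
    (hne : F ≠ ⊥) :
    ⁅V, F⁆ ⊓ Subgroup.centralizer (F : Set G) = ⊥ := by
  have hn : F ≤ Subgroup.normalizer ((⁅V, F⁆ ⊓ Subgroup.centralizer (F : Set G) : Subgroup G) : Set G) := by
    intro x hx
    apply normalizer_of_cj
    rw [cj_inf, cj_of_normalizer (comm_normalized (hFE.trans hEV) hx), cj_centralizer,
      cj_of_normalizer (Subgroup.le_normalizer hx)]
  rcases hirr _ inf_le_left hn with h | h
  · exact h
  · exfalso
    apply hne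
    have h1 : ⁅V, F⁆ ≤ Subgroup.centralizer (F : Set G) := by rw [← h]; exact inf_le_right
    have h2 : F ≤ Subgroup.centralizer ((⁅V, F⁆ : Subgroup G) : Set G) :=
      Subgroup.le_centralizer_iff.mp h1
    rw [eq_bot_iff, ← cent_bot hV hEV hf hOp hFE hs]
    exact le_inf le_rfl h2

/-- the normal `p`-subgroup used in the normalising case. -/
def Qsub (V V₁ E : Subgroup G) (hEN : E ≤ Subgroup.normalizer (V₁ : Set G)) : Subgroup G where
  carrier := {g | g ∈ E ∧ g ∈ Subgroup.centralizer (V₁ : Set G) ∧ ∀ v ∈ V, ⁅v, g⁆ ∈ V₁}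
  one_mem' := ⟨E.one_mem, Subgroup.one_mem _, fun v _ => by
    rw [commutatorElement_one_right]; exact V₁.one_mem⟩
  mul_mem' := by
    rintro a b ⟨ha1, ha2, ha3⟩ ⟨hb1, hb2, hb3⟩
    refine ⟨E.mul_mem ha1 hb1, Subgroup.mul_mem _ ha2 hb2, fun v hv => ?_⟩
    rw [comm_mul]
    exact V₁.mul_mem (ha3 v hv) ((Subgroup.mem_normalizer_iff.mp (hEN ha1) _).mp (hb3 v hv))
  inv_mem' := by
    rintro a ⟨ha1, ha2, ha3⟩
    refine ⟨E.inv_mem ha1, Subgroup.inv_mem _ ha2, fun v hv => ?_⟩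
    have e : ⁅v, a⁻¹⁆ = a⁻¹ * ⁅v, a⁆⁻¹ * a⁻¹⁻¹ := by simp only [commutatorElement_def]; group
    rw [e]
    exact (Subgroup.mem_normalizer_iff.mp (hEN (E.inv_mem ha1)) _).mp (V₁.inv_mem (ha3 v hv))

theorem caseN {p : ℕ} [Fact p.Prime] [Finite G] {V E E₁ E₂ : Subgroup G}
    (hV : Cfsg.IsElementaryAbelian p V)
    (hEV : E ≤ Subgroup.normalizer (V : Set G))
    (hf : E ⊓ Subgroup.centralizer (V : Set G) = ⊥) (hgen : E = E₁ ⊔ E₂)
    (hs₁ : SN E₁ E) (hOp : Cfsg.pCore p ↥E = ⊥)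
    (hirr₂ : ∀ U : Subgroup G, U ≤ ⁅V, E₂⁆ → E₂ ≤ Subgroup.normalizer (U : Set G) →
      U = ⊥ ∨ U = ⁅V, E₂⁆)
    (h21 : ¬ ⁅V, E₂⁆ ≤ ⁅V, E₁⁆)
    (hN : E₂ ≤ Subgroup.normalizer ((⁅V, E₁⁆ : Subgroup G) : Set G)) :
    ⁅E₁, E₂⁆ = ⊥ ∧ E₁ ⊓ E₂ = ⊥ ∧ ⁅V, E₁⁆ ⊓ ⁅V, E₂⁆ = ⊥ := by
  have hE₁ : E₁ ≤ E := hgen ▸ le_sup_left
  have hE₂ : E₂ ≤ E := hgen ▸ le_sup_right
  have hV₁ : ⁅V, E₁⁆ ≤ V := comm_le (hE₁.trans hEV)
  have hN₁ : E₁ ≤ Subgroup.normalizer ((⁅V, E₁⁆ : Subgroup G) : Set G) :=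
    comm_normalized (hE₁.trans hEV)
  have hN₂ : E₂ ≤ Subgroup.normalizer ((⁅V, E₂⁆ : Subgroup G) : Set G) :=
    comm_normalized (hE₂.trans hEV)
  have hEN : E ≤ Subgroup.normalizer ((⁅V, E₁⁆ : Subgroup G) : Set G) := by
    rw [hgen]; exact sup_le hN₁ hN
  have hinf : ⁅V, E₁⁆ ⊓ ⁅V, E₂⁆ = ⊥ := by
    have hn : E₂ ≤ Subgroup.normalizer ((⁅V, E₁⁆ ⊓ ⁅V, E₂⁆ : Subgroup G) : Set G) := by
      intro x hx
      apply normalizer_of_cj
      rw [cj_inf, cj_of_normalizer (hN hx), cj_of_normalizer (hN₂ hx)]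
    rcases hirr₂ _ inf_le_right hn with h | h
    · exact h
    · exact absurd (h ▸ inf_le_left) h21
  have hE₂C : E₂ ≤ Subgroup.centralizer ((⁅V, E₁⁆ : Subgroup G) : Set G) := by
    intro e he
    rw [Subgroup.mem_centralizer_iff]
    intro u hu
    have h1 : ⁅u, e⁆ ∈ ⁅V, E₁⁆ := comm_le hN (Subgroup.commutator_mem_commutator hu he)
    have h2 : ⁅u, e⁆ ∈ ⁅V, E₂⁆ := Subgroup.commutator_mem_commutator (hV₁ hu) he
    have h3 : ⁅u, e⁆ ∈ ⁅V, E₁⁆ ⊓ ⁅V, E₂⁆ := ⟨h1, h2⟩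
    rw [hinf, Subgroup.mem_bot, commutatorElement_eq_one_iff_mul_comm] at h3
    exact h3
  have hQE : Qsub V ⁅V, E₁⁆ E hEN ≤ E := fun g hg => hg.1
  have hQ : Qsub V ⁅V, E₁⁆ E hEN = ⊥ := by
    apply SN.pgroup_bot' (p := p) (SN.of_normal (SN.refl E) hQE ?_) hQE ?_ hOp
    · intro e he
      apply normalizer_of_cj_le
      intro x hx
      obtain ⟨y, ⟨hy1, hy2, hy3⟩, rfl⟩ := mem_cj.mp hx
      refine ⟨E.mul_mem (E.mul_mem he hy1) (E.inv_mem he), ?_, ?_⟩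
      · have := cj_mem (g := e) hy2
        rw [cj_centralizer, cj_of_normalizer (hEN he)] at this
        exact this
      · intro v hv
        have e1 : ⁅v, e * y * e⁻¹⁆ = e * ⁅e⁻¹ * v * e⁻¹⁻¹, y⁆ * e⁻¹ := by
          simp only [commutatorElement_def]; group
        rw [e1]
        apply (Subgroup.mem_normalizer_iff.mp (hEN he) _).mp
        apply hy3
        exact (Subgroup.mem_normalizer_iff.mp (hEV (E.inv_mem he)) _).mp hv
    · rintro g ⟨hg1, hg2, hg3⟩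
      apply pow_p_eq_one hV hf hg1
      intro v hv
      exact ⟨hV₁ (hg3 v hv), Subgroup.mem_centralizer_iff.mp hg2 _ (hg3 v hv)⟩
  have hcomm : ⁅E₁, E₂⁆ = ⊥ := by
    rw [eq_bot_iff, Subgroup.commutator_le]
    intro x hx e he
    have hmem : ⁅x, e⁆ ∈ Qsub V ⁅V, E₁⁆ E hEN := by
      refine ⟨?_, ?_, ?_⟩
      · rw [commutatorElement_def]
        exact E.mul_mem (E.mul_mem (E.mul_mem (hE₁ hx) (hE₂ he)) (E.inv_mem (hE₁ hx)))
          (E.inv_mem (hE₂ he))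
      · have h1 : x * e * x⁻¹ ∈ Subgroup.centralizer ((⁅V, E₁⁆ : Subgroup G) : Set G) := by
          have := cj_mem (g := x) (hE₂C he)
          rw [cj_centralizer, cj_of_normalizer (hN₁ hx)] at this
          exact this
        rw [commutatorElement_def]
        exact Subgroup.mul_mem _ h1 (Subgroup.inv_mem _ (hE₂C he))
      · intro v hv
        have e1 : ⁅x, e⁆ = x * (e * x⁻¹ * e⁻¹) := by rw [commutatorElement_def]; group
        rw [e1, comm_mul]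
        refine Subgroup.mul_mem _ (Subgroup.commutator_mem_commutator hv hx) ?_
        apply (Subgroup.mem_normalizer_iff.mp (hN₁ hx) _).mp
        have e2 : ⁅v, e * x⁻¹ * e⁻¹⁆ = e * ⁅e⁻¹ * v * e⁻¹⁻¹, x⁻¹⁆ * e⁻¹ := by
          simp only [commutatorElement_def]; group
        rw [e2]
        apply (Subgroup.mem_normalizer_iff.mp (hN he) _).mp
        apply Subgroup.commutator_mem_commutator _ (E₁.inv_mem hx)
        exact (Subgroup.mem_normalizer_iff.mp (hEV (E.inv_mem (hE₂ he))) _).mp hv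
    rw [hQ] at hmem; exact hmem
  refine ⟨hcomm, ?_, hinf⟩
  rw [eq_bot_iff, ← cent_bot hV hEV hf hOp hE₁ hs₁]
  exact le_inf inf_le_left (inf_le_right.trans hE₂C)

/-- the hypotheses of the pair theorem. -/
structure Hyp (p : ℕ) (V E E₁ E₂ : Subgroup G) : Prop where
  hEV : E ≤ Subgroup.normalizer (V : Set G)
  hf : E ⊓ Subgroup.centralizer (V : Set G) = ⊥
  hgen : E = E₁ ⊔ E₂
  hs₁ : SN E₁ E
  hs₂ : SN E₂ E
  hOp : Cfsg.pCore p ↥E = ⊥
  hirr₁ : ∀ U : Subgroup G, U ≤ ⁅V, E₁⁆ → E₁ ≤ Subgroup.normalizer (U : Set G) →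
    U = ⊥ ∨ U = ⁅V, E₁⁆
  hirr₂ : ∀ U : Subgroup G, U ≤ ⁅V, E₂⁆ → E₂ ≤ Subgroup.normalizer (U : Set G) →
    U = ⊥ ∨ U = ⁅V, E₂⁆
  h12 : ¬ ⁅V, E₁⁆ ≤ ⁅V, E₂⁆
  h21 : ¬ ⁅V, E₂⁆ ≤ ⁅V, E₁⁆
  hc₁ : 2 < Nat.card E₁
  hc₂ : 2 < Nat.card E₂

theorem Hyp.symm {p : ℕ} {V E E₁ E₂ : Subgroup G} (h : Hyp p V E E₁ E₂) : Hyp p V E E₂ E₁ :=
  ⟨h.hEV, h.hf, by rw [h.hgen, sup_comm], h.hs₂, h.hs₁, h.hOp, h.hirr₂, h.hirr₁, h.h21, h.h12,
    h.hc₂, h.hc₁⟩

theorem conj_claim {p : ℕ} [Fact p.Prime] [Finite G] {V E E₁ E₂ : Subgroup G}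
    (h : Hyp p V E E₁ E₂)
    (IH : ∀ E' E₁' E₂' : Subgroup G, Nat.card E' < Nat.card E → Hyp p V E' E₁' E₂' →
      ⁅E₁', E₂'⁆ = ⊥ ∧ ⁅V, E₁'⁆ ⊓ ⁅V, E₂'⁆ = ⊥)
    (hne : E₁ ≠ E) {g : G} (hg : g ∈ E) (hmove : cj g ⁅V, E₁⁆ ≠ ⁅V, E₁⁆) :
    ⁅cj g E₁, E₁⁆ = ⊥ ∧ cj g ⁅V, E₁⁆ ⊓ ⁅V, E₁⁆ = ⊥ := by
  have hE₁ : E₁ ≤ E := h.hgen ▸ le_sup_left
  obtain ⟨K, hK1, hK2, hK3⟩ := SN.exists_normal_lt h.hs₁ hE₁ hne
  have hgE₁ : cj g E₁ ≤ K := by
    have := cj_mono g hK1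
    rwa [cj_of_normalizer (hK3 hg)] at this
  have hgE : cj g E₁ ≤ E := hgE₁.trans hK2.le
  have hE'K : cj g E₁ ⊔ E₁ ≤ K := sup_le hgE₁ hK1
  have hE'E : cj g E₁ ⊔ E₁ ≤ E := hE'K.trans hK2.le
  have hcard : Nat.card (cj g E₁ ⊔ E₁ : Subgroup G) < Nat.card E :=
    lt_of_le_of_lt (Subgroup.card_le_of_le hE'K) (card_lt hK2)
  have hVg : cj g ⁅V, E₁⁆ = ⁅V, cj g E₁⁆ := by
    rw [cj_commutator, cj_of_normalizer (h.hEV hg)]
  have hsg : SN (cj g E₁) E := SN.conj h.hs₁ hg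
  have hH : Hyp p V (cj g E₁ ⊔ E₁) (cj g E₁) E₁ := by
    refine ⟨hE'E.trans h.hEV, ?_, rfl, hsg.restrict hE'E, h.hs₁.restrict hE'E, ?_, ?_, h.hirr₁,
      ?_, ?_, ?_, h.hc₁⟩
    · rw [eq_bot_iff, ← h.hf]; exact inf_le_inf_right _ hE'E
    · exact pcore_bot_of_SN (SN.sup hsg h.hs₁ hgE hE₁) hE'E h.hOp
    · intro U hU hUn
      rw [← hVg] at hU ⊢
      have h1 : cj g⁻¹ U ≤ ⁅V, E₁⁆ := by
        have := cj_mono g⁻¹ hU
        rwa [cj_cj, inv_mul_cancel, cj_one] at this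
      have h2 : E₁ ≤ Subgroup.normalizer ((cj g⁻¹ U : Subgroup G) : Set G) := by
        intro x hx
        apply normalizer_of_cj
        rw [cj_cj]
        have h3 : cj (g * x * g⁻¹) U = U := cj_of_normalizer (hUn (cj_mem hx))
        have e : x * g⁻¹ = g⁻¹ * (g * x * g⁻¹) := by group
        rw [e, ← cj_cj, h3]
      rcases h.hirr₁ _ h1 h2 with h3 | h3
      · left
        have := congrArg (cj g) h3
        rwa [cj_cj, mul_inv_cancel, cj_one, cj_bot] at this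
      · right
        have := congrArg (cj g) h3
        rwa [cj_cj, mul_inv_cancel, cj_one] at this
    · rw [← hVg]
      intro hle
      exact hmove (Subgroup.eq_of_le_of_card_ge hle (card_cj g _).ge)
    · rw [← hVg]
      intro hle
      exact hmove (Subgroup.eq_of_le_of_card_ge hle (card_cj g _).le).symm
    · rw [card_cj]; exact h.hc₁
  have := IH _ _ _ hcard hH
  rw [← hVg] at this
  exact this

theorem comm_inj [Finite G] {V₁ V₂ : Subgroup G} {e : G} (hdisj : cj e V₁ ⊓ V₁ = ⊥)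
    (hmaps : ∀ u ∈ V₁, ⁅u, e⁆ ∈ V₂) :
    Nat.card V₁ ≤ Nat.card V₂ ∧
      (Nat.card V₂ ≤ Nat.card V₁ → ∀ w ∈ V₂, ∃ u ∈ V₁, ⁅u, e⁆ = w) := by
  have hinj : Function.Injective (fun u : V₁ => (⟨⁅(u : G), e⁆, hmaps u.1 u.2⟩ : V₂)) := by
    intro u u' huu'
    have h1 : ⁅(u : G), e⁆ = ⁅(u' : G), e⁆ := congrArg Subtype.val huu'
    -- w := u'⁻¹ u commutes with e
    have h2 : e * ((u' : G)⁻¹ * u) * e⁻¹ = (u' : G)⁻¹ * u := by
      have k1 : ∀ x : G, e * x * e⁻¹ = ⁅x, e⁆⁻¹ * x := conj_eq_comm_mul e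
      have k2 : e * ((u' : G)⁻¹ * u) * e⁻¹ = (e * (u' : G) * e⁻¹)⁻¹ * (e * u * e⁻¹) := by group
      rw [k2, k1, k1, h1]; group
    have h3 : (u' : G)⁻¹ * u ∈ cj e V₁ ⊓ V₁ := by
      refine ⟨?_, V₁.mul_mem (V₁.inv_mem u'.2) u.2⟩
      rw [← h2]; exact cj_mem (V₁.mul_mem (V₁.inv_mem u'.2) u.2)
    rw [hdisj, Subgroup.mem_bot] at h3
    apply Subtype.ext
    have : (u : G) = u' * ((u' : G)⁻¹ * u) := by group
    rw [this, h3, mul_one]
  refine ⟨Nat.card_le_card_of_injective _ hinj, ?_⟩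
  intro hle w hw
  obtain ⟨u, hu⟩ := (hinj.bijective_of_nat_card_le hle).2 ⟨w, hw⟩
  exact ⟨u.1, u.2, congrArg Subtype.val hu⟩

theorem else_case {p : ℕ} [Fact p.Prime] [Finite G] {V E E₁ E₂ : Subgroup G}
    (hV : Cfsg.IsElementaryAbelian p V) (h : Hyp p V E E₁ E₂)
    (IH : ∀ E' E₁' E₂' : Subgroup G, Nat.card E' < Nat.card E → Hyp p V E' E₁' E₂' →
      ⁅E₁', E₂'⁆ = ⊥ ∧ ⁅V, E₁'⁆ ⊓ ⁅V, E₂'⁆ = ⊥)
    (hN1 : ¬ E₂ ≤ Subgroup.normalizer ((⁅V, E₁⁆ : Subgroup G) : Set G))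
    (hN2 : ¬ E₁ ≤ Subgroup.normalizer ((⁅V, E₂⁆ : Subgroup G) : Set G)) : False := by
  have hE₁ : E₁ ≤ E := h.hgen ▸ le_sup_left
  have hE₂ : E₂ ≤ E := h.hgen ▸ le_sup_right
  have hV₁ : ⁅V, E₁⁆ ≤ V := comm_le (hE₁.trans h.hEV)
  have hV₂ : ⁅V, E₂⁆ ≤ V := comm_le (hE₂.trans h.hEV)
  have hN₁ : E₁ ≤ Subgroup.normalizer ((⁅V, E₁⁆ : Subgroup G) : Set G) :=
    comm_normalized (hE₁.trans h.hEV)
  have hN₂ : E₂ ≤ Subgroup.normalizer ((⁅V, E₂⁆ : Subgroup G) : Set G) :=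
    comm_normalized (hE₂.trans h.hEV)
  have hne₁ : E₁ ≠ E := by
    intro heq
    apply hN1
    exact (hE₂.trans heq.ge).trans hN₁
  have hne₂ : E₂ ≠ E := by
    intro heq
    apply hN2
    exact (hE₁.trans heq.ge).trans hN₂
  -- movers
  have hmov : ∀ e ∈ E₂, e ∉ Subgroup.normalizer ((⁅V, E₁⁆ : Subgroup G) : Set G) →
      ⁅cj e E₁, E₁⁆ = ⊥ ∧ cj e ⁅V, E₁⁆ ⊓ ⁅V, E₁⁆ = ⊥ := by
    intro e he hen
    exact conj_claim h IH hne₁ (hE₂ he) (fun hc => hen (normalizer_of_cj hc))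
  have hmov' : ∀ e ∈ E₁, e ∉ Subgroup.normalizer ((⁅V, E₂⁆ : Subgroup G) : Set G) →
      ⁅cj e E₂, E₂⁆ = ⊥ ∧ cj e ⁅V, E₂⁆ ⊓ ⁅V, E₂⁆ = ⊥ := by
    intro e he hen
    exact conj_claim h.symm IH hne₂ (hE₁ he) (fun hc => hen (normalizer_of_cj hc))
  obtain ⟨e₀, he₀, he₀n⟩ := SetLike.not_le_iff_exists.mp hN1
  obtain ⟨e₁, he₁, he₁n⟩ := SetLike.not_le_iff_exists.mp hN2
  have hcard1 : Nat.card (⁅V, E₁⁆ : Subgroup G) ≤ Nat.card (⁅V, E₂⁆ : Subgroup G) :=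
    (comm_inj (hmov e₀ he₀ he₀n).2
      (fun u hu => Subgroup.commutator_mem_commutator (hV₁ hu) he₀)).1
  have hcard2 : Nat.card (⁅V, E₂⁆ : Subgroup G) ≤ Nat.card (⁅V, E₁⁆ : Subgroup G) :=
    (comm_inj (hmov' e₁ he₁ he₁n).2
      (fun u hu => Subgroup.commutator_mem_commutator (hV₂ hu) he₁)).1
  have hsurj : ∀ e ∈ E₂, e ∉ Subgroup.normalizer ((⁅V, E₁⁆ : Subgroup G) : Set G) →
      ∀ w ∈ ⁅V, E₂⁆, ∃ u ∈ ⁅V, E₁⁆, ⁅u, e⁆ = w := by
    intro e he hen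
    exact (comm_inj (hmov e he hen).2
      (fun u hu => Subgroup.commutator_mem_commutator (hV₁ hu) he)).2 hcard2
  -- E₁ centralises the conjugate
  have hcen : ∀ e ∈ E₂, e ∉ Subgroup.normalizer ((⁅V, E₁⁆ : Subgroup G) : Set G) →
      cj e ⁅V, E₁⁆ ≤ Subgroup.centralizer (E₁ : Set G) := by
    intro e he hen
    obtain ⟨hm1, hm2⟩ := hmov e he hen
    have hVe : cj e ⁅V, E₁⁆ = ⁅V, cj e E₁⁆ := by
      rw [cj_commutator, cj_of_normalizer (h.hEV (hE₂ he))]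
    have hnorm : E₁ ≤ Subgroup.normalizer ((cj e ⁅V, E₁⁆ : Subgroup G) : Set G) := by
      intro x hx
      apply normalizer_of_cj
      have hx1 : x ∈ Subgroup.centralizer ((cj e E₁ : Subgroup G) : Set G) :=
        (Subgroup.le_centralizer_iff.mp
          (Subgroup.commutator_eq_bot_iff_le_centralizer.mp hm1)) hx
      rw [hVe, cj_commutator, cj_of_normalizer (h.hEV (hE₁ hx)),
        cj_of_normalizer (Subgroup.centralizer_le_normalizer _ hx1)]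
    have hle : cj e ⁅V, E₁⁆ ≤ V := by
      have := cj_mono e hV₁
      rwa [cj_of_normalizer (h.hEV (hE₂ he))] at this
    have hbot : ⁅cj e ⁅V, E₁⁆, E₁⁆ = ⊥ := by
      rw [eq_bot_iff, ← hm2]
      exact le_inf (comm_le hnorm) (Subgroup.commutator_mono hle le_rfl)
    exact Subgroup.commutator_eq_bot_iff_le_centralizer.mp hbot
  have hE₁ne : E₁ ≠ ⊥ := by
    intro hb
    have h2 := h.hc₁
    rw [hb, Subgroup.card_bot] at h2
    omega
  have hfix : ⁅V, E₁⁆ ⊓ Subgroup.centralizer (E₁ : Set G) = ⊥ :=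
    fix_bot hV h.hEV h.hf h.hOp hE₁ h.hs₁ h.hirr₁ hE₁ne
  have key : ∀ (u e : G), e * u * e⁻¹ = ⁅u, e⁆⁻¹ * u := fun u e => conj_eq_comm_mul e u
  -- any two movers act the same on V₁
  have hsame : ∀ e ∈ E₂, e ∉ Subgroup.normalizer ((⁅V, E₁⁆ : Subgroup G) : Set G) →
      ∀ e' ∈ E₂, e' ∉ Subgroup.normalizer ((⁅V, E₁⁆ : Subgroup G) : Set G) →
      ∀ u ∈ ⁅V, E₁⁆, e * u * e⁻¹ = e' * u * e'⁻¹ := by
    intro e he hen e' he' hen' u hu
    obtain ⟨u', hu', heq⟩ := hsurj e' he' hen' ⁅u, e⁆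
      (Subgroup.commutator_mem_commutator (hV₁ hu) he)
    have ha : u'⁻¹ * u = (e' * u' * e'⁻¹)⁻¹ * (e * u * e⁻¹) := by
      rw [key u e, key u' e', heq]; group
    have ha2 : u'⁻¹ * u ∈ ⁅V, E₁⁆ ⊓ Subgroup.centralizer (E₁ : Set G) := by
      refine ⟨Subgroup.mul_mem _ (Subgroup.inv_mem _ hu') hu, ?_⟩
      rw [ha]
      exact Subgroup.mul_mem _ (Subgroup.inv_mem _ (hcen e' he' hen' (cj_mem hu')))
        (hcen e he hen (cj_mem hu))
    rw [hfix, Subgroup.mem_bot] at ha2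
    have huu : u' = u := by
      have : u = u' * (u'⁻¹ * u) := by group
      rw [this, ha2, mul_one]
    rw [huu] at heq
    rw [key u e, key u e', heq]
  have hcb : E₂ ⊓ Subgroup.centralizer ((⁅V, E₂⁆ : Subgroup G) : Set G) = ⊥ :=
    cent_bot hV h.hEV h.hf h.hOp hE₂ h.hs₂
  -- non-movers are trivial
  have hK : ∀ k ∈ E₂, k ∈ Subgroup.normalizer ((⁅V, E₁⁆ : Subgroup G) : Set G) → k = 1 := by
    intro k hk hkn
    have hek : e₀ * k ∉ Subgroup.normalizer ((⁅V, E₁⁆ : Subgroup G) : Set G) := by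
      intro hc
      apply he₀n
      have : e₀ = e₀ * k * k⁻¹ := by group
      rw [this]; exact Subgroup.mul_mem _ hc (Subgroup.inv_mem _ hkn)
    have hke : k * e₀ ∉ Subgroup.normalizer ((⁅V, E₁⁆ : Subgroup G) : Set G) := by
      intro hc
      apply he₀n
      have : e₀ = k⁻¹ * (k * e₀) := by group
      rw [this]; exact Subgroup.mul_mem _ (Subgroup.inv_mem _ hkn) hc
    have hc1 : ∀ u ∈ ⁅V, E₁⁆, k * u = u * k := by
      intro u hu
      have h1 := hsame e₀ he₀ he₀n (e₀ * k) (E₂.mul_mem he₀ hk) hek u hu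
      have h2 : u = k * u * k⁻¹ := by
        have : e₀⁻¹ * (e₀ * u * e₀⁻¹) * e₀ = e₀⁻¹ * (e₀ * k * u * (e₀ * k)⁻¹) * e₀ := by rw [h1]
        calc u = e₀⁻¹ * (e₀ * u * e₀⁻¹) * e₀ := by group
          _ = e₀⁻¹ * (e₀ * k * u * (e₀ * k)⁻¹) * e₀ := this
          _ = k * u * k⁻¹ := by group
      calc k * u = k * u * k⁻¹ * k := by group
        _ = u * k := by rw [← h2]
    have hc2 : ∀ u ∈ ⁅V, E₁⁆, k * (e₀ * u * e₀⁻¹) = (e₀ * u * e₀⁻¹) * k := by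
      intro u hu
      have h1 := hsame e₀ he₀ he₀n (k * e₀) (E₂.mul_mem hk he₀) hke u hu
      calc k * (e₀ * u * e₀⁻¹) = (k * e₀ * u * (k * e₀)⁻¹) * k := by group
        _ = (e₀ * u * e₀⁻¹) * k := by rw [← h1]
    have hkc : k ∈ E₂ ⊓ Subgroup.centralizer ((⁅V, E₂⁆ : Subgroup G) : Set G) := by
      refine ⟨hk, ?_⟩
      show k ∈ Subgroup.centralizer ((⁅V, E₂⁆ : Subgroup G) : Set G)
      rw [Subgroup.mem_centralizer_iff]
      intro w hw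
      obtain ⟨u, hu, rfl⟩ := hsurj e₀ he₀ he₀n w hw
      have e1 : ⁅u, e₀⁆ = u * (e₀ * u * e₀⁻¹)⁻¹ := by rw [commutatorElement_def]; group
      have hc2' : k * (e₀ * u * e₀⁻¹)⁻¹ = (e₀ * u * e₀⁻¹)⁻¹ * k := by
        have := hc2 u hu
        calc k * (e₀ * u * e₀⁻¹)⁻¹
            = (e₀ * u * e₀⁻¹)⁻¹ * ((e₀ * u * e₀⁻¹) * k) * (e₀ * u * e₀⁻¹)⁻¹ := by group
          _ = (e₀ * u * e₀⁻¹)⁻¹ * (k * (e₀ * u * e₀⁻¹)) * (e₀ * u * e₀⁻¹)⁻¹ := by rw [this]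
          _ = (e₀ * u * e₀⁻¹)⁻¹ * k := by group
      rw [e1]
      calc u * (e₀ * u * e₀⁻¹)⁻¹ * k = u * ((e₀ * u * e₀⁻¹)⁻¹ * k) := by group
        _ = u * (k * (e₀ * u * e₀⁻¹)⁻¹) := by rw [hc2']
        _ = (u * k) * (e₀ * u * e₀⁻¹)⁻¹ := by group
        _ = (k * u) * (e₀ * u * e₀⁻¹)⁻¹ := by rw [hc1 u hu]
        _ = k * (u * (e₀ * u * e₀⁻¹)⁻¹) := by group
    rw [hcb, Subgroup.mem_bot] at hkc
    exact hkc
  -- every element of E₂ is 1 or e₀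
  have hall : ∀ x ∈ E₂, x = 1 ∨ x = e₀ := by
    intro x hx
    by_cases hxn : x ∈ Subgroup.normalizer ((⁅V, E₁⁆ : Subgroup G) : Set G)
    · left; exact hK x hx hxn
    · right
      have h1 : x⁻¹ * e₀ = 1 := by
        apply hK _ (E₂.mul_mem (E₂.inv_mem hx) he₀)
        apply Subgroup.centralizer_le_normalizer
        rw [Subgroup.mem_centralizer_iff]
        intro u hu
        have hu : u ∈ ⁅V, E₁⁆ := hu
        have h2 := hsame e₀ he₀ he₀n x hx hxn u hu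
        calc u * (x⁻¹ * e₀) = x⁻¹ * (x * u * x⁻¹) * e₀ := by group
          _ = x⁻¹ * (e₀ * u * e₀⁻¹) * e₀ := by rw [h2]
          _ = x⁻¹ * e₀ * u := by group
      calc x = x * 1 := by group
        _ = x * (x⁻¹ * e₀) := by rw [h1]
        _ = e₀ := by group
  have hsub : (E₂ : Set G) ⊆ {1, e₀} := by
    intro x hx
    rcases hall x hx with h1 | h1
    · left; exact h1
    · right; exact h1
  have hc := h.hc₂
  have h3 : Nat.card E₂ = (E₂ : Set G).ncard := Nat.card_coe_set_eq _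
  have h4 : (E₂ : Set G).ncard ≤ ({1, e₀} : Set G).ncard :=
    Set.ncard_le_ncard hsub (Set.toFinite _)
  have h5 : ({1, e₀} : Set G).ncard ≤ 2 := by
    refine (Set.ncard_insert_le 1 {e₀}).trans ?_
    rw [Set.ncard_singleton]
  omega

theorem main_aux {p : ℕ} [Fact p.Prime] [Finite G] {V : Subgroup G}
    (hV : Cfsg.IsElementaryAbelian p V) :
    ∀ n : ℕ, ∀ E E₁ E₂ : Subgroup G, Nat.card E = n → Hyp p V E E₁ E₂ →
      ⁅E₁, E₂⁆ = ⊥ ∧ E₁ ⊓ E₂ = ⊥ ∧ ⁅V, E₁⁆ ⊓ ⁅V, E₂⁆ = ⊥ := by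
  intro n
  induction n using Nat.strong_induction_on with
  | _ n ih =>
    intro E E₁ E₂ hn h
    have IH : ∀ E' E₁' E₂' : Subgroup G, Nat.card E' < Nat.card E → Hyp p V E' E₁' E₂' →
        ⁅E₁', E₂'⁆ = ⊥ ∧ ⁅V, E₁'⁆ ⊓ ⁅V, E₂'⁆ = ⊥ := by
      intro E' E₁' E₂' hlt h'
      have := ih (Nat.card E') (hn ▸ hlt) E' E₁' E₂' rfl h'
      exact ⟨this.1, this.2.2⟩
    by_cases hN1 : E₂ ≤ Subgroup.normalizer ((⁅V, E₁⁆ : Subgroup G) : Set G)
    · exact caseN hV h.hEV h.hf h.hgen h.hs₁ h.hOp h.hirr₂ h.h21 hN1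
    · by_cases hN2 : E₁ ≤ Subgroup.normalizer ((⁅V, E₂⁆ : Subgroup G) : Set G)
      · have := caseN hV h.hEV h.hf (by rw [h.hgen, sup_comm]) h.hs₂ h.hOp h.hirr₁ h.h12 hN2
        refine ⟨?_, ?_, ?_⟩
        · rw [Subgroup.commutator_comm]; exact this.1
        · rw [inf_comm]; exact this.2.1
        · rw [inf_comm]; exact this.2.2
      · exact (else_case hV h IH hN1 hN2).elim

theorem main {p : ℕ} [Fact p.Prime] [Finite G] {V E E₁ E₂ : Subgroup G}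
    (hV : Cfsg.IsElementaryAbelian p V) (h : Hyp p V E E₁ E₂) :
    ⁅E₁, E₂⁆ = ⊥ ∧ E₁ ⊓ E₂ = ⊥ ∧ ⁅V, E₁⁆ ⊓ ⁅V, E₂⁆ = ⊥ ∧ ⁅V, E⁆ = ⁅V, E₁⁆ ⊔ ⁅V, E₂⁆ := by
  obtain ⟨h1, h2, h3⟩ := main_aux hV _ E E₁ E₂ rfl h
  refine ⟨h1, h2, h3, ?_⟩
  have hE₁ : E₁ ≤ E := h.hgen ▸ le_sup_left
  have hE₂ : E₂ ≤ E := h.hgen ▸ le_sup_right
  have := comm_sup (hE₁.trans h.hEV) (hE₂.trans h.hEV)
  rw [← h.hgen] at this
  exact this

end Cfsg.Agent.Lib.helper24.SubnPair
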